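import Mathlib
import Cfsg.Agent.AschCases.Transv

set_option autoImplicit false
set_option linter.unusedSectionVars false

/-!
Small fields: stabilisers of decompositions into lines (|F| ≤ 4) or planes (|F| = 2; |F| = 3 in dimension 4)
are contained in stabilisers of subspaces or similarity groups of forms.
-/

namespace Cfsg.Agent.AschCases

open scoped Matrix
open Cfsg.Geo

variable {ι : Type} [Fintype ι] [DecidableEq ι] {F : Type*} [Field F]

/-- A basis adapted to an m-decomposition. -/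
lemma exists_basis_decomp {t m : ℕ} {D : Fin t → Submodule F (ι → F)} (hD : IsMDecomposition m D) :
    ∃ b : Module.Basis (Σ _ : Fin t, Fin m) F (ι → F), (∀ i a, b ⟨i, a⟩ ∈ D i) ∧
      (∀ i x, x ∈ D i → ∀ j, j ≠ i → ∀ a, b.repr x ⟨j, a⟩ = 0) := by
  have hint : DirectSum.IsInternal D :=
    DirectSum.isInternal_submodule_of_iSupIndep_of_iSup_eq_top hD.indep hD.iSup_eq_top
  have hb : ∀ i, Nonempty (Module.Basis (Fin m) F (D i)) := by
    intro i
    exact ⟨Module.finBasisOfFinrankEq F (D i) (hD.finrank_eq i)⟩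
  let v : ∀ i, Module.Basis (Fin m) F (D i) := fun i => (hb i).some
  refine ⟨hint.collectedBasis v, fun i a => hint.collectedBasis_mem v ⟨i, a⟩, fun i x hx j hj a => ?_⟩
  exact hint.collectedBasis_repr_of_mem_ne v (Ne.symm hj) hx

lemma card_eq_of_decomp {t m : ℕ} {D : Fin t → Submodule F (ι → F)} (hD : IsMDecomposition m D) :
    Fintype.card ι = t * m := by
  obtain ⟨b, -, -⟩ := exists_basis_decomp hD
  have h1 := Module.finrank_eq_card_basis b
  rw [Module.finrank_fintype_fun_eq_card, Fintype.card_sigma] at h1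
  simpa using h1

/-- Coordinates of elements of the stabiliser of a decomposition. -/
lemma decStab_coord {t m : ℕ} {D : Fin t → Submodule F (ι → F)}
    (b : Module.Basis (Σ _ : Fin t, Fin m) F (ι → F)) (hb : ∀ i a, b ⟨i, a⟩ ∈ D i)
    (hb' : ∀ i x, x ∈ D i → ∀ j, j ≠ i → ∀ a, b.repr x ⟨j, a⟩ = 0)
    (g : Matrix.GeneralLinearGroup ι F) (σ : Equiv.Perm (Fin t))
    (hσ : ∀ i, (D i).map (Matrix.toLin' (g : Matrix ι ι F)) = D (σ i)) :
    ∃ A : Fin t → Matrix (Fin m) (Fin m) F, (∀ i, (A i).det ≠ 0) ∧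
      (∀ i a c, A i c a = b.repr ((g : Matrix ι ι F) *ᵥ b ⟨i, a⟩) ⟨σ i, c⟩) ∧
      (∀ x i a, b.repr ((g : Matrix ι ι F) *ᵥ x) ⟨σ i, a⟩ = ∑ c, A i a c * b.repr x ⟨i, c⟩) := by
  let A : Fin t → Matrix (Fin m) (Fin m) F := fun i c a => b.repr ((g : Matrix ι ι F) *ᵥ b ⟨i, a⟩) ⟨σ i, c⟩
  have hmem : ∀ i a, (g : Matrix ι ι F) *ᵥ b ⟨i, a⟩ ∈ D (σ i) := by
    intro i a
    rw [← hσ i, Submodule.mem_map]
    exact ⟨b ⟨i, a⟩, hb i a, Matrix.toLin'_apply _ _⟩
  have hcoord : ∀ x i a, b.repr ((g : Matrix ι ι F) *ᵥ x) ⟨σ i, a⟩ = ∑ c, A i a c * b.repr x ⟨i, c⟩ := by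
    intro x i a
    have h1 : (g : Matrix ι ι F) *ᵥ x = ∑ k : (Σ _ : Fin t, Fin m), b.repr x k • ((g : Matrix ι ι F) *ᵥ b k) := by
      conv_lhs => rw [← b.sum_repr x]
      rw [← Matrix.mulVecLin_apply, map_sum]
      simp
    rw [h1, map_sum, Finsupp.coe_finsetSum, Finset.sum_apply, Fintype.sum_sigma, Finset.sum_eq_single i]
    · refine Finset.sum_congr rfl fun c _ => ?_
      rw [map_smul, Finsupp.smul_apply, smul_eq_mul, mul_comm]
    · intro j _ hji
      apply Finset.sum_eq_zero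
      intro c _
      rw [map_smul, Finsupp.smul_apply, hb' (σ j) _ (hmem j c) (σ i) (fun h => hji (σ.injective h).symm),
        smul_zero]
    · intro h; exact absurd (Finset.mem_univ _) h
  refine ⟨A, ?_, fun i a c => rfl, hcoord⟩
  intro i hdet
  obtain ⟨w, hw0, hw⟩ := Matrix.exists_mulVec_eq_zero_iff.mpr hdet
  let x : ι → F := ∑ a, w a • b ⟨i, a⟩
  have hxi : ∀ c, b.repr x ⟨i, c⟩ = w c := by
    intro c
    simp only [x]
    rw [map_sum, Finsupp.coe_finsetSum, Finset.sum_apply, Finset.sum_eq_single c]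
    · rw [map_smul, b.repr_self, Finsupp.smul_apply, Finsupp.single_eq_same, smul_eq_mul, mul_one]
    · intro a _ hac
      rw [map_smul, b.repr_self, Finsupp.smul_apply, Finsupp.single_eq_of_ne, smul_zero]
      intro h
      exact hac (by simpa using h.symm)
    · intro h; exact absurd (Finset.mem_univ _) h
  have hxj : ∀ j, j ≠ i → ∀ c, b.repr x ⟨j, c⟩ = 0 := by
    intro j hj c
    exact hb' i x (Submodule.sum_mem _ fun a _ => Submodule.smul_mem _ _ (hb i a)) j hj c
  have hgx : (g : Matrix ι ι F) *ᵥ x = 0 := by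
    apply b.repr.injective
    ext ⟨j, c⟩
    obtain ⟨k, rfl⟩ := σ.surjective j
    rw [hcoord x k c, map_zero, Finsupp.zero_apply]
    by_cases hk : k = i
    · subst hk
      simp_rw [hxi]
      exact congrFun hw c
    · apply Finset.sum_eq_zero
      intro d _
      rw [hxj k hk, mul_zero]
  have hx0 : x = 0 := by
    have := congrArg (fun w => ((g⁻¹ : Matrix.GeneralLinearGroup ι F) : Matrix ι ι F) *ᵥ w) hgx
    simpa [Matrix.mulVec_mulVec, ← Units.val_mul] using this
  apply hw0
  funext c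
  rw [← hxi c, hx0, map_zero]
  rfl

/-- Reindexing a sum over the blocks. -/
lemma sum_perm_eq {t : ℕ} {M : Type*} [AddCommMonoid M] (σ : Equiv.Perm (Fin t)) (f : Fin t → M) :
    ∑ i, f i = ∑ i, f (σ i) := (Equiv.sum_comp σ f).symm

section Forms

variable {t m : ℕ}

/-- The quadratic form `Σ x_i²` in coordinates. -/
noncomputable def sqForm (b : Module.Basis (Σ _ : Fin t, Fin 1) F (ι → F)) (x : ι → F) : F :=
  ∑ i, (b.repr x ⟨i, 0⟩) ^ 2

/-- The form `Σ x_i σ(y_i)` in coordinates. -/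
noncomputable def sesqForm (b : Module.Basis (Σ _ : Fin t, Fin 1) F (ι → F)) (σ : F →+* F)
    (x y : ι → F) : F :=
  ∑ i, b.repr x ⟨i, 0⟩ * σ (b.repr y ⟨i, 0⟩)

/-- The orthogonal sum of the determinant forms on the planes. -/
noncomputable def altForm (b : Module.Basis (Σ _ : Fin t, Fin 2) F (ι → F)) (x y : ι → F) : F :=
  ∑ i, (b.repr x ⟨i, 0⟩ * b.repr y ⟨i, 1⟩ - b.repr x ⟨i, 1⟩ * b.repr y ⟨i, 0⟩)

lemma exists_repr_ne_zero {κ : Type*} (b : Module.Basis κ F (ι → F)) (v : ι → F) (hv : v ≠ 0) :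
    ∃ k, b.repr v k ≠ 0 := by
  by_contra hcon
  push Not at hcon
  apply hv
  apply b.repr.injective
  ext k
  rw [hcon k, map_zero]; rfl

lemma polar_sqForm (b : Module.Basis (Σ _ : Fin t, Fin 1) F (ι → F)) (x y : ι → F) :
    QuadraticMap.polar (sqForm b) x y = 2 * ∑ i, b.repr x ⟨i, 0⟩ * b.repr y ⟨i, 0⟩ := by
  simp only [QuadraticMap.polar, sqForm, map_add, Finsupp.add_apply]
  rw [← Finset.sum_sub_distrib, ← Finset.sum_sub_distrib, Finset.mul_sum]
  refine Finset.sum_congr rfl fun i _ => ?_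
  ring

lemma isNondeg_sqForm (b : Module.Basis (Σ _ : Fin t, Fin 1) F (ι → F)) (h2 : (2 : F) ≠ 0) :
    IsNondegenerateQuadraticForm (sqForm b) := by
  refine ⟨?_, ?_, ?_⟩
  · intro c v
    simp only [sqForm, map_smul, Finsupp.smul_apply, smul_eq_mul, mul_pow, Finset.mul_sum]
  · constructor
    · intro x y v
      simp only [polar_sqForm, map_add, Finsupp.add_apply, add_mul, Finset.sum_add_distrib, mul_add]
    · intro c x v
      simp only [polar_sqForm, map_smul, Finsupp.smul_apply, smul_eq_mul, Finset.mul_sum]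
      refine Finset.sum_congr rfl fun i _ => ?_
      ring
    · intro v x y
      simp only [polar_sqForm, map_add, Finsupp.add_apply, mul_add, Finset.sum_add_distrib]
    · intro c v x
      simp only [polar_sqForm, map_smul, Finsupp.smul_apply, smul_eq_mul, Finset.mul_sum]
      refine Finset.sum_congr rfl fun i _ => ?_
      ring
  · intro v hv
    obtain ⟨⟨i, a⟩, hi⟩ := exists_repr_ne_zero b v hv
    have ha : a = 0 := Subsingleton.elim _ _
    subst ha
    have h1 : ∀ j, b.repr (b ⟨i, 0⟩) ⟨j, 0⟩ = if j = i then 1 else 0 := by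
      intro j
      rw [b.repr_self, Finsupp.single_apply]
      simp [eq_comm]
    refine ⟨⟨b ⟨i, 0⟩, ?_⟩, ⟨b ⟨i, 0⟩, ?_⟩⟩
    · rw [polar_sqForm]
      simp only [h1, ite_mul, one_mul, zero_mul, Finset.sum_ite_eq', Finset.mem_univ, if_true]
      exact mul_ne_zero h2 hi
    · rw [polar_sqForm]
      simp only [h1, mul_ite, mul_one, mul_zero, Finset.sum_ite_eq', Finset.mem_univ, if_true]
      exact mul_ne_zero h2 hi

lemma isUnitary_sesqForm (b : Module.Basis (Σ _ : Fin t, Fin 1) F (ι → F)) (σ : F ≃+* F)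
    (hσ : σ ≠ RingEquiv.refl F) (hinv : ∀ a, σ (σ a) = a) :
    IsUnitaryForm σ (sesqForm b (σ : F →+* F)) := by
  refine ⟨hσ, hinv, ?_, ?_, ?_, ?_⟩
  · intro x y v
    simp only [sesqForm, map_add, Finsupp.add_apply, add_mul, Finset.sum_add_distrib]
  · intro c x v
    simp only [sesqForm, map_smul, Finsupp.smul_apply, smul_eq_mul, Finset.mul_sum, mul_assoc]
  · intro v w
    simp only [sesqForm, map_sum, map_mul, RingEquiv.coe_toRingHom, hinv]
    exact Finset.sum_congr rfl fun i _ => mul_comm _ _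
  · intro v hv
    obtain ⟨⟨i, a⟩, hi⟩ := exists_repr_ne_zero b v hv
    have ha : a = 0 := Subsingleton.elim _ _
    subst ha
    have h1 : ∀ j, b.repr (b ⟨i, 0⟩) ⟨j, 0⟩ = if j = i then 1 else 0 := by
      intro j
      rw [b.repr_self, Finsupp.single_apply]
      simp [eq_comm]
    refine ⟨⟨b ⟨i, 0⟩, ?_⟩, ⟨b ⟨i, 0⟩, ?_⟩⟩
    · simp only [sesqForm, h1, ite_mul, one_mul, zero_mul, Finset.sum_ite_eq', Finset.mem_univ, if_true]
      rw [RingEquiv.coe_toRingHom]
      exact (map_ne_zero σ).mpr hi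
    · simp only [sesqForm, h1, RingEquiv.coe_toRingHom, apply_ite σ, map_one, map_zero, mul_ite, mul_one,
        mul_zero, Finset.sum_ite_eq', Finset.mem_univ, if_true]
      exact hi

lemma isSymplectic_altForm (b : Module.Basis (Σ _ : Fin t, Fin 2) F (ι → F)) :
    IsSymplecticForm (altForm b) := by
  have hskew : ∀ v w, altForm b v w = - altForm b w v := by
    intro v w
    simp only [altForm]
    rw [← Finset.sum_neg_distrib]
    refine Finset.sum_congr rfl fun i _ => ?_
    ring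
  refine ⟨?_, hskew, ?_, ?_⟩
  · constructor
    · intro x y v
      simp only [altForm, map_add, Finsupp.add_apply]
      rw [← Finset.sum_add_distrib]
      refine Finset.sum_congr rfl fun i _ => ?_
      ring
    · intro c x v
      simp only [altForm, map_smul, Finsupp.smul_apply, smul_eq_mul, Finset.mul_sum]
      refine Finset.sum_congr rfl fun i _ => ?_
      ring
    · intro v x y
      simp only [altForm, map_add, Finsupp.add_apply]
      rw [← Finset.sum_add_distrib]
      refine Finset.sum_congr rfl fun i _ => ?_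
      ring
    · intro c v x
      simp only [altForm, map_smul, Finsupp.smul_apply, smul_eq_mul, Finset.mul_sum]
      refine Finset.sum_congr rfl fun i _ => ?_
      ring
  · intro v
    simp only [altForm]
    apply Finset.sum_eq_zero
    intro i _
    ring
  · intro v hv
    obtain ⟨⟨i, a⟩, hi⟩ := exists_repr_ne_zero b v hv
    have hex : ∃ x, altForm b x v ≠ 0 := by
      have h1 : ∀ (c d : Fin 2) j, b.repr (b ⟨i, c⟩) ⟨j, d⟩ = if j = i ∧ c = d then 1 else 0 := by
        intro c d j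
        rw [b.repr_self, Finsupp.single_apply]
        congr 1
        rw [eq_iff_iff]
        constructor
        · intro h
          have h2 := Sigma.mk.inj_iff.mp h
          exact ⟨h2.1.symm, eq_of_heq h2.2⟩
        · rintro ⟨rfl, rfl⟩; rfl
      fin_cases a
      · refine ⟨b ⟨i, 1⟩, ?_⟩
        simp only [altForm, h1]
        simp only [one_ne_zero, and_false, if_false, zero_mul, and_true, ite_mul, one_mul, zero_sub]
        rw [Finset.sum_neg_distrib]
        simp only [Finset.sum_ite_eq', Finset.mem_univ, if_true]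
        exact neg_ne_zero.mpr hi
      · refine ⟨b ⟨i, 0⟩, ?_⟩
        simp only [altForm, h1]
        simp only [zero_ne_one, and_false, if_false, zero_mul, and_true, ite_mul, one_mul, sub_zero]
        simp only [Finset.sum_ite_eq', Finset.mem_univ, if_true]
        exact hi
    obtain ⟨x, hx⟩ := hex
    exact ⟨⟨x, hx⟩, ⟨x, by rw [hskew]; exact neg_ne_zero.mpr hx⟩⟩

end Forms

section Contain

variable {t : ℕ}

/-- Decompositions into lines over the field with two elements: a vector is fixed. -/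
lemma decStab_lines_two [Fintype F] (hq : Fintype.card F = 2) {D : Fin t → Submodule F (ι → F)}
    (hD : IsMDecomposition 1 D) :
    ∃ W : Submodule F (ι → F), W ≠ ⊥ ∧ W ≠ ⊤ ∧ decompositionStabilizer D ≤ subspaceStabilizer W := by
  obtain ⟨b, hb, hb'⟩ := exists_basis_decomp hD
  have hF : ∀ c : F, c ≠ 0 → c = 1 := by
    intro c hc
    have := FiniteField.pow_card_sub_one_eq_one c hc
    rw [hq] at this
    simpa using this
  let s : ι → F := ∑ k, b k
  have hs : ∀ k, b.repr s k = 1 := by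
    intro k
    simp only [s, map_sum, b.repr_self, Finsupp.coe_finsetSum, Finset.sum_apply]
    rw [Finset.sum_eq_single k]
    · exact Finsupp.single_eq_same
    · intro j _ hj; exact Finsupp.single_eq_of_ne (Ne.symm hj)
    · intro h; exact absurd (Finset.mem_univ _) h
  have ht := hD.two_le
  have hs0 : s ≠ 0 := by
    intro h
    have := hs ⟨⟨0, by omega⟩, 0⟩
    rw [h, map_zero] at this
    exact zero_ne_one this
  refine ⟨Submodule.span F {s}, ?_, ?_, ?_⟩
  · rw [Ne, Submodule.span_singleton_eq_bot]; exact hs0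
  · intro h
    have h1 := finrank_span_singleton (K := F) hs0
    rw [h, finrank_top, Module.finrank_fintype_fun_eq_card, card_eq_of_decomp hD] at h1
    omega
  · intro g hg
    have hfix : ∀ g ∈ decompositionStabilizer D, (g : Matrix ι ι F) *ᵥ s = s := by
      intro g hg
      obtain ⟨σ, hσ⟩ := mem_decompositionStabilizer.mp hg
      obtain ⟨A, hA, -, hA'⟩ := decStab_coord b hb hb' g σ hσ
      apply b.repr.injective
      ext ⟨j, a⟩
      obtain ⟨i, rfl⟩ := σ.surjective j
      rw [hA', hs]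
      simp only [hs, mul_one, Finset.univ_unique, Finset.sum_singleton]
      have h1 := hA i
      rw [Matrix.det_unique] at h1
      have ha : a = default := Subsingleton.elim _ _
      rw [ha]
      exact hF _ h1
    rw [mem_subspaceStabilizer]
    intro v
    rw [Submodule.mem_span_singleton, Submodule.mem_span_singleton]
    constructor
    · rintro ⟨c, rfl⟩
      exact ⟨c, by rw [Matrix.mulVec_smul, hfix g hg]⟩
    · rintro ⟨c, hc⟩
      refine ⟨c, ?_⟩
      have h1 := hfix g⁻¹ ((decompositionStabilizer D).inv_mem hg)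
      have h2 := congrArg (fun w => ((g⁻¹ : Matrix.GeneralLinearGroup ι F) : Matrix ι ι F) *ᵥ w) hc
      simp only [Matrix.mulVec_smul, h1] at h2
      rwa [Matrix.mulVec_mulVec, ← Units.val_mul, inv_mul_cancel, Units.val_one, Matrix.one_mulVec] at h2

lemma decStab_lines_coord {D : Fin t → Submodule F (ι → F)}
    (b : Module.Basis (Σ _ : Fin t, Fin 1) F (ι → F)) (hb : ∀ i a, b ⟨i, a⟩ ∈ D i)
    (hb' : ∀ i x, x ∈ D i → ∀ j, j ≠ i → ∀ a, b.repr x ⟨j, a⟩ = 0)
    (g : Matrix.GeneralLinearGroup ι F) (σ : Equiv.Perm (Fin t))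
    (hσ : ∀ i, (D i).map (Matrix.toLin' (g : Matrix ι ι F)) = D (σ i)) :
    ∃ c : Fin t → F, (∀ i, c i ≠ 0) ∧
      (∀ x i, b.repr ((g : Matrix ι ι F) *ᵥ x) ⟨σ i, 0⟩ = c i * b.repr x ⟨i, 0⟩) := by
  obtain ⟨A, hA, -, hA'⟩ := decStab_coord b hb hb' g σ hσ
  refine ⟨fun i => A i 0 0, fun i => ?_, fun x i => ?_⟩
  · have h1 := hA i
    rwa [Matrix.det_unique] at h1
  · rw [hA']
    simp

/-- Decompositions into lines over the field with three elements: a quadratic form is preserved. -/
lemma decStab_lines_three [Fintype F] (hq : Fintype.card F = 3) {D : Fin t → Submodule F (ι → F)}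
    (hD : IsMDecomposition 1 D) :
    ∃ Q : (ι → F) → F, IsNondegenerateQuadraticForm Q ∧ decompositionStabilizer D ≤ quadSimilarityGroup Q := by
  obtain ⟨b, hb, hb'⟩ := exists_basis_decomp hD
  have h3 : CharP F 3 := by
    have : Fact (Nat.Prime 3) := ⟨Nat.prime_three⟩
    exact charP_of_card_eq_prime hq
  have h2 : (2 : F) ≠ 0 := by
    intro h
    have h4 : ((2 : ℕ) : F) = 0 := by exact_mod_cast h
    rw [CharP.cast_eq_zero_iff F 3] at h4
    omega
  refine ⟨sqForm b, isNondeg_sqForm b h2, ?_⟩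
  intro g hg
  obtain ⟨σ, hσ⟩ := mem_decompositionStabilizer.mp hg
  obtain ⟨c, hc, hc'⟩ := decStab_lines_coord b hb hb' g σ hσ
  refine ⟨1, fun v => ?_⟩
  rw [Units.val_one, one_mul, sqForm, sqForm, sum_perm_eq σ]
  refine Finset.sum_congr rfl fun i _ => ?_
  rw [hc', mul_pow]
  have h4 := FiniteField.pow_card_sub_one_eq_one (c i) (hc i)
  rw [hq] at h4
  rw [h4, one_mul]

/-- Decompositions into lines over the field with four elements: a unitary form is preserved. -/
lemma decStab_lines_four [Fintype F] (hq : Fintype.card F = 4) {D : Fin t → Submodule F (ι → F)}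
    (hD : IsMDecomposition 1 D) :
    ∃ (σ : F ≃+* F) (f : (ι → F) → (ι → F) → F), IsUnitaryForm σ f ∧
      decompositionStabilizer D ≤ similarityGroup f := by
  obtain ⟨b, hb, hb'⟩ := exists_basis_decomp hD
  have : Fact (Nat.Prime 2) := ⟨Nat.prime_two⟩
  have h2 : CharP F 2 := by
    obtain ⟨p, hp⟩ := CharP.exists F
    obtain ⟨n, hpp, hn⟩ := FiniteField.card F p
    have h4 : p ∣ 2 ^ 2 := by
      rw [show (2 : ℕ) ^ 2 = 4 from rfl, ← hq, hn]
      exact dvd_pow_self p n.ne_zero
    have h5 : p = 2 := (Nat.prime_dvd_prime_iff_eq hpp Nat.prime_two).mp (hpp.dvd_of_dvd_pow h4)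
    rwa [h5] at hp
  let σ : F ≃+* F := frobeniusEquiv F 2
  have hσdef : ∀ a, σ a = a ^ 2 := fun a => frobeniusEquiv_def F 2 a
  have hσσ : ∀ a, σ (σ a) = a := by
    intro a
    rw [hσdef, hσdef, ← pow_mul]
    have := FiniteField.pow_card a
    rw [hq] at this
    exact this
  have hσne : σ ≠ RingEquiv.refl F := by
    intro h
    -- every element satisfies a ^ 2 = a
    have h1 : ∀ a : F, a ^ 2 = a := by
      intro a
      rw [← hσdef, h]; rfl
    have h3 : ∀ a : F, a = 0 ∨ a = 1 := by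
      intro a
      have h4 : a * (a - 1) = 0 := by
        have := h1 a
        rw [mul_sub, mul_one, ← pow_two, this, sub_self]
      rcases mul_eq_zero.mp h4 with h5 | h5
      · left; exact h5
      · right; exact sub_eq_zero.mp h5
    classical
    have h4 : (Finset.univ : Finset F) ⊆ {0, 1} := by
      intro a _
      simpa using h3 a
    have h5 := Finset.card_le_card h4
    rw [Finset.card_univ, hq] at h5
    have h6 : ({0, 1} : Finset F).card ≤ 2 := Finset.card_le_two
    omega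
  refine ⟨σ, sesqForm b (σ : F →+* F), isUnitary_sesqForm b σ hσne hσσ, ?_⟩
  intro g hg
  obtain ⟨τ, hτ⟩ := mem_decompositionStabilizer.mp hg
  obtain ⟨c, hc, hc'⟩ := decStab_lines_coord b hb hb' g τ hτ
  refine ⟨1, fun u v => ?_⟩
  rw [Units.val_one, one_mul, sesqForm, sesqForm, sum_perm_eq τ]
  refine Finset.sum_congr rfl fun i _ => ?_
  rw [hc', hc', RingEquiv.coe_toRingHom, map_mul]
  have h4 := FiniteField.pow_card_sub_one_eq_one (c i) (hc i)
  rw [hq] at h4
  have h5 : c i * σ (c i) = 1 := by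
    rw [hσdef, ← h4]; ring
  calc c i * b.repr u ⟨i, 0⟩ * (σ (c i) * σ (b.repr v ⟨i, 0⟩))
      = (c i * σ (c i)) * (b.repr u ⟨i, 0⟩ * σ (b.repr v ⟨i, 0⟩)) := by ring
    _ = b.repr u ⟨i, 0⟩ * σ (b.repr v ⟨i, 0⟩) := by rw [h5, one_mul]

/-- The determinant form under an element of the stabiliser of a decomposition into planes. -/
lemma altForm_decStab {D : Fin t → Submodule F (ι → F)}
    (b : Module.Basis (Σ _ : Fin t, Fin 2) F (ι → F)) (hb : ∀ i a, b ⟨i, a⟩ ∈ D i)
    (hb' : ∀ i x, x ∈ D i → ∀ j, j ≠ i → ∀ a, b.repr x ⟨j, a⟩ = 0)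
    (g : Matrix.GeneralLinearGroup ι F) (σ : Equiv.Perm (Fin t))
    (hσ : ∀ i, (D i).map (Matrix.toLin' (g : Matrix ι ι F)) = D (σ i)) :
    ∃ A : Fin t → Matrix (Fin 2) (Fin 2) F, (∀ i, (A i).det ≠ 0) ∧
      (∀ i a c, A i c a = b.repr ((g : Matrix ι ι F) *ᵥ b ⟨i, a⟩) ⟨σ i, c⟩) ∧
      (∀ x y, altForm b ((g : Matrix ι ι F) *ᵥ x) ((g : Matrix ι ι F) *ᵥ y) =
        ∑ i, (A i).det * (b.repr x ⟨i, 0⟩ * b.repr y ⟨i, 1⟩ - b.repr x ⟨i, 1⟩ * b.repr y ⟨i, 0⟩)) := by
  obtain ⟨A, hA, hA'', hA'⟩ := decStab_coord b hb hb' g σ hσ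
  refine ⟨A, hA, hA'', fun x y => ?_⟩
  rw [altForm, sum_perm_eq σ]
  refine Finset.sum_congr rfl fun i _ => ?_
  rw [hA', hA', hA', hA', Matrix.det_fin_two]
  simp only [Fin.sum_univ_two]
  ring

/-- Decompositions into planes over the field with two elements: a symplectic form is preserved. -/
lemma decStab_planes_two [Fintype F] (hq : Fintype.card F = 2) {D : Fin t → Submodule F (ι → F)}
    (hD : IsMDecomposition 2 D) :
    ∃ f : (ι → F) → (ι → F) → F, IsSymplecticForm f ∧ decompositionStabilizer D ≤ similarityGroup f := by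
  obtain ⟨b, hb, hb'⟩ := exists_basis_decomp hD
  have hF : ∀ c : F, c ≠ 0 → c = 1 := by
    intro c hc
    have := FiniteField.pow_card_sub_one_eq_one c hc
    rw [hq] at this
    simpa using this
  refine ⟨altForm b, isSymplectic_altForm b, ?_⟩
  intro g hg
  obtain ⟨σ, hσ⟩ := mem_decompositionStabilizer.mp hg
  obtain ⟨A, hA, -, hA'⟩ := altForm_decStab b hb hb' g σ hσ
  refine ⟨1, fun u v => ?_⟩
  rw [hA', Units.val_one, one_mul, altForm]
  refine Finset.sum_congr rfl fun i _ => ?_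
  rw [hF _ (hA i), one_mul]

/-- The permutation of the blocks. -/
def blockPerm {t : ℕ} (m : ℕ) (σ : Equiv.Perm (Fin t)) : Equiv.Perm (Σ _ : Fin t, Fin m) where
  toFun x := ⟨σ x.1, x.2⟩
  invFun x := ⟨σ.symm x.1, x.2⟩
  left_inv x := by simp
  right_inv x := by simp

lemma sign_two_planes (σ : Equiv.Perm (Fin 2)) : Equiv.Perm.sign (blockPerm 2 σ) = 1 := by
  revert σ; decide

/-- The determinant of an element of the stabiliser of a decomposition. -/
lemma det_decStab {m : ℕ} {D : Fin t → Submodule F (ι → F)}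
    (b : Module.Basis (Σ _ : Fin t, Fin m) F (ι → F)) (hb : ∀ i a, b ⟨i, a⟩ ∈ D i)
    (hb' : ∀ i x, x ∈ D i → ∀ j, j ≠ i → ∀ a, b.repr x ⟨j, a⟩ = 0)
    (g : Matrix.GeneralLinearGroup ι F) (σ : Equiv.Perm (Fin t))
    (hσ : ∀ i, (D i).map (Matrix.toLin' (g : Matrix ι ι F)) = D (σ i))
    (A : Fin t → Matrix (Fin m) (Fin m) F)
    (hA : ∀ i a c, A i c a = b.repr ((g : Matrix ι ι F) *ᵥ b ⟨i, a⟩) ⟨σ i, c⟩) :
    ((Equiv.Perm.sign (blockPerm m σ) : ℤ) : F) * (g : Matrix ι ι F).det = ∏ i, (A i).det := by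
  have h1 : (g : Matrix ι ι F).det = (LinearMap.toMatrix b b (Matrix.toLin' (g : Matrix ι ι F))).det := by
    rw [LinearMap.det_toMatrix, LinearMap.det_toLin']
  rw [h1, ← Matrix.det_permute, ← Matrix.det_blockDiagonal]
  let e : (Fin m × Fin t) ≃ (Σ _ : Fin t, Fin m) :=
    { toFun := fun x => ⟨x.2, x.1⟩
      invFun := fun x => (x.2, x.1)
      left_inv := fun x => rfl
      right_inv := fun x => rfl }
  rw [← Matrix.det_submatrix_equiv_self e]
  congr 1
  ext ⟨c, j⟩ ⟨a, i⟩
  rw [Matrix.submatrix_apply, Matrix.submatrix_apply, Matrix.blockDiagonal_apply, LinearMap.toMatrix_apply]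
  show b.repr (Matrix.toLin' (g : Matrix ι ι F) (b ⟨i, a⟩)) ⟨σ j, c⟩ = if j = i then A j c a else 0
  rw [Matrix.toLin'_apply]
  have hmem : (g : Matrix ι ι F) *ᵥ b ⟨i, a⟩ ∈ D (σ i) := by
    rw [← hσ i, Submodule.mem_map]
    exact ⟨b ⟨i, a⟩, hb i a, Matrix.toLin'_apply _ _⟩
  split_ifs with h
  · subst h; rw [hA]
  · exact hb' (σ i) _ hmem (σ j) (fun h' => h (σ.injective h')) c

/-- Decompositions of a 4-space into two planes over the field with three elements. -/
lemma decStab_planes_three [Fintype F] (hq : Fintype.card F = 3) {D : Fin 2 → Submodule F (ι → F)}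
    (hD : IsMDecomposition 2 D) :
    ∃ f : (ι → F) → (ι → F) → F, IsSymplecticForm f ∧
      decompositionStabilizer D ⊓ specialLinear ι F ≤ similarityGroup f := by
  obtain ⟨b, hb, hb'⟩ := exists_basis_decomp hD
  refine ⟨altForm b, isSymplectic_altForm b, ?_⟩
  rintro g ⟨hg, hg1⟩
  have hg1' : (g : Matrix ι ι F).det = 1 := mem_specialLinear.mp hg1
  obtain ⟨σ, hσ⟩ := mem_decompositionStabilizer.mp hg
  obtain ⟨A, hA, hA'', hA'⟩ := altForm_decStab b hb hb' g σ hσ
  have hdet := det_decStab b hb hb' g σ hσ A hA''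
  rw [sign_two_planes, hg1', Fin.prod_univ_two] at hdet
  have hsq : (A 0).det ^ 2 = 1 := by
    have := FiniteField.pow_card_sub_one_eq_one (A 0).det (hA 0)
    rwa [hq] at this
  have h01 : (A 1).det = (A 0).det := by
    have h1 : (A 0).det * (A 1).det = 1 := by rw [← hdet]; simp
    calc (A 1).det = (A 0).det ^ 2 * (A 1).det := by rw [hsq, one_mul]
      _ = (A 0).det * ((A 0).det * (A 1).det) := by ring
      _ = (A 0).det := by rw [h1, mul_one]
  refine ⟨Units.mk0 _ (hA 0), fun u v => ?_⟩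
  rw [hA', Units.val_mk0, altForm]
  simp only [Fin.sum_univ_two, h01]
  ring

end Contain

end Cfsg.Agent.AschCases
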