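import Mathlib
import Cfsg.Agent.AschCases.SmallQ

set_option autoImplicit false
set_option linter.unusedSectionVars false
set_option linter.style.haveILetI false

/-!
The decomposition attached to a basis indexed by blocks.
-/

namespace Cfsg.Agent.AschCases

open scoped Matrix
open Cfsg.Geo

variable {ι : Type} [Fintype ι] [DecidableEq ι] {F : Type*} [Field F] {t k : ℕ}

/-- The i-th block: the vectors whose coordinates outside the block vanish. -/
def blk (b : Module.Basis (Fin t × Fin k) F (ι → F)) (i : Fin t) : Submodule F (ι → F) where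
  carrier := {v | ∀ j, j ≠ i → ∀ a, b.repr v (j, a) = 0}
  add_mem' := by
    intro v w hv hw j hj a
    rw [map_add, Finsupp.add_apply, hv j hj a, hw j hj a, add_zero]
  zero_mem' := by
    intro j _ a
    rw [map_zero, Finsupp.zero_apply]
  smul_mem' := by
    intro c v hv j hj a
    rw [map_smul, Finsupp.smul_apply, hv j hj a, smul_zero]

lemma mem_blk {b : Module.Basis (Fin t × Fin k) F (ι → F)} {i : Fin t} {v : ι → F} :
    v ∈ blk b i ↔ ∀ j, j ≠ i → ∀ a, b.repr v (j, a) = 0 := Iff.rfl

lemma basis_mem_blk (b : Module.Basis (Fin t × Fin k) F (ι → F)) (i : Fin t) (a : Fin k) : b (i, a) ∈ blk b i := by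
  intro j hj a'
  rw [b.repr_self, Finsupp.single_apply, if_neg]
  intro h
  exact hj (Prod.ext_iff.1 h).1.symm

lemma blk_sum_repr (b : Module.Basis (Fin t × Fin k) F (ι → F)) (v : ι → F) :
    v = ∑ i, ∑ a, b.repr v (i, a) • b (i, a) := by
  rw [← Fintype.sum_prod_type' (f := fun i a => b.repr v (i, a) • b (i, a))]
  exact (b.sum_repr v).symm

lemma blk_eq_sum (b : Module.Basis (Fin t × Fin k) F (ι → F)) {i : Fin t} {v : ι → F} (hv : v ∈ blk b i) :
    v = ∑ a, b.repr v (i, a) • b (i, a) := by
  conv_lhs => rw [blk_sum_repr b v]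
  rw [Finset.sum_eq_single i]
  · intro j _ hj
    exact Finset.sum_eq_zero fun a _ => by rw [hv j hj a, zero_smul]
  · intro h; exact absurd (Finset.mem_univ _) h

lemma blk_eq_span (b : Module.Basis (Fin t × Fin k) F (ι → F)) (i : Fin t) :
    blk b i = Submodule.span F (Set.range fun a => b (i, a)) := by
  apply le_antisymm
  · intro v hv
    rw [blk_eq_sum b hv]
    exact Submodule.sum_mem _ fun a _ => Submodule.smul_mem _ _ (Submodule.subset_span ⟨a, rfl⟩)
  · rw [Submodule.span_le]
    rintro _ ⟨a, rfl⟩
    exact basis_mem_blk b i a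

lemma blk_finrank (b : Module.Basis (Fin t × Fin k) F (ι → F)) (i : Fin t) : Module.finrank F (blk b i) = k := by
  have hli : LinearIndependent F (fun a : Fin k => b (i, a)) :=
    b.linearIndependent.comp (fun a => (i, a)) (fun a a' h => (Prod.ext_iff.1 h).2)
  rw [blk_eq_span, finrank_span_eq_card hli, Fintype.card_fin]

lemma blk_isMDecomposition (b : Module.Basis (Fin t × Fin k) F (ι → F)) (ht : 2 ≤ t) (hk : 0 < k) :
    IsMDecomposition k (blk b) where
  two_le := ht
  pos := hk
  finrank_eq := blk_finrank b
  indep := by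
    intro i
    rw [Submodule.disjoint_def]
    intro v hv hv'
    have h1 : ∀ a, b.repr v (i, a) = 0 := by
      have hle : (⨆ (j) (_ : j ≠ i), blk b j) ≤
          { carrier := {v : ι → F | ∀ a, b.repr v (i, a) = 0}
            add_mem' := by
              intro v w hv hw a
              rw [map_add, Finsupp.add_apply, hv a, hw a, add_zero]
            zero_mem' := by
              intro a
              rw [map_zero, Finsupp.zero_apply]
            smul_mem' := by
              intro c v hv a
              rw [map_smul, Finsupp.smul_apply, hv a, smul_zero] } := by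
        refine iSup₂_le fun j hj w hw a => ?_
        exact hw i (Ne.symm hj) a
      exact hle hv'
    rw [blk_eq_sum b hv]
    exact Finset.sum_eq_zero fun a _ => by rw [h1, zero_smul]
  iSup_eq_top := by
    rw [eq_top_iff]
    intro v _
    rw [blk_sum_repr b v]
    exact Submodule.sum_mem _ fun i _ => Submodule.sum_mem _ fun a _ =>
      Submodule.smul_mem _ _ (Submodule.mem_iSup_of_mem i (basis_mem_blk b i a))

/-- A criterion for membership in the stabiliser. -/
lemma mem_decStab_blk (b : Module.Basis (Fin t × Fin k) F (ι → F)) (g : Matrix.GeneralLinearGroup ι F)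
    (σ : Equiv.Perm (Fin t)) (h : ∀ i a, (g : Matrix ι ι F) *ᵥ b (i, a) ∈ blk b (σ i)) :
    g ∈ decompositionStabilizer (blk b) := by
  rw [mem_decompositionStabilizer]
  refine ⟨σ, fun i => ?_⟩
  have hle : (blk b i).map (Matrix.toLin' (g : Matrix ι ι F)) ≤ blk b (σ i) := by
    rw [blk_eq_span b i, Submodule.map_span, Submodule.span_le]
    rintro _ ⟨_, ⟨a, rfl⟩, rfl⟩
    exact h i a
  apply Submodule.eq_of_le_of_finrank_eq hle
  rw [blk_finrank]
  have hinj : Function.Injective (Matrix.toLin' (g : Matrix ι ι F)) := by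
    intro x y hxy
    have h1 := congrArg (fun w => ((g⁻¹ : Matrix.GeneralLinearGroup ι F) : Matrix ι ι F) *ᵥ w) hxy
    simp only [Matrix.toLin'_apply, Matrix.mulVec_mulVec] at h1
    rwa [← Units.val_mul, inv_mul_cancel, Units.val_one, Matrix.one_mulVec, Matrix.one_mulVec] at h1
  rw [← LinearEquiv.finrank_eq (Submodule.equivMapOfInjective _ hinj (blk b i)), blk_finrank]

end Cfsg.Agent.AschCases
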