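import Mathlib
import Cfsg.Agent.AschCases.Transv

set_option autoImplicit false
set_option linter.unusedSectionVars false

/-!
Over the field with two elements the stabiliser of a tensor decomposition with a 2-dimensional factor
normalises a quadratic extension field.
-/

namespace Cfsg.Agent.AschCases

open scoped Matrix Kronecker
open Cfsg.Geo

variable {ι : Type} [Fintype ι] [DecidableEq ι] {F : Type*} [Field F]

/-- The algebra map `a ↦ P (a ⊗ 1) P⁻¹`. -/
noncomputable def tensAlg {n₁ n₂ : ℕ} (e : ι ≃ Fin n₁ × Fin n₂) (P : Matrix.GeneralLinearGroup ι F) :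
    Matrix (Fin n₁) (Fin n₁) F →ₐ[F] Matrix ι ι F :=
  AlgHom.ofLinearMap
    { toFun := fun a => (P : Matrix ι ι F) * (Matrix.reindex e.symm e.symm (a ⊗ₖ (1 : Matrix (Fin n₂) (Fin n₂) F))) *
        ((P⁻¹ : Matrix.GeneralLinearGroup ι F) : Matrix ι ι F)
      map_add' := fun a b => by
        rw [Matrix.add_kronecker]
        simp only [Matrix.reindex_apply, Matrix.submatrix_add, Pi.add_apply, mul_add, add_mul]
      map_smul' := fun c a => by
        rw [Matrix.smul_kronecker]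
        simp only [Matrix.reindex_apply, Matrix.submatrix_smul, Pi.smul_apply, Matrix.mul_smul,
          Matrix.smul_mul, RingHom.id_apply] }
    (by
      simp only [LinearMap.coe_mk, AddHom.coe_mk, Matrix.one_kronecker_one, Matrix.reindex_apply,
        Matrix.submatrix_one_equiv, mul_one]
      rw [← Units.val_mul, mul_inv_cancel, Units.val_one])
    (by
      intro a b
      simp only [LinearMap.coe_mk, AddHom.coe_mk]
      have h1 : (a * b) ⊗ₖ (1 : Matrix (Fin n₂) (Fin n₂) F) = (a ⊗ₖ (1 : Matrix (Fin n₂) (Fin n₂) F)) * (b ⊗ₖ 1) := by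
        rw [← Matrix.mul_kronecker_mul, mul_one]
      rw [h1]
      simp only [Matrix.reindex_apply]
      rw [← Matrix.submatrix_mul_equiv _ _ _ e.symm.symm]
      have h2 : ∀ X Y : Matrix ι ι F, (P : Matrix ι ι F) * (X * Y) * ((P⁻¹ : Matrix.GeneralLinearGroup ι F) : Matrix ι ι F)
          = (P : Matrix ι ι F) * X * ((P⁻¹ : Matrix.GeneralLinearGroup ι F) : Matrix ι ι F) *
            ((P : Matrix ι ι F) * Y * ((P⁻¹ : Matrix.GeneralLinearGroup ι F) : Matrix ι ι F)) := by
        intro X Y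
        have h3 : ((P⁻¹ : Matrix.GeneralLinearGroup ι F) : Matrix ι ι F) * (P : Matrix ι ι F) = 1 := by
          rw [← Units.val_mul, inv_mul_cancel, Units.val_one]
        calc _ = (P : Matrix ι ι F) * X * 1 * Y * ((P⁻¹ : Matrix.GeneralLinearGroup ι F) : Matrix ι ι F) := by
              rw [mul_one]; simp only [mul_assoc]
          _ = _ := by rw [← h3]; simp only [mul_assoc]
      exact h2 _ _)

lemma tensAlg_apply {n₁ n₂ : ℕ} (e : ι ≃ Fin n₁ × Fin n₂) (P : Matrix.GeneralLinearGroup ι F)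
    (a : Matrix (Fin n₁) (Fin n₁) F) :
    tensAlg e P a = (P : Matrix ι ι F) * (Matrix.reindex e.symm e.symm (a ⊗ₖ (1 : Matrix (Fin n₂) (Fin n₂) F))) *
        ((P⁻¹ : Matrix.GeneralLinearGroup ι F) : Matrix ι ι F) := rfl

lemma tensAlg_injective {n₁ n₂ : ℕ} (hn₂ : 0 < n₂) (e : ι ≃ Fin n₁ × Fin n₂) (P : Matrix.GeneralLinearGroup ι F) :
    Function.Injective (tensAlg e P) := by
  intro a b hab
  rw [tensAlg_apply, tensAlg_apply] at hab
  have h3 : ((P⁻¹ : Matrix.GeneralLinearGroup ι F) : Matrix ι ι F) * (P : Matrix ι ι F) = 1 := by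
    rw [← Units.val_mul, inv_mul_cancel, Units.val_one]
  have h4 := congrArg (fun M => ((P⁻¹ : Matrix.GeneralLinearGroup ι F) : Matrix ι ι F) * M * (P : Matrix ι ι F)) hab
  have h5 : ∀ X : Matrix ι ι F, ((P⁻¹ : Matrix.GeneralLinearGroup ι F) : Matrix ι ι F) * ((P : Matrix ι ι F) * X *
      ((P⁻¹ : Matrix.GeneralLinearGroup ι F) : Matrix ι ι F)) * (P : Matrix ι ι F) = X := by
    intro X
    calc _ = (((P⁻¹ : Matrix.GeneralLinearGroup ι F) : Matrix ι ι F) * (P : Matrix ι ι F)) * X *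
        (((P⁻¹ : Matrix.GeneralLinearGroup ι F) : Matrix ι ι F) * (P : Matrix ι ι F)) := by simp only [mul_assoc]
      _ = X := by rw [h3, one_mul, mul_one]
  simp only [h5] at h4
  ext i j
  have h6 := congrFun (congrFun h4 (e.symm (i, ⟨0, hn₂⟩))) (e.symm (j, ⟨0, hn₂⟩))
  simpa [Matrix.kroneckerMap_apply] using h6

/-- Conjugation by an element of the tensor product subgroup. -/
lemma tensAlg_conj {n₁ n₂ : ℕ} (e : ι ≃ Fin n₁ × Fin n₂) (P g : Matrix.GeneralLinearGroup ι F)
    (hg : g ∈ tensorProductSubgroup n₁ n₂ e P) :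
    ∃ a : Matrix.GeneralLinearGroup (Fin n₁) F, ∀ k : Matrix (Fin n₁) (Fin n₁) F,
      (g : Matrix ι ι F) * tensAlg e P k * ((g⁻¹ : Matrix.GeneralLinearGroup ι F) : Matrix ι ι F) =
        tensAlg e P ((a : Matrix (Fin n₁) (Fin n₁) F) * k *
          ((a⁻¹ : Matrix.GeneralLinearGroup (Fin n₁) F) : Matrix (Fin n₁) (Fin n₁) F)) := by
  obtain ⟨g₁, ⟨g₂, ⟨a, b, hab⟩, hg₂⟩, hg₁⟩ := hg
  refine ⟨a, fun k => ?_⟩
  have hg' : g = P * g₁ * P⁻¹ := hg₁.symm
  have hinvmat : ((g₂⁻¹ : Matrix.GeneralLinearGroup (Fin n₁ × Fin n₂) F) : Matrix (Fin n₁ × Fin n₂) (Fin n₁ × Fin n₂) F) =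
      ((a⁻¹ : Matrix.GeneralLinearGroup (Fin n₁) F) : Matrix _ _ F) ⊗ₖ ((b⁻¹ : Matrix.GeneralLinearGroup (Fin n₂) F) : Matrix _ _ F) := by
    have h1 : (g₂ : Matrix (Fin n₁ × Fin n₂) (Fin n₁ × Fin n₂) F) * (((a⁻¹ : Matrix.GeneralLinearGroup (Fin n₁) F) : Matrix _ _ F) ⊗ₖ
        ((b⁻¹ : Matrix.GeneralLinearGroup (Fin n₂) F) : Matrix _ _ F)) = 1 := by
      rw [hab, ← Matrix.mul_kronecker_mul, ← Units.val_mul, ← Units.val_mul, mul_inv_cancel, mul_inv_cancel,
        Units.val_one, Units.val_one, Matrix.one_kronecker_one]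
    calc _ = ((g₂⁻¹ : Matrix.GeneralLinearGroup (Fin n₁ × Fin n₂) F) : Matrix (Fin n₁ × Fin n₂) (Fin n₁ × Fin n₂) F) *
          ((g₂ : Matrix (Fin n₁ × Fin n₂) (Fin n₁ × Fin n₂) F) * (((a⁻¹ : Matrix.GeneralLinearGroup (Fin n₁) F) : Matrix _ _ F) ⊗ₖ
        ((b⁻¹ : Matrix.GeneralLinearGroup (Fin n₂) F) : Matrix _ _ F))) := by rw [h1, mul_one]
      _ = _ := by rw [← mul_assoc, ← Units.val_mul, inv_mul_cancel, Units.val_one, one_mul]
  have hm1 : (g₁ : Matrix ι ι F) = Matrix.reindex e.symm e.symm (g₂ : Matrix (Fin n₁ × Fin n₂) (Fin n₁ × Fin n₂) F) := by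
    rw [← hg₂]; rfl
  have hm2 : ((g₁⁻¹ : Matrix.GeneralLinearGroup ι F) : Matrix ι ι F) = Matrix.reindex e.symm e.symm
      ((g₂⁻¹ : Matrix.GeneralLinearGroup (Fin n₁ × Fin n₂) F) : Matrix (Fin n₁ × Fin n₂) (Fin n₁ × Fin n₂) F) := by
    rw [← hg₂, ← map_inv]; rfl
  have hmid : (g₁ : Matrix ι ι F) * (Matrix.reindex e.symm e.symm (k ⊗ₖ (1 : Matrix (Fin n₂) (Fin n₂) F))) *
      ((g₁⁻¹ : Matrix.GeneralLinearGroup ι F) : Matrix ι ι F) = Matrix.reindex e.symm e.symm
        (((a : Matrix (Fin n₁) (Fin n₁) F) * k * ((a⁻¹ : Matrix.GeneralLinearGroup (Fin n₁) F) : Matrix _ _ F)) ⊗ₖ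
          (1 : Matrix (Fin n₂) (Fin n₂) F)) := by
    rw [hm1, hm2]
    simp only [Matrix.reindex_apply]
    rw [Matrix.submatrix_mul_equiv, Matrix.submatrix_mul_equiv, hinvmat, hab, ← Matrix.mul_kronecker_mul,
      ← Matrix.mul_kronecker_mul, mul_one, ← Units.val_mul, mul_inv_cancel, Units.val_one]
  have h3 : ((P⁻¹ : Matrix.GeneralLinearGroup ι F) : Matrix ι ι F) * (P : Matrix ι ι F) = 1 := by
    rw [← Units.val_mul, inv_mul_cancel, Units.val_one]
  rw [tensAlg_apply, tensAlg_apply, ← hmid, hg']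
  have h4 : (P * g₁ * P⁻¹)⁻¹ = P * g₁⁻¹ * P⁻¹ := by group
  rw [h4]
  simp only [Units.val_mul]
  calc _ = (P : Matrix ι ι F) * (g₁ : Matrix ι ι F) * (((P⁻¹ : Matrix.GeneralLinearGroup ι F) : Matrix ι ι F) * (P : Matrix ι ι F)) *
        (Matrix.reindex e.symm e.symm (k ⊗ₖ (1 : Matrix (Fin n₂) (Fin n₂) F))) *
        (((P⁻¹ : Matrix.GeneralLinearGroup ι F) : Matrix ι ι F) * (P : Matrix ι ι F)) *
        ((g₁⁻¹ : Matrix.GeneralLinearGroup ι F) : Matrix ι ι F) * ((P⁻¹ : Matrix.GeneralLinearGroup ι F) : Matrix ι ι F) := by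
          simp only [mul_assoc]
    _ = _ := by rw [h3, mul_one, mul_one]; simp only [mul_assoc]

section Two

/-- The matrix `[0 1; 1 1]`. -/
def omegaM (F : Type*) [Field F] : Matrix (Fin 2) (Fin 2) F := !![0, 1; 1, 1]

lemma two_field_cases [Fintype F] (hq : Fintype.card F = 2) (x : F) : x = 0 ∨ x = 1 := by
  by_cases hx : x = 0
  · left; exact hx
  · right
    have := FiniteField.pow_card_sub_one_eq_one x hx
    rw [hq] at this
    simpa using this

lemma two_field_one_add_one [Fintype F] (hq : Fintype.card F = 2) : (1 : F) + 1 = 0 := by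
  rcases two_field_cases hq (1 + 1) with h | h
  · exact h
  · exact absurd (add_eq_left.mp h) one_ne_zero

/-- The quadratic extension field inside the 2 × 2 matrices over the field with two elements. -/
def omegaAlg [Fintype F] (hq : Fintype.card F = 2) : Subalgebra F (Matrix (Fin 2) (Fin 2) F) where
  carrier := {M | ∃ x y : F, M = !![x, y; y, x + y]}
  mul_mem' := by
    rintro _ _ ⟨x, y, rfl⟩ ⟨z, w, rfl⟩
    refine ⟨x * z + y * w, x * w + y * z + y * w, ?_⟩
    have h2 := two_field_one_add_one hq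
    have h2' : ∀ a : F, a + a = 0 := fun a => by
      calc a + a = a * (1 + 1) := by ring
        _ = 0 := by rw [h2, mul_zero]
    ext i j
    fin_cases i <;> fin_cases j
    · simp [Matrix.mul_apply, Fin.sum_univ_two]
    · simp [Matrix.mul_apply, Fin.sum_univ_two]; ring
    · simp [Matrix.mul_apply, Fin.sum_univ_two]; ring
    · simp only [Matrix.mul_apply, Fin.sum_univ_two]
      simp
      have := h2' (y * w)
      linear_combination this - 1 * this + 0 * this
  add_mem' := by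
    rintro _ _ ⟨x, y, rfl⟩ ⟨z, w, rfl⟩
    refine ⟨x + z, y + w, ?_⟩
    ext i j
    fin_cases i <;> fin_cases j <;> simp
    ring
  algebraMap_mem' := by
    intro r
    refine ⟨r, 0, ?_⟩
    ext i j
    fin_cases i <;> fin_cases j <;> simp [Matrix.algebraMap_matrix_apply]

lemma mem_omegaAlg [Fintype F] (hq : Fintype.card F = 2) (M : Matrix (Fin 2) (Fin 2) F) :
    M ∈ omegaAlg hq ↔ ∃ x y : F, M = !![x, y; y, x + y] := Iff.rfl

lemma omegaAlg_isField [Fintype F] (hq : Fintype.card F = 2) : IsFieldSubalgebra 2 (omegaAlg (F := F) hq) := by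
  have h2 := two_field_one_add_one (F := F) hq
  refine ⟨?_, ?_, ?_⟩
  · rintro _ ⟨x, y, rfl⟩ _ ⟨z, w, rfl⟩
    ext i j
    fin_cases i <;> fin_cases j <;> simp [Matrix.mul_apply, Fin.sum_univ_two] <;> ring
  · rintro _ ⟨x, y, rfl⟩ hne
    rcases two_field_cases hq x with rfl | rfl <;> rcases two_field_cases hq y with rfl | rfl
    · exfalso; apply hne
      ext i j; fin_cases i <;> fin_cases j <;> simp
    · refine ⟨!![1, 1; 1, 0], ⟨1, 1, by rw [h2]⟩, ?_⟩
      ext i j
      fin_cases i <;> fin_cases j <;> simp [Matrix.mul_apply, Fin.sum_univ_two, h2]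
    · refine ⟨1, Subalgebra.one_mem _, ?_⟩
      ext i j
      fin_cases i <;> fin_cases j <;> simp
    · refine ⟨!![0, 1; 1, 0 + 1], ⟨0, 1, rfl⟩, ?_⟩
      ext i j
      fin_cases i <;> fin_cases j <;> simp [Matrix.mul_apply, Fin.sum_univ_two, h2]
  · let f : (F × F) ≃ₗ[F] (omegaAlg (F := F) hq) :=
      { toFun := fun x => ⟨!![x.1, x.2; x.2, x.1 + x.2], ⟨x.1, x.2, rfl⟩⟩
        invFun := fun M => ((M : Matrix (Fin 2) (Fin 2) F) 0 0, (M : Matrix (Fin 2) (Fin 2) F) 0 1)
        map_add' := by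
          intro x y
          apply Subtype.ext
          ext i j
          fin_cases i <;> fin_cases j <;> simp
          ring
        map_smul' := by
          intro c x
          apply Subtype.ext
          ext i j
          fin_cases i <;> fin_cases j <;> simp
          ring
        left_inv := by
          intro x; simp
        right_inv := by
          rintro ⟨_, x, y, rfl⟩
          apply Subtype.ext
          simp }
    rw [← f.finrank_eq]
    simp

lemma omegaAlg_conj [Fintype F] (hq : Fintype.card F = 2) (a : Matrix.GeneralLinearGroup (Fin 2) F)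
    (k : Matrix (Fin 2) (Fin 2) F) (hk : k ∈ omegaAlg hq) :
    (a : Matrix (Fin 2) (Fin 2) F) * k * ((a⁻¹ : Matrix.GeneralLinearGroup (Fin 2) F) : Matrix (Fin 2) (Fin 2) F)
      ∈ omegaAlg hq := by
  obtain ⟨x, y, rfl⟩ := hk
  have h2 := two_field_one_add_one (F := F) hq
  set M := (a : Matrix (Fin 2) (Fin 2) F) * omegaM F * ((a⁻¹ : Matrix.GeneralLinearGroup (Fin 2) F) : Matrix (Fin 2) (Fin 2) F) with hM
  have hinv : (a : Matrix (Fin 2) (Fin 2) F) * ((a⁻¹ : Matrix.GeneralLinearGroup (Fin 2) F) : Matrix (Fin 2) (Fin 2) F) = 1 := by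
    rw [← Units.val_mul, mul_inv_cancel, Units.val_one]
  have hinv' : ((a⁻¹ : Matrix.GeneralLinearGroup (Fin 2) F) : Matrix (Fin 2) (Fin 2) F) * (a : Matrix (Fin 2) (Fin 2) F) = 1 := by
    rw [← Units.val_mul, inv_mul_cancel, Units.val_one]
  have htr : M.trace = 1 := by
    rw [hM, Matrix.trace_mul_comm, ← mul_assoc, hinv', one_mul]
    simp [omegaM, Matrix.trace_fin_two]
  have hdet : M.det = 1 := by
    rw [hM, Matrix.det_mul, Matrix.det_mul, mul_comm (a : Matrix (Fin 2) (Fin 2) F).det, mul_assoc, ← Matrix.det_mul,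
      hinv, Matrix.det_one, mul_one]
    simp only [omegaM, Matrix.det_fin_two_of]
    linear_combination -1 * h2
  have hMmem : M ∈ omegaAlg hq := by
    rw [Matrix.trace_fin_two] at htr
    rw [Matrix.det_fin_two] at hdet
    have h00 : M 0 0 * M 1 1 = 0 := by
      rcases two_field_cases hq (M 0 0) with h | h
      · rw [h, zero_mul]
      · rw [h] at htr
        rw [add_eq_left.mp htr, mul_zero]
    rw [h00, zero_sub] at hdet
    have hne : M 0 1 * M 1 0 ≠ 0 := by
      intro h; rw [h, neg_zero] at hdet; exact zero_ne_one hdet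
    have h01 : M 0 1 = 1 := (two_field_cases hq _).resolve_left (left_ne_zero_of_mul hne)
    have h10 : M 1 0 = 1 := (two_field_cases hq _).resolve_left (right_ne_zero_of_mul hne)
    refine ⟨M 0 0, 1, ?_⟩
    have h11 : M 1 1 = M 0 0 + 1 := by
      have h3 : M 0 0 + M 0 0 = 0 := by
        calc M 0 0 + M 0 0 = M 0 0 * (1 + 1) := by ring
          _ = 0 := by rw [h2, mul_zero]
      linear_combination htr - h3
    ext i j
    fin_cases i <;> fin_cases j
    · rfl
    · simpa using h01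
    · simpa using h10
    · simpa using h11
  have hk : (!![x, y; y, x + y] : Matrix (Fin 2) (Fin 2) F) = x • (1 : Matrix (Fin 2) (Fin 2) F) + y • omegaM F := by
    ext i j
    fin_cases i <;> fin_cases j <;> simp [omegaM]
  rw [hk, mul_add, add_mul, Matrix.mul_smul, Matrix.mul_smul, Matrix.smul_mul, Matrix.smul_mul, mul_one, hinv, ← hM]
  exact (omegaAlg hq).add_mem ((omegaAlg hq).smul_mem (omegaAlg hq).one_mem x) ((omegaAlg hq).smul_mem hMmem y)

/-- Class 4 with `n₁ = 2` and `|F| = 2` is contained in class 3. -/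
theorem tensor_two_le [Fintype F] (hq : Fintype.card F = 2) {n₂ : ℕ} (hn₂ : 0 < n₂) (e : ι ≃ Fin 2 × Fin n₂)
    (P : Matrix.GeneralLinearGroup ι F) :
    ∃ K : Subalgebra F (Matrix ι ι F), IsFieldSubalgebra 2 K ∧
      tensorProductSubgroup 2 n₂ e P ≤ subalgebraNormalizer K := by
  have hinj := tensAlg_injective hn₂ e P
  have hf := omegaAlg_isField (F := F) hq
  refine ⟨(omegaAlg hq).map (tensAlg e P), ⟨?_, ?_, ?_⟩, ?_⟩
  · rintro _ ⟨x, hx, rfl⟩ _ ⟨y, hy, rfl⟩
    show tensAlg e P x * tensAlg e P y = tensAlg e P y * tensAlg e P x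
    rw [← map_mul, hf.comm x hx y hy, map_mul]
  · rintro _ ⟨x, hx, rfl⟩ hne
    have hx0 : x ≠ 0 := by
      rintro rfl
      apply hne
      exact map_zero (tensAlg e P)
    obtain ⟨y, hy, hxy⟩ := hf.inv x hx hx0
    exact ⟨tensAlg e P y, ⟨y, hy, rfl⟩, by
      show tensAlg e P x * tensAlg e P y = 1
      rw [← map_mul, hxy, map_one]⟩
  · have h1 := ((omegaAlg (F := F) hq).equivMapOfInjective (tensAlg e P) hinj).toLinearEquiv.finrank_eq
    rw [← h1, hf.finrank_eq]
  · have key : ∀ g ∈ tensorProductSubgroup 2 n₂ e P, ∀ k ∈ (omegaAlg hq).map (tensAlg e P),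
        (g : Matrix ι ι F) * k * ((g⁻¹ : Matrix.GeneralLinearGroup ι F) : Matrix ι ι F) ∈ (omegaAlg hq).map (tensAlg e P) := by
      rintro g hg _ ⟨k, hk, rfl⟩
      obtain ⟨a, ha⟩ := tensAlg_conj e P g hg
      exact ⟨_, omegaAlg_conj hq a k hk, (ha k).symm⟩
    intro g hg k
    refine ⟨key g hg k, fun h => ?_⟩
    have h1 := key g⁻¹ ((tensorProductSubgroup 2 n₂ e P).inv_mem hg) _ h
    rw [inv_inv] at h1
    have h3 : ((g⁻¹ : Matrix.GeneralLinearGroup ι F) : Matrix ι ι F) * (g : Matrix ι ι F) = 1 := by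
      rw [← Units.val_mul, inv_mul_cancel, Units.val_one]
    have h4 : ((g⁻¹ : Matrix.GeneralLinearGroup ι F) : Matrix ι ι F) * ((g : Matrix ι ι F) * k *
        ((g⁻¹ : Matrix.GeneralLinearGroup ι F) : Matrix ι ι F)) * (g : Matrix ι ι F) = k := by
      calc _ = (((g⁻¹ : Matrix.GeneralLinearGroup ι F) : Matrix ι ι F) * (g : Matrix ι ι F)) * k *
          (((g⁻¹ : Matrix.GeneralLinearGroup ι F) : Matrix ι ι F) * (g : Matrix ι ι F)) := by simp only [mul_assoc]
        _ = k := by rw [h3, one_mul, mul_one]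
    rwa [h4] at h1

end Two

end Cfsg.Agent.AschCases
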