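import Mathlib
import Cfsg.Agent.AschCases.BlockDec
import Cfsg.Agent.AschCases.TensorTwo
import Cfsg.Agent.Asch.FormOfGram

set_option autoImplicit false
set_option linter.unusedSectionVars false
set_option linter.style.haveILetI false

/-!
Pure tensors and tensor products of forms.
-/

namespace Cfsg.Agent.AschCases

open scoped Matrix Kronecker
open Cfsg.Geo

variable {ι : Type} [Fintype ι] [DecidableEq ι] {F : Type*} [Field F] {n₁ n₂ : ℕ}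

/-- A pure tensor. -/
def tp (x : Fin n₁ → F) (w : Fin n₂ → F) : Fin n₁ × Fin n₂ → F := fun a => x a.1 * w a.2

/-- The coordinate map of a tensor decomposition. -/
noncomputable def tmap (e : ι ≃ Fin n₁ × Fin n₂) (P : Matrix.GeneralLinearGroup ι F) :
    (Fin n₁ × Fin n₂ → F) ≃ₗ[F] (ι → F) :=
  (LinearEquiv.funCongrLeft F F e).trans (Asch.glEquiv P)

lemma tmap_apply (e : ι ≃ Fin n₁ × Fin n₂) (P : Matrix.GeneralLinearGroup ι F) (x : Fin n₁ × Fin n₂ → F) :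
    tmap e P x = (P : Matrix ι ι F) *ᵥ (x ∘ e) := rfl

lemma kron_tp (A : Matrix (Fin n₁) (Fin n₁) F) (B : Matrix (Fin n₂) (Fin n₂) F) (x : Fin n₁ → F) (w : Fin n₂ → F) :
    (A ⊗ₖ B) *ᵥ (tp x w) = tp (A *ᵥ x) (B *ᵥ w) := by
  funext a
  simp only [Matrix.mulVec, dotProduct, tp, Matrix.kroneckerMap_apply, Fintype.sum_prod_type]
  rw [Finset.sum_mul_sum]
  refine Finset.sum_congr rfl fun i _ => Finset.sum_congr rfl fun j _ => ?_
  ring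

/-- The elements of the tensor product subgroup on coordinates. -/
lemma tensorElt {e : ι ≃ Fin n₁ × Fin n₂} {P g : Matrix.GeneralLinearGroup ι F}
    (hg : g ∈ tensorProductSubgroup n₁ n₂ e P) :
    ∃ (A : Matrix.GeneralLinearGroup (Fin n₁) F) (B : Matrix.GeneralLinearGroup (Fin n₂) F),
      ∀ x : Fin n₁ × Fin n₂ → F, (g : Matrix ι ι F) *ᵥ (tmap e P x) =
        tmap e P (((A : Matrix (Fin n₁) (Fin n₁) F) ⊗ₖ (B : Matrix (Fin n₂) (Fin n₂) F)) *ᵥ x) := by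
  obtain ⟨_, ⟨k, ⟨A, B, hk⟩, rfl⟩, rfl⟩ := hg
  refine ⟨A, B, fun x => ?_⟩
  rw [tmap_apply, tmap_apply]
  have h1 : (((MulAut.conj P).toMonoidHom ((glReindex e.symm).toMonoidHom k) : Matrix.GeneralLinearGroup ι F) : Matrix ι ι F) =
      (P : Matrix ι ι F) * (Matrix.reindex e.symm e.symm (k : Matrix _ _ F)) * ((P⁻¹ : Matrix.GeneralLinearGroup ι F) : Matrix ι ι F) := rfl
  rw [h1, Matrix.mulVec_mulVec, mul_assoc, ← Units.val_mul, inv_mul_cancel, Units.val_one, mul_one, ← Matrix.mulVec_mulVec]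
  congr 1
  rw [← hk]
  funext i
  simp only [Matrix.mulVec, dotProduct, Function.comp_apply, Matrix.reindex_apply, Matrix.submatrix_apply, Equiv.symm_symm]
  rw [← e.sum_comp (fun j => (k : Matrix _ _ F) (e i) j * x j)]

/-- Conversely. -/
lemma mem_tensorProductSubgroup_of {e : ι ≃ Fin n₁ × Fin n₂} {P g : Matrix.GeneralLinearGroup ι F}
    (A : Matrix.GeneralLinearGroup (Fin n₁) F) (B : Matrix.GeneralLinearGroup (Fin n₂) F)
    (h : ∀ x : Fin n₁ × Fin n₂ → F, (g : Matrix ι ι F) *ᵥ (tmap e P x) =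
        tmap e P (((A : Matrix (Fin n₁) (Fin n₁) F) ⊗ₖ (B : Matrix (Fin n₂) (Fin n₂) F)) *ᵥ x)) :
    g ∈ tensorProductSubgroup n₁ n₂ e P := by
  let k : Matrix.GeneralLinearGroup (Fin n₁ × Fin n₂) F :=
    ⟨(A : Matrix (Fin n₁) (Fin n₁) F) ⊗ₖ (B : Matrix (Fin n₂) (Fin n₂) F),
      ((A⁻¹ : Matrix.GeneralLinearGroup (Fin n₁) F) : Matrix (Fin n₁) (Fin n₁) F) ⊗ₖ
        ((B⁻¹ : Matrix.GeneralLinearGroup (Fin n₂) F) : Matrix (Fin n₂) (Fin n₂) F), by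
      rw [← Matrix.mul_kronecker_mul, ← Units.val_mul, ← Units.val_mul, mul_inv_cancel, mul_inv_cancel,
        Units.val_one, Units.val_one, Matrix.one_kronecker_one], by
      rw [← Matrix.mul_kronecker_mul, ← Units.val_mul, ← Units.val_mul, inv_mul_cancel, inv_mul_cancel,
        Units.val_one, Units.val_one, Matrix.one_kronecker_one]⟩
  refine Subgroup.mem_map.2 ⟨(glReindex e.symm) k, Subgroup.mem_map.2 ⟨k, ⟨A, B, rfl⟩, rfl⟩, ?_⟩
  apply Units.ext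
  apply Matrix.ext_of_mulVec_single
  intro i
  obtain ⟨x, hx⟩ := (tmap e P).surjective (Pi.single i 1)
  rw [← hx, h, tmap_apply, tmap_apply]
  have h1 : (((MulAut.conj P).toMonoidHom ((glReindex e.symm) k) : Matrix.GeneralLinearGroup ι F) : Matrix ι ι F) =
      (P : Matrix ι ι F) * (Matrix.reindex e.symm e.symm (k : Matrix _ _ F)) * ((P⁻¹ : Matrix.GeneralLinearGroup ι F) : Matrix ι ι F) := rfl
  rw [h1, Matrix.mulVec_mulVec, mul_assoc, ← Units.val_mul, inv_mul_cancel, Units.val_one, mul_one, ← Matrix.mulVec_mulVec]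
  congr 1
  funext i
  simp only [Matrix.mulVec, dotProduct, Function.comp_apply, Matrix.reindex_apply, Matrix.submatrix_apply, Equiv.symm_symm]
  rw [← e.sum_comp (fun j => ((A : Matrix (Fin n₁) (Fin n₁) F) ⊗ₖ (B : Matrix (Fin n₂) (Fin n₂) F)) (e i) j * x j)]

/-- The tensor form on pure tensors. -/
lemma formOfGram_tp {σ : F ≃+* F} {f₁ : (Fin n₁ → F) → (Fin n₁ → F) → F} {f₂ : (Fin n₂ → F) → (Fin n₂ → F) → F}
    (h₁ : Asch.IsSesq σ f₁) (h₂ : Asch.IsSesq σ f₂) (x y : Fin n₁ → F) (w z : Fin n₂ → F) :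
    formOfGram σ (gramMatrix f₁ ⊗ₖ gramMatrix f₂) (tp x w) (tp y z) = f₁ x y * f₂ w z := by
  rw [h₁.eq_gram, h₂.eq_gram, formOfGram]
  simp only [dotProduct, Matrix.mulVec, Fintype.sum_prod_type, tp, Matrix.kroneckerMap_apply, map_mul]
  rw [Finset.sum_mul_sum]
  refine Finset.sum_congr rfl fun i _ => Finset.sum_congr rfl fun j _ => ?_
  rw [Finset.mul_sum, Finset.mul_sum, Finset.sum_mul_sum]
  refine Finset.sum_congr rfl fun k _ => Finset.sum_congr rfl fun l _ => ?_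
  ring

lemma form_tp {σ : F ≃+* F} {f : (ι → F) → (ι → F) → F} {f₁ : (Fin n₁ → F) → (Fin n₁ → F) → F}
    {f₂ : (Fin n₂ → F) → (Fin n₂ → F) → F} {e : ι ≃ Fin n₁ × Fin n₂} {P : Matrix.GeneralLinearGroup ι F}
    (h₁ : Asch.IsSesq σ f₁) (h₂ : Asch.IsSesq σ f₂) (hT : IsTensorFormStructure σ f f₁ f₂ e P) :
    ∃ c : F, c ≠ 0 ∧ ∀ x y w z, f (tmap e P (tp x w)) (tmap e P (tp y z)) = c * (f₁ x y * f₂ w z) := by
  obtain ⟨c, hc, h⟩ := hT
  exact ⟨c, hc, fun x y w z => by rw [tmap_apply, tmap_apply, h, formOfGram_tp h₁ h₂]⟩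

/-- The factors of a tensor product isometry are similarities. -/
lemma similarity_of_tensor {σ : F ≃+* F} {f : (ι → F) → (ι → F) → F} {f₁ : (Fin n₁ → F) → (Fin n₁ → F) → F}
    {f₂ : (Fin n₂ → F) → (Fin n₂ → F) → F} {e : ι ≃ Fin n₁ × Fin n₂} {P : Matrix.GeneralLinearGroup ι F}
    (h₁ : Asch.IsSesq σ f₁) (h₂ : Asch.IsSesq σ f₂) (hne₁ : ∃ x y, f₁ x y ≠ 0) (hne₂ : ∃ w z, f₂ w z ≠ 0)
    (hT : IsTensorFormStructure σ f f₁ f₂ e P) {g : Matrix.GeneralLinearGroup ι F}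
    (hg : ∀ u v, f ((g : Matrix ι ι F) *ᵥ u) ((g : Matrix ι ι F) *ᵥ v) = f u v)
    (A : Matrix.GeneralLinearGroup (Fin n₁) F) (B : Matrix.GeneralLinearGroup (Fin n₂) F)
    (hAB : ∀ x : Fin n₁ × Fin n₂ → F, (g : Matrix ι ι F) *ᵥ (tmap e P x) =
        tmap e P (((A : Matrix (Fin n₁) (Fin n₁) F) ⊗ₖ (B : Matrix (Fin n₂) (Fin n₂) F)) *ᵥ x)) :
    ∃ l : Fˣ, (∀ x y, f₁ ((A : Matrix (Fin n₁) (Fin n₁) F) *ᵥ x) ((A : Matrix (Fin n₁) (Fin n₁) F) *ᵥ y) = (l : F) * f₁ x y) ∧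
      (∀ w z, f₂ ((B : Matrix (Fin n₂) (Fin n₂) F) *ᵥ w) ((B : Matrix (Fin n₂) (Fin n₂) F) *ᵥ z) = ((l⁻¹ : Fˣ) : F) * f₂ w z) := by
  obtain ⟨c, hc, hf⟩ := form_tp h₁ h₂ hT
  have key : ∀ x y w z, f₁ ((A : Matrix (Fin n₁) (Fin n₁) F) *ᵥ x) ((A : Matrix (Fin n₁) (Fin n₁) F) *ᵥ y) *
      f₂ ((B : Matrix (Fin n₂) (Fin n₂) F) *ᵥ w) ((B : Matrix (Fin n₂) (Fin n₂) F) *ᵥ z) = f₁ x y * f₂ w z := by
    intro x y w z
    have h := hg (tmap e P (tp x w)) (tmap e P (tp y z))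
    rw [hAB, hAB, kron_tp, kron_tp, hf, hf] at h
    exact mul_left_cancel₀ hc h
  obtain ⟨x₀, y₀, h0⟩ := hne₁
  obtain ⟨w₀, z₀, h0'⟩ := hne₂
  set α := f₁ ((A : Matrix (Fin n₁) (Fin n₁) F) *ᵥ x₀) ((A : Matrix (Fin n₁) (Fin n₁) F) *ᵥ y₀) with hα
  set β := f₂ ((B : Matrix (Fin n₂) (Fin n₂) F) *ᵥ w₀) ((B : Matrix (Fin n₂) (Fin n₂) F) *ᵥ z₀) with hβ
  have h00 : α * β = f₁ x₀ y₀ * f₂ w₀ z₀ := key x₀ y₀ w₀ z₀
  have hα0 : α ≠ 0 := by
    intro h; rw [h, zero_mul] at h00; exact mul_ne_zero h0 h0' h00.symm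
  have hβ0 : β ≠ 0 := by
    intro h; rw [h, mul_zero] at h00; exact mul_ne_zero h0 h0' h00.symm
  refine ⟨Units.mk0 (α / f₁ x₀ y₀) (div_ne_zero hα0 h0), fun x y => ?_, fun w z => ?_⟩
  · have h := key x y w₀ z₀
    rw [Units.val_mk0]
    have h3 : f₁ ((A : Matrix (Fin n₁) (Fin n₁) F) *ᵥ x) ((A : Matrix (Fin n₁) (Fin n₁) F) *ᵥ y) * β = f₁ x y * f₂ w₀ z₀ := h
    have h4 : f₂ w₀ z₀ = α * β / f₁ x₀ y₀ := by rw [h00]; field_simp
    rw [h4] at h3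
    apply mul_right_cancel₀ hβ0
    rw [h3]; field_simp
  · have h := key x₀ y₀ w z
    rw [Units.val_inv_eq_inv_val, Units.val_mk0]
    have h3 : α * f₂ ((B : Matrix (Fin n₂) (Fin n₂) F) *ᵥ w) ((B : Matrix (Fin n₂) (Fin n₂) F) *ᵥ z) = f₁ x₀ y₀ * f₂ w z := h
    apply mul_left_cancel₀ hα0
    rw [h3]; field_simp

end Cfsg.Agent.AschCases
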