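import Mathlib
import Cfsg.Agent.AschCases.TvMember

set_option autoImplicit false
set_option linter.unusedSectionVars false
set_option linter.style.haveILetI false

/-!
A single transvection lies in no tensor-wreath subgroup.
-/

namespace Cfsg.Agent.AschCases

open scoped Matrix
open Cfsg.Geo

variable {F : Type*} [Field F]

/-- The pure tensor with factors `y i`. -/
def pt {m t : ℕ} (y : Fin t → Fin m → F) (x : Fin t → Fin m) : F := ∏ i, y i (x i)

lemma pt_ne_zero {m t : ℕ} (y : Fin t → Fin m → F) (hy : ∀ i, y i ≠ 0) : pt y ≠ 0 := by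
  have h : ∀ i, ∃ s, y i s ≠ 0 := fun i => Function.ne_iff.mp (hy i)
  choose s hs using h
  intro h0
  have h1 := congrFun h0 s
  rw [pt, Pi.zero_apply, Finset.prod_eq_zero_iff] at h1
  obtain ⟨i, -, hi⟩ := h1
  exact hs i hi

lemma ne_zero_of_pt {m t : ℕ} (y : Fin t → Fin m → F) (hy : pt y ≠ 0) (i : Fin t) : y i ≠ 0 := by
  intro h0
  apply hy
  funext x
  rw [pt, Pi.zero_apply]
  exact Finset.prod_eq_zero (Finset.mem_univ i) (by rw [h0]; rfl)

/-- Equal pure tensors have proportional factors. -/
lemma pt_eq {m t : ℕ} (y z : Fin t → Fin m → F) (hy : ∀ i, y i ≠ 0) (h : pt y = pt z) (i : Fin t) :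
    ∃ c : F, c ≠ 0 ∧ z i = c • y i := by
  have hz : ∀ i, z i ≠ 0 := fun i => ne_zero_of_pt z (h ▸ pt_ne_zero y hy) i
  have h1 : ∀ i, ∃ s, y i s ≠ 0 := fun i => Function.ne_iff.mp (hy i)
  choose s hs using h1
  have hps : pt z s ≠ 0 := by
    rw [← h, pt]
    exact Finset.prod_ne_zero_iff.mpr fun i _ => hs i
  have hzs : ∀ i, z i (s i) ≠ 0 := fun i => Finset.prod_ne_zero_iff.mp hps i (Finset.mem_univ i)
  have hA : (∏ j ∈ Finset.univ.erase i, y j (s j)) ≠ 0 := Finset.prod_ne_zero_iff.mpr fun j _ => hs j
  have hB : (∏ j ∈ Finset.univ.erase i, z j (s j)) ≠ 0 := Finset.prod_ne_zero_iff.mpr fun j _ => hzs j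
  have hupd : ∀ (w : Fin t → Fin m → F) (a : Fin m), pt w (Function.update s i a) =
      w i a * ∏ j ∈ Finset.univ.erase i, w j (s j) := by
    intro w a
    rw [pt, ← Finset.mul_prod_erase Finset.univ _ (Finset.mem_univ i), Function.update_self]
    congr 1
    refine Finset.prod_congr rfl fun j hj => ?_
    rw [Function.update_of_ne (Finset.ne_of_mem_erase hj)]
  refine ⟨(∏ j ∈ Finset.univ.erase i, y j (s j)) * (∏ j ∈ Finset.univ.erase i, z j (s j))⁻¹,
    mul_ne_zero hA (inv_ne_zero hB), ?_⟩
  funext a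
  have h2 := congrFun h (Function.update s i a)
  rw [hupd, hupd] at h2
  rw [Pi.smul_apply, smul_eq_mul]
  field_simp
  linear_combination -1 * h2

/-- Action of the elements of the tensor wreath subgroup on pure tensors. -/
lemma mulVec_pt {m t : ℕ} (T : Matrix (Fin t → Fin m) (Fin t → Fin m) F) (σ : Equiv.Perm (Fin t))
    (gs : Fin t → Matrix (Fin m) (Fin m) F) (hT : ∀ x y, T x y = ∏ i, gs i (x i) (y (σ i)))
    (y : Fin t → Fin m → F) : T *ᵥ pt y = pt (fun i => gs i *ᵥ y (σ i)) := by
  funext x
  rw [Matrix.mulVec, dotProduct, pt]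
  simp only [Matrix.mulVec, dotProduct]
  rw [Finset.prod_univ_sum, Fintype.piFinset_univ]
  refine Fintype.sum_equiv (Equiv.arrowCongr σ.symm (Equiv.refl _)) _ _ fun z => ?_
  rw [hT, pt]
  have h1 : ∏ i, y i (z i) = ∏ i, y (σ i) (z (σ i)) := (Equiv.prod_comp σ (fun i => y i (z i))).symm
  rw [h1, ← Finset.prod_mul_distrib]
  rfl

lemma pt_update {m t : ℕ} (y : Fin t → Fin m → F) (i : Fin t) (z : Fin m → F) (x : Fin t → Fin m) :
    pt (Function.update y i z) x = z (x i) * ∏ j ∈ Finset.univ.erase i, y j (x j) := by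
  rw [pt, ← Finset.mul_prod_erase Finset.univ _ (Finset.mem_univ i), Function.update_self]
  congr 1
  refine Finset.prod_congr rfl fun j hj => ?_
  rw [Function.update_of_ne (Finset.ne_of_mem_erase hj)]

/-- The functional on a factor. -/
def factorFun {m t : ℕ} (φ : (Fin t → Fin m) → F) (y : Fin t → Fin m → F) (i : Fin t) : (Fin m → F) →ₗ[F] F where
  toFun z := φ ⬝ᵥ pt (Function.update y i z)
  map_add' z w := by
    rw [← dotProduct_add]
    congr 1
    funext x
    rw [Pi.add_apply, pt_update, pt_update, pt_update, Pi.add_apply, add_mul]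
  map_smul' c z := by
    rw [RingHom.id_apply, smul_eq_mul, ← smul_eq_mul, ← dotProduct_smul]
    congr 1
    funext x
    rw [Pi.smul_apply, pt_update, pt_update, Pi.smul_apply, smul_eq_mul, smul_eq_mul, mul_assoc]

/-- A vector killed by a functional and not proportional to a given one, in dimension at least 3. -/
lemma exists_ker_not_mem {m : ℕ} (hm : 3 ≤ m) (f : (Fin m → F) →ₗ[F] F) (u : Fin m → F) :
    ∃ z : Fin m → F, f z = 0 ∧ z ∉ Submodule.span F {u} := by
  by_contra hcon
  push Not at hcon
  have h1 : LinearMap.ker f ≤ Submodule.span F {u} := fun z hz => hcon z (LinearMap.mem_ker.mp hz)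
  have h2 := Submodule.finrank_mono h1
  have h3 : Module.finrank F (Submodule.span F {u}) ≤ 1 := by
    refine (finrank_span_le_card _).trans ?_
    simp
  have h4 := LinearMap.finrank_range_add_finrank_ker f
  have h5 : Module.finrank F (LinearMap.range f) ≤ 1 := by
    refine (Submodule.finrank_le _).trans ?_
    simp
  rw [Module.finrank_fintype_fun_eq_card, Fintype.card_fin] at h4
  omega

lemma exists_not_mem_span {m : ℕ} (hm : 2 ≤ m) (u : Fin m → F) : ∃ z : Fin m → F, z ∉ Submodule.span F {u} := by
  by_contra hcon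
  push Not at hcon
  have h1 : (⊤ : Submodule F (Fin m → F)) ≤ Submodule.span F {u} := fun z _ => hcon z
  have h2 := Submodule.finrank_mono h1
  have h3 : Module.finrank F (Submodule.span F {u}) ≤ 1 := by
    refine (finrank_span_le_card _).trans ?_
    simp
  rw [finrank_top, Module.finrank_fintype_fun_eq_card, Fintype.card_fin] at h2
  omega

/-- Core statement. -/
lemma tv_wreath_core {m t : ℕ} (hmt : (3 ≤ m ∧ 2 ≤ t) ∨ (2 ≤ m ∧ 3 ≤ t))
    (v φ : (Fin t → Fin m) → F) (h : φ ⬝ᵥ v = 0) (hv : v ≠ 0) (hφ : φ ≠ 0) (σ : Equiv.Perm (Fin t))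
    (gs : Fin t → Matrix (Fin m) (Fin m) F)
    (hT : ∀ x y, (tvM v φ) x y = ∏ i, gs i (x i) (y (σ i))) : False := by
  have hm : 2 ≤ m := by rcases hmt with h | h <;> omega
  have ht : 2 ≤ t := by rcases hmt with h | h <;> omega
  haveI : Nontrivial (Fin t) := Fin.nontrivial_iff_two_le.mpr ht
  -- a pure tensor killed by φ is fixed
  have key : ∀ y : Fin t → Fin m → F, (∀ i, y i ≠ 0) → φ ⬝ᵥ pt y = 0 → ∀ i, ∃ c : F, c ≠ 0 ∧
      gs i *ᵥ y (σ i) = c • y i := by
    intro y hy h0 i
    have h1 : tvM v φ *ᵥ pt y = pt y := by rw [tvM_mulVec, h0, zero_smul, add_zero]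
    rw [mulVec_pt _ σ gs hT] at h1
    exact pt_eq y _ hy h1.symm i
  -- a nonzero vector
  have hone : (fun _ => 1 : Fin m → F) ≠ 0 := by
    intro h0
    have := congrFun h0 ⟨0, by omega⟩
    exact one_ne_zero this
  -- factors can be corrected at a place l
  have hcorr : ∀ (y : Fin t → Fin m → F) (l : Fin t), (∀ i, i ≠ l → y i ≠ 0) → ∃ z : Fin m → F, z ≠ 0 ∧
      φ ⬝ᵥ pt (Function.update y l z) = 0 := by
    intro y l _
    obtain ⟨z, hz0, hz⟩ := exists_ne_zero_of_one (ι := Fin m) (by simpa using hm) (factorFun φ y l)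
    exact ⟨z, hz0, hz⟩
  by_cases hσ : σ = 1
  · subst hσ
    -- every gs i is scalar
    have hsc : ∀ i, ∃ c : F, ∀ z : Fin m → F, gs i *ᵥ z = c • z := by
      intro i
      obtain ⟨l, hl⟩ := exists_ne i
      have h1 : ∀ z : Fin m → F, gs i *ᵥ z ∈ Submodule.span F {z} := by
        intro z
        by_cases hz : z = 0
        · subst hz; rw [Matrix.mulVec_zero]; exact Submodule.zero_mem _
        obtain ⟨w, hw0, hw⟩ := hcorr (fun _ => z) l (fun _ _ => hz)
        obtain ⟨c, -, hc⟩ := key _ (fun j => by
          by_cases hj : j = l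
          · subst hj; rw [Function.update_self]; exact hw0
          · rw [Function.update_of_ne hj]; exact hz) hw i
        rw [Equiv.Perm.one_apply, Function.update_of_ne (Ne.symm hl)] at hc
        rw [hc]
        exact Submodule.smul_mem _ _ (Submodule.mem_span_singleton_self z)
      by_contra hcon
      push Not at hcon
      have h2 : ∀ c : F, gs i ≠ c • (1 : Matrix (Fin m) (Fin m) F) := by
        intro c hc
        obtain ⟨z, hz⟩ := hcon c
        apply hz
        rw [hc, Matrix.smul_mulVec, Matrix.one_mulVec]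
      obtain ⟨z, hz⟩ := exists_not_mem_span_of_not_scalar (gs i) h2
      exact hz (h1 z)
    choose c hc using hsc
    -- the matrix is scalar
    have hentry : ∀ i a b, gs i a b = if a = b then c i else 0 := by
      intro i a b
      have := congrFun (hc i (Pi.single b 1)) a
      rw [Matrix.mulVec_single_one] at this
      simp only [Matrix.col_apply, Pi.smul_apply, smul_eq_mul, Pi.single_apply] at this
      rw [this]; simp
    have hsc2 : ∀ x y, (tvM v φ) x y = if x = y then ∏ i, c i else 0 := by
      intro x y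
      rw [hT]
      simp only [hentry, Equiv.Perm.one_apply]
      rw [Finset.prod_ite_zero]
      congr 1
      rw [eq_iff_iff]
      simp [funext_iff]
    -- a vector killed by φ
    obtain ⟨x, hx⟩ := Function.ne_iff.mp hv
    obtain ⟨y, hy⟩ := Function.ne_iff.mp hφ
    have h1 := hsc2 x y
    rw [tvM_apply] at h1
    by_cases hxy : x = y
    · subst hxy
      obtain ⟨x', hx'⟩ : ∃ x' : Fin t → Fin m, x' ≠ x := by
        haveI : Nontrivial (Fin m) := Fin.nontrivial_iff_two_le.mpr hm
        exact exists_ne x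
      have h2 := hsc2 x' x
      rw [tvM_apply, if_neg hx', if_neg hx', zero_add] at h2
      have h3 : v x' = 0 := (mul_eq_zero.mp h2).resolve_right hy
      have h4 := hsc2 x' x'
      rw [tvM_apply, h3, zero_mul, add_zero, if_pos rfl, if_pos rfl] at h4
      rw [if_pos rfl, if_pos rfl, ← h4] at h1
      exact mul_ne_zero hx hy (add_eq_left.mp h1)
    · rw [if_neg hxy, if_neg hxy, zero_add] at h1
      exact mul_ne_zero hx hy h1
  · -- σ moves some i
    obtain ⟨i, hi⟩ : ∃ i, σ i ≠ i := by
      by_contra hcon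
      push Not at hcon
      exact hσ (Equiv.ext hcon)
    set j := σ i with hj
    rcases hmt with ⟨hm3, -⟩ | ⟨-, ht3⟩
    · -- choose y i in the kernel and not proportional
      let u : Fin m → F := gs i *ᵥ (fun _ => 1)
      obtain ⟨z, hz, hzu⟩ := exists_ker_not_mem hm3 (factorFun φ (fun _ _ => 1) i) u
      have hz0 : z ≠ 0 := by rintro rfl; exact hzu (Submodule.zero_mem _)
      obtain ⟨c, hc0, hc⟩ := key (Function.update (fun _ _ => 1) i z) (fun k => by
        by_cases hk : k = i
        · subst hk; rw [Function.update_self]; exact hz0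
        · rw [Function.update_of_ne hk]; exact hone) hz i
      rw [← hj, Function.update_of_ne hi, Function.update_self] at hc
      apply hzu
      have : z = c⁻¹ • u := by
        show z = c⁻¹ • (gs i *ᵥ (fun _ => 1))
        rw [hc, smul_smul, inv_mul_cancel₀ hc0, one_smul]
      rw [this]
      exact Submodule.smul_mem _ _ (Submodule.mem_span_singleton_self u)
    · -- a third place
      obtain ⟨l, hli, hlj⟩ : ∃ l : Fin t, l ≠ i ∧ l ≠ j := by
        by_contra hcon
        push Not at hcon
        have h1 : (Finset.univ : Finset (Fin t)) ⊆ {i, j} := by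
          intro l _
          by_cases hl : l = i
          · simp [hl]
          · simp [hcon l hl]
        have h2 := Finset.card_le_card h1
        rw [Finset.card_univ, Fintype.card_fin] at h2
        have h3 : ({i, j} : Finset (Fin t)).card ≤ 2 := Finset.card_le_two
        omega
      let u : Fin m → F := gs i *ᵥ (fun _ => 1)
      obtain ⟨z, hzu⟩ := exists_not_mem_span hm u
      have hz0 : z ≠ 0 := by rintro rfl; exact hzu (Submodule.zero_mem _)
      let y0 : Fin t → Fin m → F := Function.update (fun _ _ => 1) i z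
      have hy0 : ∀ k, y0 k ≠ 0 := fun k => by
        by_cases hk : k = i
        · subst hk; simp only [y0, Function.update_self]; exact hz0
        · simp only [y0, Function.update_of_ne hk]; exact hone
      obtain ⟨w, hw0, hw⟩ := hcorr y0 l (fun k _ => hy0 k)
      obtain ⟨c, hc0, hc⟩ := key (Function.update y0 l w) (fun k => by
        by_cases hk : k = l
        · subst hk; rw [Function.update_self]; exact hw0
        · rw [Function.update_of_ne hk]; exact hy0 k) hw i
      rw [← hj, Function.update_of_ne (Ne.symm hlj), Function.update_of_ne (Ne.symm hli)] at hc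
      simp only [y0] at hc
      rw [Function.update_of_ne hi, Function.update_self] at hc
      apply hzu
      have : z = c⁻¹ • u := by
        show z = c⁻¹ • (gs i *ᵥ (fun _ => 1))
        rw [hc, smul_smul, inv_mul_cancel₀ hc0, one_smul]
      rw [this]
      exact Submodule.smul_mem _ _ (Submodule.mem_span_singleton_self u)

variable {ι : Type} [Fintype ι] [DecidableEq ι]

/-- Class 7. -/
lemma tv_not_mem_tensorWreathSubgroup {m t : ℕ} (hmt : (3 ≤ m ∧ 2 ≤ t) ∨ (2 ≤ m ∧ 3 ≤ t)) (e : ι ≃ (Fin t → Fin m))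
    (P : Matrix.GeneralLinearGroup ι F) (v φ : ι → F) (h : φ ⬝ᵥ v = 0) (hv : v ≠ 0) (hφ : φ ≠ 0) :
    tv v φ h ∉ tensorWreathSubgroup m t e P := by
  intro hmem
  obtain ⟨v, φ, h, hv, hφ, hmem, -⟩ := tv_mem_of_conj P v φ h hv hφ hmem
  obtain ⟨g, hg, hg'⟩ := Subgroup.mem_map.mp hmem
  obtain ⟨σ, gs, hgs⟩ := tensorWreathStandard_form m t g hg
  refine tv_wreath_core hmt (v ∘ e.symm) (φ ∘ e.symm) ?_ ?_ ?_ σ gs ?_
  · rw [← h, dotProduct, dotProduct]
    exact Equiv.sum_comp e.symm (fun i => φ i * v i)
  · intro h0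
    apply hv; funext i
    have := congrFun h0 (e i)
    simpa using this
  · intro h0
    apply hφ; funext i
    have := congrFun h0 (e i)
    simpa using this
  · intro x y
    rw [← hgs]
    have h2 : ((glReindex e.symm).toMonoidHom g : Matrix ι ι F) (e.symm x) (e.symm y) = (g : Matrix _ _ F) x y := by
      show (glReindex e.symm g : Matrix ι ι F) (e.symm x) (e.symm y) = _
      rw [glReindex_apply]; simp
    rw [← h2, hg', coe_tv, tvM_apply, tvM_apply]
    simp only [e.symm.injective.eq_iff, Function.comp_apply]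

end Cfsg.Agent.AschCases
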