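import Mathlib
import Cfsg.Agent.AschCases.TvMember
import Cfsg.Agent.AschCases.TvWreath
import Cfsg.Agent.AschCases.TvSubfield

set_option autoImplicit false
set_option linter.unusedSectionVars false
set_option linter.style.haveILetI false

/-!
Groups containing the transvections of a reflexive sesquilinear form (symplectic and unitary groups) are contained
in no member of the geometric classes.
-/

namespace Cfsg.Agent.AschCases

open scoped Matrix
open Cfsg.Geo

variable {ι : Type} [Fintype ι] [DecidableEq ι] {F : Type*} [Field F]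

/-- The data used in the arguments: a reflexive non-degenerate sesquilinear form whose isotropic vectors span, and a
group containing a transvection for each isotropic vector. -/
structure TvGeom (f : (ι → F) → (ι → F) → F) (σ : F →+* F) (a : F)
    (Ω : Subgroup (Matrix.GeneralLinearGroup ι F)) : Prop where
  add_left : ∀ x y v, f (x + y) v = f x v + f y v
  smul_left : ∀ (c : F) (x v : ι → F), f (c • x) v = c * f x v
  add_right : ∀ v x y, f v (x + y) = f v x + f v y
  smul_right : ∀ (v : ι → F) (c : F) (x : ι → F), f v (c • x) = σ c * f v x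
  refl : ∀ u v, f u v = 0 → f v u = 0
  nondeg : ∀ v, v ≠ 0 → ∃ x, f x v ≠ 0
  a_ne : a ≠ 0
  tv_mem : ∀ v, f v v = 0 → ∀ (φ : ι → F) (h : φ ⬝ᵥ v = 0), (∀ x, φ ⬝ᵥ x = a * f x v) → tv v φ h ∈ Ω
  span : ∀ U : Submodule F (ι → F), (∀ v, f v v = 0 → v ∈ U) → U = ⊤
  join : ∀ v w, f v v = 0 → f w w = 0 → ∃ c : F, c ≠ 0 ∧ f (v + c • w) (v + c • w) = 0

namespace TvGeom

variable {f : (ι → F) → (ι → F) → F} {σ : F →+* F} {a : F} {Ω : Subgroup (Matrix.GeneralLinearGroup ι F)}

lemma zero_right (G : TvGeom f σ a Ω) (v : ι → F) : f v 0 = 0 := by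
  have := G.smul_right v 0 0
  rwa [map_zero, zero_mul, zero_smul] at this

lemma zero_left (G : TvGeom f σ a Ω) (v : ι → F) : f 0 v = 0 := by
  have := G.smul_left 0 0 v
  rwa [zero_mul, zero_smul] at this

lemma sum_left (G : TvGeom f σ a Ω) {κ : Type*} (s : Finset κ) (x : κ → ι → F) (v : ι → F) :
    f (∑ i ∈ s, x i) v = ∑ i ∈ s, f (x i) v := by
  classical
  induction s using Finset.induction_on with
  | empty => simp [G.zero_left]
  | insert i s hi ih => rw [Finset.sum_insert hi, Finset.sum_insert hi, G.add_left, ih]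

/-- The transvection of an isotropic vector. -/
lemma exists_tv (G : TvGeom f σ a Ω) (v : ι → F) (hv : f v v = 0) (hv0 : v ≠ 0) :
    ∃ (φ : ι → F) (h : φ ⬝ᵥ v = 0), φ ≠ 0 ∧ (∀ x, φ ⬝ᵥ x = a * f x v) ∧ tv v φ h ∈ Ω := by
  let L : (ι → F) →ₗ[F] F :=
    { toFun := fun x => a * f x v
      map_add' := fun x y => by rw [G.add_left, mul_add]
      map_smul' := fun c x => by rw [G.smul_left, RingHom.id_apply, smul_eq_mul]; ring }
  obtain ⟨φ, hφ⟩ := exists_dot L
  have hφ' : ∀ x, φ ⬝ᵥ x = a * f x v := fun x => (hφ x).symm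
  have h : φ ⬝ᵥ v = 0 := by rw [hφ', hv, mul_zero]
  refine ⟨φ, h, ?_, hφ', G.tv_mem v hv φ h hφ'⟩
  rintro rfl
  obtain ⟨x, hx⟩ := G.nondeg v hv0
  have := hφ' x
  rw [zero_dotProduct] at this
  exact mul_ne_zero G.a_ne hx this.symm

lemma exists_iso_not_mem (G : TvGeom f σ a Ω) (U : Submodule F (ι → F)) (hU : U ≠ ⊤) :
    ∃ v, f v v = 0 ∧ v ∉ U := by
  by_contra hcon
  push Not at hcon
  exact hU (G.span U hcon)

lemma exists_iso_ne_zero (G : TvGeom f σ a Ω) (hn : 0 < Fintype.card ι) : ∃ v, f v v = 0 ∧ v ≠ 0 := by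
  obtain ⟨v, hv, hv'⟩ := G.exists_iso_not_mem ⊥ (by
    intro h
    have h1 := congrArg (fun W : Submodule F (ι → F) => Module.finrank F W) h
    simp only [finrank_bot, finrank_top, Module.finrank_fintype_fun_eq_card] at h1
    omega)
  exact ⟨v, hv, fun h => hv' (by rw [h]; exact Submodule.zero_mem _)⟩

/-- Class 1. -/
lemma not_le_subspaceStabilizer (G : TvGeom f σ a Ω) (W : Submodule F (ι → F)) (h0 : W ≠ ⊥) (h1 : W ≠ ⊤) :
    ¬ Ω ≤ subspaceStabilizer W := by
  intro hle
  have key : ∀ v, f v v = 0 → v ∈ W ∨ ∀ w ∈ W, f w v = 0 := by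
    intro v hv
    by_cases hvW : v ∈ W
    · exact Or.inl hvW
    right
    intro w hw
    have hv0 : v ≠ 0 := by rintro rfl; exact hvW (Submodule.zero_mem _)
    obtain ⟨φ, h, -, hφ, hmem⟩ := G.exists_tv v hv hv0
    have h2 := (mem_subspaceStabilizer.mp (hle hmem) w).mp hw
    rw [tv_mulVec, hφ] at h2
    have h3 := (Submodule.add_mem_iff_right W hw).mp h2
    by_contra hne
    exact hvW ((Submodule.smul_mem_iff W (mul_ne_zero G.a_ne hne)).mp h3)
  obtain ⟨v, hv, hvW⟩ := G.exists_iso_not_mem W h1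
  have hvW' := (key v hv).resolve_left hvW
  -- an isotropic vector not orthogonal to W
  obtain ⟨w, hw, hw0⟩ := (Submodule.ne_bot_iff W).mp h0
  have hex : ∃ v', f v' v' = 0 ∧ f w v' ≠ 0 := by
    by_contra hcon
    push Not at hcon
    let U : Submodule F (ι → F) :=
      { carrier := {x | f x w = 0}
        add_mem' := fun {x y} hx hy => by
          show f (x + y) w = 0
          rw [G.add_left, hx, hy, add_zero]
        zero_mem' := G.zero_left w
        smul_mem' := fun c x hx => by
          show f (c • x) w = 0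
          rw [G.smul_left, hx, mul_zero] }
    have hU : U = ⊤ := G.span U fun v hv => G.refl _ _ (hcon v hv)
    obtain ⟨x, hx⟩ := G.nondeg w hw0
    apply hx
    have : x ∈ U := by rw [hU]; trivial
    exact this
  obtain ⟨v', hv', hwv'⟩ := hex
  have hv'W : v' ∈ W := by
    rcases key v' hv' with h | h
    · exact h
    · exact absurd (h w hw) hwv'
  have hvv' : f v' v = 0 := hvW' v' hv'W
  have hiso : f (v + v') (v + v') = 0 := by
    rw [G.add_left, G.add_right, G.add_right, hv, hv', hvv', G.refl _ _ hvv']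
    simp
  rcases key (v + v') hiso with h | h
  · exact hvW ((Submodule.add_mem_iff_left W hv'W).mp h)
  · have h2 := h w hw
    rw [G.add_right, hvW' w hw, zero_add] at h2
    exact hwv' h2

/-- Class 2, blocks of dimension at least 2. -/
lemma not_le_decompositionStabilizer (G : TvGeom f σ a Ω) {t m : ℕ} (hm : 2 ≤ m) (D : Fin t → Submodule F (ι → F))
    (hD : IsMDecomposition m D) : ¬ Ω ≤ decompositionStabilizer D := by
  intro hle
  have hint : DirectSum.IsInternal D :=
    DirectSum.isInternal_submodule_of_iSupIndep_of_iSup_eq_top hD.indep hD.iSup_eq_top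
  have key : ∀ v, f v v = 0 → v ≠ 0 → ∃ i, v ∈ D i := by
    intro v hv hv0
    obtain ⟨φ, h, -, hφ, hmem⟩ := G.exists_tv v hv hv0
    obtain ⟨τ, hτ⟩ := mem_decompositionStabilizer.mp (hle hmem)
    -- a block not orthogonal to v
    have hex : ∃ i, ∃ x ∈ D i, f x v ≠ 0 := by
      by_contra hcon
      push Not at hcon
      let U : Submodule F (ι → F) :=
        { carrier := {x | f x v = 0}
          add_mem' := fun {x y} hx hy => by
            show f (x + y) v = 0
            rw [G.add_left, hx, hy, add_zero]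
          zero_mem' := G.zero_left v
          smul_mem' := fun c x hx => by
            show f (c • x) v = 0
            rw [G.smul_left, hx, mul_zero] }
      have hU : U = ⊤ := by
        rw [eq_top_iff, ← hD.iSup_eq_top]
        exact iSup_le fun i x hx => hcon i x hx
      obtain ⟨x, hx⟩ := G.nondeg v hv0
      apply hx
      have : x ∈ U := by rw [hU]; trivial
      exact this
    obtain ⟨i, x, hx, hxv⟩ := hex
    -- a vector of D i fixed by the transvection
    have hfix : ∃ y ∈ D i, y ≠ 0 ∧ φ ⬝ᵥ y = 0 := by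
      by_contra hcon
      push Not at hcon
      have hinj : Function.Injective ((dotL φ).domRestrict (D i)) := by
        rw [injective_iff_map_eq_zero]
        rintro ⟨y, hy⟩ h0
        by_contra hne
        exact hcon y hy (fun h => hne (Subtype.ext h)) h0
      have h1 := LinearMap.finrank_le_finrank_of_injective hinj
      rw [hD.finrank_eq, Module.finrank_self] at h1
      omega
    obtain ⟨y, hy, hy0, hφy⟩ := hfix
    have hτi : τ i = i := by
      by_contra hne
      have h1 : y ∈ D (τ i) := by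
        rw [← hτ i, Submodule.mem_map]
        refine ⟨y, hy, ?_⟩
        rw [Matrix.toLin'_apply, tv_mulVec, hφy, zero_smul, add_zero]
      have h2 : Disjoint (D (τ i)) (D i) := hD.indep.pairwiseDisjoint hne
      exact hy0 (Submodule.disjoint_def.mp h2 y h1 hy)
    have h3 : x + (a * f x v) • v ∈ D i := by
      have h4 : (tv v φ h : Matrix ι ι F) *ᵥ x ∈ D (τ i) := by
        rw [← hτ i, Submodule.mem_map]
        exact ⟨x, hx, Matrix.toLin'_apply _ _⟩
      rw [hτi, tv_mulVec, hφ] at h4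
      exact h4
    refine ⟨i, ?_⟩
    have h5 := (Submodule.add_mem_iff_right _ hx).mp h3
    exact (Submodule.smul_mem_iff _ (mul_ne_zero G.a_ne hxv)).mp h5
  -- isotropic vectors in two different blocks
  have ht := hD.two_le
  have hcard : Fintype.card ι = t * m := by
    have h1 := Module.finrank_fintype_fun_eq_card F (η := ι)
    have h2 := LinearEquiv.finrank_eq (LinearEquiv.ofBijective (DirectSum.coeLinearMap D) hint)
    rw [Module.finrank_directSum, h1] at h2
    simp only [hD.finrank_eq, Finset.sum_const, Finset.card_univ, Fintype.card_fin, smul_eq_mul] at h2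
    exact h2.symm
  obtain ⟨v, hv, hv0⟩ := G.exists_iso_ne_zero (by rw [hcard]; positivity)
  obtain ⟨i, hi⟩ := key v hv hv0
  have hDi : D i ≠ ⊤ := by
    intro h
    have h1 := hD.finrank_eq i
    rw [h, finrank_top, Module.finrank_fintype_fun_eq_card, hcard] at h1
    nlinarith
  obtain ⟨w, hw, hwi⟩ := G.exists_iso_not_mem (D i) hDi
  have hw0 : w ≠ 0 := by rintro rfl; exact hwi (Submodule.zero_mem _)
  obtain ⟨j, hj⟩ := key w hw hw0
  have hij : i ≠ j := by rintro rfl; exact hwi hj
  obtain ⟨c, hc0, hc⟩ := G.join v w hv hw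
  have hdis : Disjoint (D i) (D j) := hD.indep.pairwiseDisjoint hij
  have hne : v + c • w ≠ 0 := by
    intro h
    have h1 : v = -(c • w) := eq_neg_of_add_eq_zero_left h
    apply hv0
    apply Submodule.disjoint_def.mp hdis v hi
    rw [h1]
    exact (D j).neg_mem ((D j).smul_mem c hj)
  obtain ⟨k, hk⟩ := key _ hc hne
  by_cases hki : k = i
  · subst hki
    have h1 := (Submodule.add_mem_iff_right _ hi).mp hk
    exact hwi ((Submodule.smul_mem_iff _ hc0).mp h1)
  by_cases hkj : k = j
  · subst hkj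
    have h1 := (Submodule.add_mem_iff_left _ ((D k).smul_mem c hj)).mp hk
    exact hv0 (Submodule.disjoint_def.mp hdis v hi h1)
  · have h5 : Disjoint (D k) (⨆ l ≠ k, D l) := hD.indep k
    have h6 : v + c • w ∈ ⨆ l ≠ k, D l := by
      refine Submodule.add_mem _ ?_ ?_
      · exact (le_iSup₂_of_le (f := fun l (_ : l ≠ k) => D l) i (Ne.symm hki) le_rfl) hi
      · exact (le_iSup₂_of_le (f := fun l (_ : l ≠ k) => D l) j (Ne.symm hkj) le_rfl) ((D j).smul_mem c hj)
    exact hne (Submodule.disjoint_def.mp h5 _ hk h6)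

/-- Class 3. -/
lemma not_le_subalgebraNormalizer (G : TvGeom f σ a Ω) (hn : 3 ≤ Fintype.card ι) {r : ℕ} (hr : 2 ≤ r)
    (K : Subalgebra F (Matrix ι ι F)) (hK : IsFieldSubalgebra r K) : ¬ Ω ≤ subalgebraNormalizer K := by
  intro hle
  obtain ⟨v, hv, hv0⟩ := G.exists_iso_ne_zero (by omega)
  obtain ⟨φ, h, hφ0, hφ, hmem⟩ := G.exists_tv v hv hv0
  exact tv_not_mem_subalgebraNormalizer hn hr K hK v φ h hv0 hφ0 (hle hmem)

/-- Class 4. -/
lemma not_le_tensorProductSubgroup (G : TvGeom f σ a Ω) {n₁ n₂ : ℕ} (h₁ : 2 ≤ n₁) (h₂ : 2 ≤ n₂)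
    (e : ι ≃ Fin n₁ × Fin n₂) (P : Matrix.GeneralLinearGroup ι F) : ¬ Ω ≤ tensorProductSubgroup n₁ n₂ e P := by
  intro hle
  have hcard : Fintype.card ι = n₁ * n₂ := by simpa using Fintype.card_congr e
  obtain ⟨v, hv, hv0⟩ := G.exists_iso_ne_zero (by rw [hcard]; positivity)
  obtain ⟨φ, h, hφ0, hφ, hmem⟩ := G.exists_tv v hv hv0
  exact tv_not_mem_tensorProductSubgroup h₁ h₂ e P v φ h hv0 hφ0 (hle hmem)

/-- Class 7. -/
lemma not_le_tensorWreathSubgroup (G : TvGeom f σ a Ω) {m t : ℕ} (hmt : (3 ≤ m ∧ 2 ≤ t) ∨ (2 ≤ m ∧ 3 ≤ t))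
    (e : ι ≃ (Fin t → Fin m)) (P : Matrix.GeneralLinearGroup ι F) : ¬ Ω ≤ tensorWreathSubgroup m t e P := by
  intro hle
  have hcard : Fintype.card ι = m ^ t := by simpa using Fintype.card_congr e
  have hm : 0 < m := by rcases hmt with h | h <;> omega
  obtain ⟨v, hv, hv0⟩ := G.exists_iso_ne_zero (by rw [hcard]; positivity)
  obtain ⟨φ, h, hφ0, hφ, hmem⟩ := G.exists_tv v hv hv0
  exact tv_not_mem_tensorWreathSubgroup hmt e P v φ h hv0 hφ0 (hle hmem)

/-- Class 5, when there is a totally isotropic plane. -/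
lemma not_le_subfieldSubgroup [Finite F] (G : TvGeom f σ a Ω) (hn : 2 ≤ Fintype.card ι) (F₀ : Subfield F)
    (hF₀ : F₀ ≠ ⊤) (P : Matrix.GeneralLinearGroup ι F) (v w : ι → F) (hv : f v v = 0) (hw : f w w = 0)
    (hvw : f v w = 0 ∨ ∀ u, f u u = 0)
    (hind : ∀ a b : F, a • v + b • w = 0 → a = 0 ∧ b = 0) : ¬ Ω ≤ subfieldSubgroup F₀ P := by
  intro hle
  have hrat : ∀ u, f u u = 0 → u ≠ 0 → ∃ μ : F, μ ≠ 0 ∧ ∀ i, μ * (((P⁻¹ : Matrix.GeneralLinearGroup ι F) : Matrix ι ι F) *ᵥ u) i ∈ F₀ := by
    intro u hu hu0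
    obtain ⟨φ, h, hφ0, hφ, hmem⟩ := G.exists_tv u hu hu0
    exact tv_mem_subfieldSubgroup hn F₀ P u φ h hu0 hφ0 (hle hmem)
  have hinj : ∀ x : ι → F, ((P⁻¹ : Matrix.GeneralLinearGroup ι F) : Matrix ι ι F) *ᵥ x = 0 → x = 0 := by
    intro x hx
    have h1 := congrArg (fun w => (P : Matrix ι ι F) *ᵥ w) hx
    simp only [Matrix.mulVec_zero] at h1
    rwa [Matrix.mulVec_mulVec, ← Units.val_mul, mul_inv_cancel, Units.val_one, Matrix.one_mulVec] at h1
  have hv0 : v ≠ 0 := by
    rintro rfl
    exact one_ne_zero (hind 1 0 (by simp)).1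
  have hw0 : w ≠ 0 := by
    rintro rfl
    exact one_ne_zero (hind 0 1 (by simp)).2
  apply hF₀
  refine mem_of_rational_plane F₀ _ _ ?_ (hrat v hv hv0) (hrat w hw hw0) ?_
  · intro a b hab
    apply hind
    apply hinj
    rw [Matrix.mulVec_add, Matrix.mulVec_smul, Matrix.mulVec_smul]
    exact hab
  · intro c hc
    have hiso : f (v + c • w) (v + c • w) = 0 := by
      rcases hvw with hvw | hall
      · rw [G.add_left, G.add_right, G.add_right, G.smul_left, G.smul_left, G.smul_right, G.smul_right, hv, hw, hvw,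
          G.refl _ _ hvw]
        simp
      · exact hall _
    have hne : v + c • w ≠ 0 := by
      intro h
      have := (hind 1 c (by rw [one_smul]; exact h)).1
      exact one_ne_zero this
    obtain ⟨μ, hμ, hμ'⟩ := hrat _ hiso hne
    refine ⟨μ, hμ, ?_⟩
    rw [Matrix.mulVec_add, Matrix.mulVec_smul] at hμ'
    exact hμ'

end TvGeom

end Cfsg.Agent.AschCases
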