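import Mathlib
import Cfsg.Agent.AschCases.FormGeom

set_option autoImplicit false
set_option linter.unusedSectionVars false
set_option linter.style.haveILetI false

/-!
Class 6 for groups containing the transvections of a form.
-/

namespace Cfsg.Agent.AschCases

open scoped Matrix
open Cfsg.Geo

variable {ι : Type} [Fintype ι] [DecidableEq ι] {F : Type*} [Field F]

namespace TvGeom

variable {f : (ι → F) → (ι → F) → F} {σ : F →+* F} {a : F} {Ω : Subgroup (Matrix.GeneralLinearGroup ι F)}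

/-- A matrix for which every isotropic vector is an eigenvector is scalar. -/
lemma scalar_of_iso_eigen (G : TvGeom f σ a Ω) (x : Matrix ι ι F)
    (h : ∀ v, f v v = 0 → ∃ c : F, x *ᵥ v = c • v) : ∃ c : F, x = c • (1 : Matrix ι ι F) := by
  by_cases hι : 0 < Fintype.card ι
  · obtain ⟨v, hv, hv0⟩ := G.exists_iso_ne_zero hι
    obtain ⟨c, hc⟩ := h v hv
    refine ⟨c, ?_⟩
    let U : Submodule F (ι → F) := LinearMap.ker (Matrix.toLin' (x - c • (1 : Matrix ι ι F)))
    have hU : ∀ w, w ∈ U ↔ x *ᵥ w = c • w := by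
      intro w
      rw [LinearMap.mem_ker, Matrix.toLin'_apply, Matrix.sub_mulVec, Matrix.smul_mulVec, Matrix.one_mulVec, sub_eq_zero]
    have hT : U = ⊤ := by
      apply G.span
      intro w hw
      rw [hU]
      by_cases hw0 : w = 0
      · rw [hw0, Matrix.mulVec_zero, smul_zero]
      obtain ⟨d, hd⟩ := h w hw
      obtain ⟨b, hb0, hb⟩ := G.join v w hv hw
      obtain ⟨e, he⟩ := h _ hb
      rw [Matrix.mulVec_add, Matrix.mulVec_smul, hc, hd, smul_add] at he
      -- (c - e) v + b (d - e) w = 0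
      by_cases hce : c = e
      · rw [← hce] at he
        have h1 := add_left_cancel he
        rw [smul_comm c b w] at h1
        have h2 := smul_right_injective (ι → F) hb0 h1
        rw [hd, h2]
      · have h1 : v = ((e - d) * b * (c - e)⁻¹) • w := by
          have h2 : (c - e) • v = ((e - d) * b) • w := by
            rw [sub_smul, sub_eq_iff_eq_add]
            have h3 : ((e - d) * b) • w = e • b • w - b • d • w := by
              rw [sub_mul, sub_smul, mul_smul, mul_comm d b, mul_smul]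
            rw [h3]
            rw [← eq_sub_iff_add_eq] at he
            rw [he]; abel
          have h3 : v = (c - e)⁻¹ • ((c - e) • v) := by
            rw [smul_smul, inv_mul_cancel₀ (sub_ne_zero.mpr hce), one_smul]
          rw [h3, h2, smul_smul, mul_comm]
        set s := (e - d) * b * (c - e)⁻¹ with hs
        have hs0 : s ≠ 0 := by
          intro h0
          rw [h0, zero_smul] at h1
          exact hv0 h1
        have h2 : w = s⁻¹ • v := by rw [h1, smul_smul, inv_mul_cancel₀ hs0, one_smul]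
        rw [h2, Matrix.mulVec_smul, hc, smul_comm]
    have h1 : Matrix.toLin' (x - c • (1 : Matrix ι ι F)) = 0 := LinearMap.ker_eq_top.mp hT
    have h2 : x - c • (1 : Matrix ι ι F) = 0 := by
      apply Matrix.toLin'.injective
      rw [h1, map_zero]
    exact sub_eq_zero.mp h2
  · refine ⟨0, ?_⟩
    ext i
    exact absurd (Fintype.card_pos_iff.mpr ⟨i⟩) hι

/-- If `x` commutes with a transvection up to a scalar then its centre is an eigenvector of `x`. -/
lemma eigen_of_conj (hn : 3 ≤ Fintype.card ι) (x : Matrix.GeneralLinearGroup ι F) (v φ : ι → F) (h : φ ⬝ᵥ v = 0)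
    (hφ : φ ≠ 0) (c : F)
    (hc : ((x * tv v φ h * x⁻¹ * (tv v φ h)⁻¹ : Matrix.GeneralLinearGroup ι F) : Matrix ι ι F) = c • (1 : Matrix ι ι F)) :
    ∃ d : F, (x : Matrix ι ι F) *ᵥ v = d • v := by
  set t := tv v φ h with ht
  have h1 : ((x * t * x⁻¹ : Matrix.GeneralLinearGroup ι F) : Matrix ι ι F) = c • (t : Matrix ι ι F) := by
    have h2 : x * t * x⁻¹ = (x * t * x⁻¹ * t⁻¹) * t := by group
    rw [h2, Units.val_mul, hc, Matrix.smul_mul, Matrix.one_mul]
  have hconj := conj_tv x v φ h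
  rw [← ht] at hconj
  rw [hconj, coe_tv] at h1
  set φ' := φ ᵥ* ((x⁻¹ : Matrix.GeneralLinearGroup ι F) : Matrix ι ι F) with hφ'
  -- a common fixed vector
  obtain ⟨y, hy0, hy1, hy2⟩ := exists_ne_zero_of_two hn (dotL φ) (dotL φ')
  rw [dotL_apply] at hy1 hy2
  have h2 := congrArg (fun M : Matrix ι ι F => M *ᵥ y) h1
  simp only [Matrix.smul_mulVec] at h2
  rw [tvM_mulVec, hy2, zero_smul, add_zero, ht, tv_mulVec, hy1, zero_smul, add_zero] at h2
  have hc1 : c = 1 := by
    have h3 : (1 : F) • y = c • y := by rw [one_smul]; exact h2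
    exact (smul_left_injective F hy0 h3).symm
  rw [hc1, one_smul] at h1
  -- evaluate at a vector z with φ ⬝ x⁻¹ z = 1, i.e. z = x w
  obtain ⟨w, hw⟩ : ∃ w, φ ⬝ᵥ w ≠ 0 := by
    by_contra hcon
    push Not at hcon
    apply hφ
    funext i
    have := hcon (Pi.single i 1)
    rwa [dotProduct_single, mul_one] at this
  have h3 := congrArg (fun M : Matrix ι ι F => M *ᵥ ((x : Matrix ι ι F) *ᵥ w)) h1
  rw [tvM_mulVec, ht, tv_mulVec] at h3
  have h4 := add_left_cancel h3
  have h5 : φ' ⬝ᵥ ((x : Matrix ι ι F) *ᵥ w) = φ ⬝ᵥ w := by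
    rw [hφ', ← Matrix.dotProduct_mulVec, Matrix.mulVec_mulVec, ← Units.val_mul, inv_mul_cancel, Units.val_one,
      Matrix.one_mulVec]
  rw [h5] at h4
  refine ⟨(φ ⬝ᵥ w)⁻¹ * (φ ⬝ᵥ ((x : Matrix ι ι F) *ᵥ w)), ?_⟩
  rw [mul_smul, ← h4, smul_smul, inv_mul_cancel₀ hw, one_smul]

/-- Class 6. -/
lemma not_le_symplType (G : TvGeom f σ a Ω) (hn : 3 ≤ Fintype.card ι) {r : ℕ}
    (R : Subgroup (Matrix.GeneralLinearGroup ι F)) (hR : IsPGroup r R) (hirr : ActsIrreducibly (matrixSet R))
    (hnorm : ∀ x ∈ R, ∀ t ∈ Ω, x * t * x⁻¹ ∈ Ω)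
    (hcen : ∀ N : Subgroup (Matrix.GeneralLinearGroup ι F), N ≤ Ω → (∀ g ∈ Ω, ∀ x ∈ N, g * x * g⁻¹ ∈ N) →
      IsPGroup r N → ∀ y ∈ N, ∃ c : F, (y : Matrix ι ι F) = c • (1 : Matrix ι ι F)) :
    ¬ Ω ≤ subgroupNormalizer R := by
  intro hle
  have hle' : ∀ g ∈ Ω, ∀ x ∈ R, g * x * g⁻¹ ∈ R := by
    intro g hg x hx
    have h1 := hle hg
    rw [subgroupNormalizer, Subgroup.mem_normalizer_iff] at h1
    exact (h1 x).mp hx
  have hN := hcen (R ⊓ Ω) inf_le_right (fun g hg x hx => ⟨hle' g hg x hx.1, Ω.mul_mem (Ω.mul_mem hg hx.2) (Ω.inv_mem hg)⟩)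
    (IsPGroup.to_le hR inf_le_left)
  have hall : ∀ x ∈ R, ∃ c : F, (x : Matrix ι ι F) = c • (1 : Matrix ι ι F) := by
    intro x hx
    apply G.scalar_of_iso_eigen
    intro v hv
    by_cases hv0 : v = 0
    · exact ⟨0, by rw [hv0, Matrix.mulVec_zero, smul_zero]⟩
    obtain ⟨φ, h, hφ0, hφ, hmem⟩ := G.exists_tv v hv hv0
    have h1 : x * tv v φ h * x⁻¹ * (tv v φ h)⁻¹ ∈ R ⊓ Ω := by
      constructor
      · have h2 := hle' _ hmem _ (R.inv_mem hx)
        have h3 : x * tv v φ h * x⁻¹ * (tv v φ h)⁻¹ = x * (tv v φ h * x⁻¹ * (tv v φ h)⁻¹) := by group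
        rw [h3]; exact R.mul_mem hx h2
      · exact Ω.mul_mem (hnorm x hx _ hmem) (Ω.inv_mem hmem)
    obtain ⟨c, hc⟩ := hN _ h1
    exact eigen_of_conj hn x v φ h hφ0 c hc
  have hne : Nonempty ι := Fintype.card_pos_iff.mp (by omega)
  obtain ⟨i⟩ := hne
  have hirr' := hirr (Submodule.span F {(Pi.single i 1 : ι → F)}) (by
    rintro s ⟨g, hg, rfl⟩
    obtain ⟨c, hc⟩ := hall g hg
    rw [Submodule.map_span_le]
    rintro m hm
    rw [Set.mem_singleton_iff] at hm
    rw [hm, Matrix.toLin'_apply]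
    show (g : Matrix ι ι F) *ᵥ _ ∈ _
    rw [hc, Matrix.smul_mulVec, Matrix.one_mulVec]
    exact Submodule.smul_mem _ _ (Submodule.mem_span_singleton_self _))
  rcases hirr' with h | h
  · rw [Submodule.span_singleton_eq_bot] at h
    have := congrFun h i
    simp at this
  · have h1 := finrank_span_singleton (K := F) (v := (Pi.single i 1 : ι → F)) (by
      intro h2; have := congrFun h2 i; simp at this)
    rw [h, finrank_top, Module.finrank_fintype_fun_eq_card] at h1
    omega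

end TvGeom

end Cfsg.Agent.AschCases
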