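import Mathlib
import Cfsg.Agent.AschCases.FormSix
import Cfsg.Agent.AschCases.SmallQ
import Cfsg.Agent.GeoMax.SpStd
import Cfsg.Agent.ClassSp.Simple
import Cfsg.Agent.Asch.Members

set_option autoImplicit false
set_option linter.unusedSectionVars false
set_option linter.style.haveILetI false

/-!
The symplectic group is contained in no member of the geometric classes.
-/

namespace Cfsg.Agent.AschCases

open scoped Matrix
open Cfsg.Geo

variable {F : Type*} [Field F] {m : ℕ}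

lemma mem_spGL_iff (g : Matrix.GeneralLinearGroup (Fin m ⊕ Fin m) F) : g ∈ Cfsg.spGL m F ↔
    ∀ u v, Cfsg.sympForm m F ((g : Matrix (Fin m ⊕ Fin m) (Fin m ⊕ Fin m) F) *ᵥ u)
      ((g : Matrix (Fin m ⊕ Fin m) (Fin m ⊕ Fin m) F) *ᵥ v) = Cfsg.sympForm m F u v := Iff.rfl

lemma sympForm_eq_sf (u v : Fin m ⊕ Fin m → F) : Cfsg.sympForm m F u v = - ClassSp.sf u v := by
  rw [ClassSp.sf_eq_dotProduct, neg_neg]; rfl

theorem sp_geom (m : ℕ) (F : Type*) [Field F] : TvGeom (Cfsg.sympForm m F) (RingHom.id F) 1 (Cfsg.spGL m F) := by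
  have hs := GeoMax.Symp.std m F
  refine ⟨hs.bilinear.add_left, hs.bilinear.smul_left, hs.bilinear.add_right, fun v c x => hs.bilinear.smul_right c v x,
    ?_, fun v hv => (hs.nondegenerate v hv).1, one_ne_zero, ?_, ?_, ?_⟩
  · intro u v h
    rw [hs.skew, h, neg_zero]
  · intro v hv φ h hφ
    rw [mem_spGL_iff]
    intro x y
    rw [tv_mulVec, tv_mulVec, hφ, hφ, hs.bilinear.add_left, hs.bilinear.add_right, hs.bilinear.add_right,
      hs.bilinear.smul_left, hs.bilinear.smul_left, hs.bilinear.smul_right, hs.bilinear.smul_right, hv, hs.skew v y]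
    ring
  · intro U hU
    rw [eq_top_iff]
    intro v _
    exact hU v (hs.alternating v)
  · intro v w _ _
    exact ⟨1, one_ne_zero, hs.alternating _⟩

/-- A totally singular plane. -/
lemma exists_ts_plane (hm : 2 ≤ m) : ∃ v w : Fin m ⊕ Fin m → F, Cfsg.sympForm m F v w = 0 ∧
    ∀ a b : F, a • v + b • w = 0 → a = 0 ∧ b = 0 := by
  let i : Fin m := ⟨0, by omega⟩
  let j : Fin m := ⟨1, by omega⟩
  have hij : i ≠ j := by simp [i, j]
  refine ⟨Pi.single (Sum.inl i) 1, Pi.single (Sum.inl j) 1, ?_, ?_⟩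
  · rw [sympForm_eq_sf, ClassSp.sf_single_inl_left]
    simp
  · intro a b hab
    have h1 := congrFun hab (Sum.inl i)
    have h2 := congrFun hab (Sum.inl j)
    simp [hij, hij.symm] at h1 h2
    exact ⟨h1, h2⟩

/-- Normal r-subgroups of the symplectic group are scalar. -/
lemma sp_normal_scalar [Fintype F] (h : 3 ≤ m ∨ (m = 2 ∧ 3 ≤ Fintype.card F)) {r p : ℕ}
    (hr : r.Prime) (hp : p.Prime) [CharP F p] (hrp : r ≠ p)
    (N : Subgroup (Matrix.GeneralLinearGroup (Fin m ⊕ Fin m) F)) (hN : N ≤ Cfsg.spGL m F)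
    (hnorm : ∀ g ∈ Cfsg.spGL m F, ∀ x ∈ N, g * x * g⁻¹ ∈ N) (hNr : IsPGroup r N) :
    ∀ y ∈ N, ∃ c : F, (y : Matrix (Fin m ⊕ Fin m) (Fin m ⊕ Fin m) F) = c • (1 : Matrix (Fin m ⊕ Fin m) (Fin m ⊕ Fin m) F) := by
  have hm : 2 ≤ m := by rcases h with h | h <;> omega
  -- the embedding
  let ψ : Matrix.symplecticGroup (Fin m) F →* Matrix.GeneralLinearGroup (Fin m ⊕ Fin m) F :=
    Units.liftRight (Matrix.symplecticGroup (Fin m) F).subtype
      (fun s => ⟨s, ((s⁻¹ : Matrix.symplecticGroup (Fin m) F) : Matrix (Fin m ⊕ Fin m) (Fin m ⊕ Fin m) F), by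
        rw [← Submonoid.coe_mul, mul_inv_cancel, Submonoid.coe_one], by
        rw [← Submonoid.coe_mul, inv_mul_cancel, Submonoid.coe_one]⟩) (fun s => rfl)
  have hψ : ∀ s, ((ψ s : Matrix.GeneralLinearGroup (Fin m ⊕ Fin m) F) : Matrix (Fin m ⊕ Fin m) (Fin m ⊕ Fin m) F) =
      (s : Matrix (Fin m ⊕ Fin m) (Fin m ⊕ Fin m) F) := fun s => rfl
  have hψmem : ∀ s, ψ s ∈ Cfsg.spGL m F := by
    intro s
    rw [mem_spGL_iff]
    intro u v
    rw [sympForm_eq_sf, sympForm_eq_sf, hψ, ClassSp.sf_mulVec]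
  have hsurj : ∀ g ∈ Cfsg.spGL m F, ∃ s, ψ s = g := by
    intro g hg
    refine ⟨⟨(g : Matrix (Fin m ⊕ Fin m) (Fin m ⊕ Fin m) F), (ClassSp.mem_symplectic_iff _).2 fun u v => ?_⟩, Units.ext rfl⟩
    have := (mem_spGL_iff g).1 hg u v
    rw [sympForm_eq_sf, sympForm_eq_sf] at this
    exact neg_injective this
  haveI hnormal : (N.comap ψ).Normal := ⟨fun s hs g => by
    rw [Subgroup.mem_comap] at hs ⊢
    rw [map_mul, map_mul, map_inv]
    exact hnorm _ (hψmem g) _ hs⟩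
  by_cases hc : N.comap ψ ≤ Subgroup.center (Matrix.symplecticGroup (Fin m) F)
  · intro y hy
    obtain ⟨s, hs⟩ := hsurj y (hN hy)
    have h1 : s ∈ N.comap ψ := by rw [Subgroup.mem_comap, hs]; exact hy
    obtain ⟨c, -, hc'⟩ := ClassSp.mem_center_iff.1 (hc h1)
    refine ⟨c, ?_⟩
    rw [← hs, hψ]
    apply Matrix.ext_of_mulVec_single
    intro i
    rw [hc', Matrix.smul_mulVec, Matrix.one_mulVec]
  · exfalso
    have h1 := ClassSp.commutator_le_of_normal (N.comap ψ) hc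
    rw [ClassSp.perfect_fin m (by rcases h with h | h; exacts [Or.inl h, Or.inr (Or.inl h)])] at h1
    have G := sp_geom m F
    obtain ⟨v, hv, hv0⟩ := G.exists_iso_ne_zero (by simp; omega)
    obtain ⟨φ, hφv, hφ0, hφ, hmem⟩ := G.exists_tv v hv hv0
    obtain ⟨s, hs⟩ := hsurj _ hmem
    have h2 : s ∈ N.comap ψ := h1 trivial
    rw [Subgroup.mem_comap, hs] at h2
    obtain ⟨k, hk⟩ := hNr ⟨_, h2⟩
    have hk' : tv v φ hφv ^ r ^ k = 1 := congrArg Subtype.val hk
    have h3 := eq_one_of_pow_coprime _ (Nat.Coprime.pow_right k ((Nat.coprime_primes hp hr).mpr (Ne.symm hrp)))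
      (tv_pow_char p _ _ _) hk'
    exact hφ0 (eq_of_tv_eq_one _ _ _ hv0 h3)

/-- Similarities normalise the isometry group. -/
lemma similarity_normalises {ι : Type} [Fintype ι] [DecidableEq ι] {f : (ι → F) → (ι → F) → F}
    {Ω : Subgroup (Matrix.GeneralLinearGroup ι F)}
    (hΩ : ∀ g : Matrix.GeneralLinearGroup ι F, g ∈ Ω ↔ ∀ u v, f ((g : Matrix ι ι F) *ᵥ u) ((g : Matrix ι ι F) *ᵥ v) = f u v)
    (x : Matrix.GeneralLinearGroup ι F) (hx : x ∈ similarityGroup f) (t : Matrix.GeneralLinearGroup ι F) (ht : t ∈ Ω) :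
    x * t * x⁻¹ ∈ Ω := by
  obtain ⟨c, hc⟩ := hx
  rw [hΩ] at ht ⊢
  intro u v
  rw [Units.val_mul, Units.val_mul, ← Matrix.mulVec_mulVec, ← Matrix.mulVec_mulVec, ← Matrix.mulVec_mulVec,
    ← Matrix.mulVec_mulVec, hc, ht, ← hc, Matrix.mulVec_mulVec, Matrix.mulVec_mulVec, ← Units.val_mul, mul_inv_cancel,
    Units.val_one, Matrix.one_mulVec, Matrix.one_mulVec]

/-- Class 8. -/
lemma sp_not_le_quadSimilarity (hm : 2 ≤ m) (h2 : (2 : F) = 0) {Q : (Fin m ⊕ Fin m → F) → F}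
    (hQ : IsNondegenerateQuadraticForm Q) (hp : ∀ u v, QuadraticMap.polar Q u v = Cfsg.sympForm m F u v) :
    ¬ Cfsg.spGL m F ≤ quadSimilarityGroup Q := by
  intro hle
  have G := sp_geom m F
  have hs := GeoMax.Symp.std m F
  have hall : ∀ v, v ≠ 0 → Q v = 1 := by
    intro v hv
    obtain ⟨φ, h, -, hφ, hmem⟩ := G.exists_tv v (hs.alternating v) hv
    obtain ⟨c, hc⟩ := hle hmem
    have hpol : ∀ x y, (c : F) * Cfsg.sympForm m F x y = Cfsg.sympForm m F x y := by
      intro x y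
      have h1 := (mem_spGL_iff _).1 hmem x y
      rw [← hp, ← hp] at h1
      have h3 : QuadraticMap.polar Q (((tv v φ h : Matrix.GeneralLinearGroup (Fin m ⊕ Fin m) F) : Matrix (Fin m ⊕ Fin m) (Fin m ⊕ Fin m) F) *ᵥ x)
          (((tv v φ h : Matrix.GeneralLinearGroup (Fin m ⊕ Fin m) F) : Matrix (Fin m ⊕ Fin m) (Fin m ⊕ Fin m) F) *ᵥ y) =
          (c : F) * QuadraticMap.polar Q x y := by
        unfold QuadraticMap.polar
        rw [← Matrix.mulVec_add, hc, hc, hc]
        ring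
      rw [h3, hp] at h1
      exact h1
    obtain ⟨x, hx⟩ := (hs.nondegenerate v hv).1
    have hc1 : (c : F) = 1 := by
      have h1 := hpol x v
      have h3 : ((c : F) - 1) * Cfsg.sympForm m F x v = 0 := by linear_combination h1
      exact sub_eq_zero.1 ((mul_eq_zero.1 h3).resolve_right hx)
    have h4 := hc x
    rw [tv_mulVec, hc1, one_mul, hφ, one_mul] at h4
    have h5 : Q (x + Cfsg.sympForm m F x v • v) = Q x + (Cfsg.sympForm m F x v) ^ 2 * Q v +
        Cfsg.sympForm m F x v * Cfsg.sympForm m F x v := by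
      have h6 := hp x (Cfsg.sympForm m F x v • v)
      rw [hs.bilinear.smul_right, QuadraticMap.polar, hQ.smul] at h6
      linear_combination h6
    rw [h5] at h4
    have h6 : (Cfsg.sympForm m F x v) ^ 2 * (Q v + 1) = 0 := by linear_combination h4
    have h7 : Q v + 1 = 0 := (mul_eq_zero.1 h6).resolve_left (pow_ne_zero 2 hx)
    linear_combination h7 - h2
  obtain ⟨v, w, hvw, hind⟩ := exists_ts_plane (F := F) hm
  have hv0 : v ≠ 0 := by
    rintro rfl
    exact one_ne_zero (hind 1 0 (by simp)).1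
  have hw0 : w ≠ 0 := by
    rintro rfl
    exact one_ne_zero (hind 0 1 (by simp)).2
  have hvw0 : v + w ≠ 0 := by
    intro h
    exact one_ne_zero (hind 1 1 (by rw [one_smul, one_smul]; exact h)).1
  have h1 := hp v w
  rw [QuadraticMap.polar, hall _ hv0, hall _ hw0, hall _ hvw0, hvw] at h1
  exact one_ne_zero (α := F) (by linear_combination -h1)

lemma nondegenerateOn_finrank_ne_one {ι : Type} {f : (ι → F) → (ι → F) → F} (hs : IsSymplecticForm f)
    {W : Submodule F (ι → F)} (hW : IsNondegenerateOn f W) : Module.finrank F W ≠ 1 := by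
  intro h
  obtain ⟨v, hv0, hv⟩ := finrank_eq_one_iff'.1 h
  have hv0' : (v : ι → F) ≠ 0 := fun h => hv0 (Subtype.ext h)
  obtain ⟨⟨x, hx, hxv⟩, -⟩ := hW v v.2 hv0'
  obtain ⟨c, hc⟩ := hv ⟨x, hx⟩
  apply hxv
  have : x = c • (v : ι → F) := by rw [← Submodule.coe_smul, hc]
  rw [this, hs.bilinear.smul_left, hs.alternating, mul_zero]

end Cfsg.Agent.AschCases
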