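import Mathlib
import Cfsg.Agent.AschCases.ProperC6
import Cfsg.Agent.AschCases.SmallQ
import Cfsg.Agent.AschCases.TensorTwo
import Cfsg.Agent.AschCases.FieldSub

set_option autoImplicit false
set_option linter.unusedSectionVars false

/-!
Maximal subgroups of SL_n(F), n ≥ 3: from containment in a class member to equality with an explicit member.
-/

namespace Cfsg.Agent.AschCases

open scoped Matrix
open Cfsg.Geo

/-- The input: H is contained in a member of a geometric class or is in the residual class (with `n = r ^ k` in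
class 6). -/
def LinContain (n : ℕ) (F : Type*) [Field F] [Fintype F] (H : Subgroup (Matrix.GeneralLinearGroup (Fin n) F)) : Prop :=
  (∃ W : Submodule F (Fin n → F), W ≠ ⊥ ∧ W ≠ ⊤ ∧ H ≤ subspaceStabilizer W) ∨
  (∃ (t m : ℕ) (D : Fin t → Submodule F (Fin n → F)), IsMDecomposition m D ∧ H ≤ decompositionStabilizer D) ∨
  (∃ (r : ℕ) (K : Subalgebra F (Matrix (Fin n) (Fin n) F)), r.Prime ∧ IsFieldSubalgebra r K ∧
      H ≤ subalgebraNormalizer K) ∨
  (∃ (n₁ n₂ : ℕ) (e : Fin n ≃ Fin n₁ × Fin n₂) (P : Matrix.GeneralLinearGroup (Fin n) F), 2 ≤ n₁ ∧ n₁ < n₂ ∧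
      H ≤ tensorProductSubgroup n₁ n₂ e P) ∨
  (∃ (F₀ : Subfield F) (r : ℕ) (P : Matrix.GeneralLinearGroup (Fin n) F), r.Prime ∧ Fintype.card F = Nat.card F₀ ^ r ∧
      H ≤ subfieldSubgroup F₀ P) ∨
  (∃ (r k : ℕ) (R : Subgroup (Matrix.GeneralLinearGroup (Fin n) F)), IsLinearSymplecticTypeData r R ∧ n = r ^ k ∧
      H ≤ subgroupNormalizer R) ∨
  (∃ (m t : ℕ) (e : Fin n ≃ (Fin t → Fin m)) (P : Matrix.GeneralLinearGroup (Fin n) F), 3 ≤ m ∧ 2 ≤ t ∧
      H ≤ tensorWreathSubgroup m t e P) ∨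
  (∃ f : (Fin n → F) → (Fin n → F) → F, IsSymplecticForm f ∧ Even n ∧ H ≤ similarityGroup f) ∨
  (∃ (σ : F ≃+* F) (f : (Fin n → F) → (Fin n → F) → F), IsUnitaryForm σ f ∧ H ≤ similarityGroup f) ∨
  (Odd (Fintype.card F) ∧ ∃ Q : (Fin n → F) → F, IsNondegenerateQuadraticForm Q ∧ H ≤ quadSimilarityGroup Q) ∨
  InLinearResidualClass H

/-- The output. -/
def LinEq (n : ℕ) (F : Type*) [Field F] [Fintype F] (H : Subgroup (Matrix.GeneralLinearGroup (Fin n) F)) : Prop :=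
  (∃ W : Submodule F (Fin n → F), W ≠ ⊥ ∧ W ≠ ⊤ ∧ H = subspaceStabilizer W ⊓ specialLinear (Fin n) F) ∨
  (∃ (t m : ℕ) (D : Fin t → Submodule F (Fin n → F)), n = t * m ∧ (m = 1 → 5 ≤ Fintype.card F) ∧
      (m = 2 → 3 ≤ Fintype.card F) ∧ IsMDecomposition m D ∧
      H = decompositionStabilizer D ⊓ specialLinear (Fin n) F) ∨
  (∃ (r : ℕ) (K : Subalgebra F (Matrix (Fin n) (Fin n) F)), r.Prime ∧ r ∣ n ∧ IsFieldSubalgebra r K ∧
      H = subalgebraNormalizer K ⊓ specialLinear (Fin n) F) ∨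
  (∃ (n₁ n₂ : ℕ) (e : Fin n ≃ Fin n₁ × Fin n₂) (P : Matrix.GeneralLinearGroup (Fin n) F), n = n₁ * n₂ ∧
      2 ≤ n₁ ∧ n₁ < n₂ ∧ (n₁ = 2 → 3 ≤ Fintype.card F) ∧
      H = tensorProductSubgroup n₁ n₂ e P ⊓ specialLinear (Fin n) F) ∨
  (∃ (F₀ : Subfield F) (r : ℕ) (P : Matrix.GeneralLinearGroup (Fin n) F), r.Prime ∧ Fintype.card F = Nat.card F₀ ^ r ∧
      H = subfieldSubgroup F₀ P ⊓ specialLinear (Fin n) F) ∨
  (∃ (r k : ℕ) (R : Subgroup (Matrix.GeneralLinearGroup (Fin n) F)), IsLinearSymplecticTypeData r R ∧ n = r ^ k ∧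
      H = subgroupNormalizer R ⊓ specialLinear (Fin n) F) ∨
  (∃ (m t : ℕ) (e : Fin n ≃ (Fin t → Fin m)) (P : Matrix.GeneralLinearGroup (Fin n) F), n = m ^ t ∧ 3 ≤ m ∧ 2 ≤ t ∧
      H = tensorWreathSubgroup m t e P ⊓ specialLinear (Fin n) F) ∨
  (∃ f : (Fin n → F) → (Fin n → F) → F, IsSymplecticForm f ∧ Even n ∧
      H = similarityGroup f ⊓ specialLinear (Fin n) F) ∨
  (∃ (σ : F ≃+* F) (f : (Fin n → F) → (Fin n → F) → F), IsUnitaryForm σ f ∧
      H = similarityGroup f ⊓ specialLinear (Fin n) F) ∨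
  (Odd (Fintype.card F) ∧ ∃ Q : (Fin n → F) → F, IsNondegenerateQuadraticForm Q ∧
      H = quadSimilarityGroup Q ⊓ specialLinear (Fin n) F) ∨
  InLinearResidualClass H

lemma eq_inf_of_maximal {G : Type*} [Group G] {K H M : Subgroup G} (hH : IsMaximalIn K H) (hM : H ≤ M)
    (hK : ¬ K ≤ M) : H = M ⊓ K := by
  rcases hH.2 (M ⊓ K) (le_inf hM hH.1.le) inf_le_right with h | h
  · exact h.symm
  · exact absurd (inf_eq_right.mp h) hK

lemma subfield_ne_top {F : Type*} [Field F] [Fintype F] (F₀ : Subfield F) (r : ℕ) (hr : r.Prime)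
    (h : Fintype.card F = Nat.card F₀ ^ r) : F₀ ≠ ⊤ := by
  rintro rfl
  have h1 : Nat.card (⊤ : Subfield F) = Fintype.card F := by
    rw [← Nat.card_eq_fintype_card]
    exact Nat.card_congr (Subfield.topEquiv).toEquiv
  rw [h1] at h
  have h2 : 1 < Fintype.card F := Fintype.one_lt_card
  have h3 : Fintype.card F ^ 1 < Fintype.card F ^ r := Nat.pow_lt_pow_right h2 hr.one_lt
  rw [pow_one, ← h] at h3
  exact lt_irrefl _ h3

lemma form_ne_zero_of_nondeg {ι : Type} {F : Type*} [Field F] [Nonempty ι] {f : (ι → F) → (ι → F) → F}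
    (hf : IsNondegenerateForm f) : ∃ u y, f u y ≠ 0 := by
  classical
  obtain ⟨i⟩ := (inferInstance : Nonempty ι)
  obtain ⟨⟨x, hx⟩, -⟩ := hf (Pi.single i 1) (fun h => by have := congrFun h i; simp at this)
  exact ⟨x, _, hx⟩

lemma quadSimilarity_le {ι : Type} [Fintype ι] [DecidableEq ι] {F : Type*} [Field F] (Q : (ι → F) → F) :
    quadSimilarityGroup Q ≤ similarityGroup (QuadraticMap.polar Q) := by
  rintro g ⟨c, hc⟩
  refine ⟨c, fun u v => ?_⟩
  simp only [QuadraticMap.polar]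
  rw [← Matrix.mulVec_add, hc, hc, hc]
  ring

theorem linEq_of_linContain {n : ℕ} (hn : 3 ≤ n) {F : Type*} [Field F] [Fintype F]
    {H : Subgroup (Matrix.GeneralLinearGroup (Fin n) F)} (hH : IsMaximalIn (specialLinear (Fin n) F) H)
    (h : LinContain n F H) : LinEq n F H := by
  have hne : Nonempty (Fin n) := ⟨⟨0, by omega⟩⟩
  have hcard : 3 ≤ Fintype.card (Fin n) := by rw [Fintype.card_fin]; exact hn
  have hF2 : 2 ≤ Fintype.card F := Fintype.one_lt_card
  have hsub : ∀ W : Submodule F (Fin n → F), W ≠ ⊥ → W ≠ ⊤ → H ≤ subspaceStabilizer W → LinEq n F H := by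
    intro W h0 h1 hW
    exact Or.inl ⟨W, h0, h1, eq_inf_of_maximal hH hW (sl_not_le_subspaceStabilizer W h0 h1)⟩
  have hfield : ∀ (r : ℕ) (K : Subalgebra F (Matrix (Fin n) (Fin n) F)), r.Prime → IsFieldSubalgebra r K →
      H ≤ subalgebraNormalizer K → LinEq n F H := by
    intro r K hr hK hle
    refine Or.inr (Or.inr (Or.inl ⟨r, K, hr, ?_, hK,
      eq_inf_of_maximal hH hle (sl_not_le_subalgebraNormalizer hcard hr.two_le K hK)⟩))
    have := dvd_card_of_isFieldSubalgebra hK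
    rwa [Fintype.card_fin] at this
  have hsymp : ∀ f : (Fin n → F) → (Fin n → F) → F, IsSymplecticForm f → Even n → H ≤ similarityGroup f →
      LinEq n F H := by
    intro f hf he hle
    refine Or.inr (Or.inr (Or.inr (Or.inr (Or.inr (Or.inr (Or.inr (Or.inl ⟨f, hf, he,
      eq_inf_of_maximal hH hle ?_⟩)))))))
    exact sl_not_le_similarity_aux hcard f hf.bilinear.add_left (form_ne_zero_of_nondeg hf.nondegenerate)
  have hunit : ∀ (σ : F ≃+* F) (f : (Fin n → F) → (Fin n → F) → F), IsUnitaryForm σ f →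
      H ≤ similarityGroup f → LinEq n F H := by
    intro σ f hf hle
    refine Or.inr (Or.inr (Or.inr (Or.inr (Or.inr (Or.inr (Or.inr (Or.inr (Or.inl ⟨σ, f, hf,
      eq_inf_of_maximal hH hle ?_⟩))))))))
    exact sl_not_le_similarity_aux hcard f hf.add_left (form_ne_zero_of_nondeg hf.nondegenerate)
  have hquad : Odd (Fintype.card F) → ∀ Q : (Fin n → F) → F, IsNondegenerateQuadraticForm Q →
      H ≤ quadSimilarityGroup Q → LinEq n F H := by
    intro hodd Q hQ hle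
    refine Or.inr (Or.inr (Or.inr (Or.inr (Or.inr (Or.inr (Or.inr (Or.inr (Or.inr (Or.inl ⟨hodd, Q, hQ,
      eq_inf_of_maximal hH hle ?_⟩)))))))))
    intro hle'
    exact sl_not_le_similarity_aux hcard _ hQ.polar_bilinear.add_left (form_ne_zero_of_nondeg hQ.nondegenerate)
      (hle'.trans (quadSimilarity_le Q))
  rcases h with ⟨W, h0, h1, hW⟩ | ⟨t, m, D, hD, hle⟩ | ⟨r, K, hr, hK, hle⟩ | ⟨n₁, n₂, e, P, h2, h12, hle⟩ |
    ⟨F₀, r, P, hr, hF₀, hle⟩ | ⟨r, k, R, hR, hnk, hle⟩ | ⟨m, t, e, P, hm, ht, hle⟩ | ⟨f, hf, he, hle⟩ |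
    ⟨σ, f, hf, hle⟩ | ⟨hodd, Q, hQ, hle⟩ | hres
  · exact hsub W h0 h1 hW
  · have hnt : n = t * m := by
      have := card_eq_of_decomp hD
      rwa [Fintype.card_fin] at this
    by_cases hm1 : m = 1
    · subst hm1
      by_cases hq2 : Fintype.card F = 2
      · obtain ⟨W, h0, h1, hW⟩ := decStab_lines_two hq2 hD
        exact hsub W h0 h1 (hle.trans hW)
      by_cases hq3 : Fintype.card F = 3
      · obtain ⟨Q, hQ, hQ'⟩ := decStab_lines_three hq3 hD
        exact hquad (by rw [hq3]; decide) Q hQ (hle.trans hQ')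
      by_cases hq4 : Fintype.card F = 4
      · obtain ⟨σ, f, hf, hf'⟩ := decStab_lines_four hq4 hD
        exact hunit σ f hf (hle.trans hf')
      exact Or.inr (Or.inl ⟨t, 1, D, hnt, fun _ => by omega, fun h => by omega, hD,
        eq_inf_of_maximal hH hle (sl_not_le_decompositionStabilizer D hD)⟩)
    by_cases hm2 : m = 2 ∧ Fintype.card F = 2
    · obtain ⟨rfl, hq2⟩ := hm2
      obtain ⟨f, hf, hf'⟩ := decStab_planes_two hq2 hD
      exact hsymp f hf ⟨t, by rw [hnt]; ring⟩ (hle.trans hf')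
    exact Or.inr (Or.inl ⟨t, m, D, hnt, fun h => absurd h hm1, fun h => by
        by_contra h3
        exact hm2 ⟨h, by omega⟩, hD, eq_inf_of_maximal hH hle (sl_not_le_decompositionStabilizer D hD)⟩)
  · exact hfield r K hr hK hle
  · have hnn : n = n₁ * n₂ := by
      have := Fintype.card_congr e
      simpa using this
    by_cases hcase : n₁ = 2 ∧ Fintype.card F = 2
    · obtain ⟨rfl, hq2⟩ := hcase
      obtain ⟨K, hK, hK'⟩ := tensor_two_le hq2 (by omega) e P
      exact hfield 2 K Nat.prime_two hK (hle.trans hK')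
    exact Or.inr (Or.inr (Or.inr (Or.inl ⟨n₁, n₂, e, P, hnn, h2, h12, fun h => by
      by_contra h3
      exact hcase ⟨h, by omega⟩,
      eq_inf_of_maximal hH hle (sl_not_le_tensorProductSubgroup h2 (by omega) e P)⟩)))
  · exact Or.inr (Or.inr (Or.inr (Or.inr (Or.inl ⟨F₀, r, P, hr, hF₀, eq_inf_of_maximal hH hle
      (sl_not_le_subfieldSubgroup (by omega) F₀ (subfield_ne_top F₀ r hr hF₀) P)⟩))))
  · exact Or.inr (Or.inr (Or.inr (Or.inr (Or.inr (Or.inl ⟨r, k, R, hR, hnk, eq_inf_of_maximal hH hle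
      (sl_not_le_symplType hcard r R hR)⟩)))))
  · have hmt : n = m ^ t := by
      have := Fintype.card_congr e
      simpa using this
    exact Or.inr (Or.inr (Or.inr (Or.inr (Or.inr (Or.inr (Or.inl ⟨m, t, e, P, hmt, hm, ht, eq_inf_of_maximal hH hle
      (sl_not_le_tensorWreathSubgroup (by omega) ht e P)⟩))))))
  · exact hsymp f hf he hle
  · exact hunit σ f hf hle
  · exact hquad hodd Q hQ hle
  · exact Or.inr (Or.inr (Or.inr (Or.inr (Or.inr (Or.inr (Or.inr (Or.inr (Or.inr (Or.inr hres)))))))))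

end Cfsg.Agent.AschCases
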