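import Mathlib
import Cfsg.Agent.AschCases.Lin

set_option autoImplicit false
set_option linter.unusedSectionVars false

/-!
Arithmetic consequences of the data of class 6.
-/

namespace Cfsg.Agent.AschCases

open scoped Matrix
open Cfsg.Geo

variable {ι : Type} [Fintype ι] [DecidableEq ι] {F : Type*} [Field F] [Fintype F]

lemma minimalField_arith {r p e : ℕ} (hr : r.Prime) (hrp : r ≠ p) (h : IsMinimalFieldFor r p e F) :
    0 < e ∧ e ∣ r - 1 ∧ p ^ e % r = 1 ∧ ∀ d, 0 < d → d < e → p ^ d % r ≠ 1 := by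
  obtain ⟨hp, hchar, hcard, hdvd, hmin⟩ := h
  haveI : Fact r.Prime := ⟨hr⟩
  have he : 0 < e := by
    rcases Nat.eq_zero_or_pos e with rfl | h
    · rw [pow_zero] at hcard
      have := Fintype.one_lt_card (α := F)
      omega
    · exact h
  have key : ∀ d, (r ∣ p ^ d - 1 ↔ p ^ d % r = 1) := by
    intro d
    have hpos : 1 ≤ p ^ d := Nat.one_le_pow _ _ hp.pos
    constructor
    · intro h
      have h1 : 1 ≡ p ^ d [MOD r] := (Nat.modEq_iff_dvd' hpos).mpr h
      have h2 : p ^ d % r = 1 % r := h1.symm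
      rw [h2, Nat.mod_eq_of_lt hr.one_lt]
    · intro h
      have h1 : 1 ≡ p ^ d [MOD r] := by
        show 1 % r = p ^ d % r
        rw [h, Nat.mod_eq_of_lt hr.one_lt]
      exact (Nat.modEq_iff_dvd' hpos).mp h1
  have hzmod : ∀ d, ((p : ZMod r) ^ d = 1 ↔ p ^ d % r = 1) := by
    intro d
    have h1 : (p : ZMod r) ^ d = ((p ^ d : ℕ) : ZMod r) := by push_cast; rfl
    have h2 : (1 : ZMod r) = ((1 : ℕ) : ZMod r) := by simp
    rw [h1, h2, ZMod.natCast_eq_natCast_iff']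
    rw [Nat.mod_eq_of_lt hr.one_lt]
  refine ⟨he, ?_, (key e).mp hdvd, fun d hd hde h => hmin d hd hde ((key d).mpr h)⟩
  have hord : orderOf (p : ZMod r) = e := by
    rw [orderOf_eq_iff he]
    refine ⟨(hzmod e).mpr ((key e).mp hdvd), fun m hm hm0 h => ?_⟩
    exact hmin m hm0 hm ((key m).mpr ((hzmod m).mp h))
  rw [← hord]
  apply orderOf_dvd_of_pow_eq_one
  apply ZMod.pow_card_sub_one_eq_one
  intro h0
  rw [ZMod.natCast_eq_zero_iff] at h0
  exact hrp ((Nat.prime_dvd_prime_iff_eq hr hp).mp h0)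

lemma class6_odd {r : ℕ} (hr2 : r ≠ 2) {R : Subgroup (Matrix.GeneralLinearGroup ι F)}
    (h : IsLinearSymplecticTypeData r R) : ∃ p e : ℕ, p.Prime ∧ CharP F p ∧ Fintype.card F = p ^ e ∧ Odd e ∧
      0 < e ∧ e ∣ r - 1 ∧ p ^ e % r = 1 ∧ ∀ d, 0 < d → d < e → p ^ d % r ≠ 1 := by
  obtain ⟨p, e, hrp, hmin, h1 | h1 | h1⟩ := h.field
  · obtain ⟨hodd, hoe, hcard, -⟩ := h1
    rw [hcard] at hmin
    obtain ⟨a1, a2, a3, a4⟩ := minimalField_arith h.symplecticType.prime hrp hmin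
    exact ⟨p, e, hmin.1, hmin.2.1, hmin.2.2.1, hoe, a1, a2, a3, a4⟩
  · exact absurd h1.1 hr2
  · exact absurd h1.1 hr2

lemma class6_two (hι : 3 ≤ Fintype.card ι) {R : Subgroup (Matrix.GeneralLinearGroup ι F)}
    (h : IsLinearSymplecticTypeData 2 R) : ∃ p : ℕ, p.Prime ∧ Fintype.card F = p ∧ p % 4 = 1 := by
  obtain ⟨p, e, hrp, hmin, h1 | h1 | h1⟩ := h.field
  · exact absurd h1.1 (by decide)
  · obtain ⟨-, rfl, hcard, -⟩ := h1
    rw [hcard] at hmin
    obtain ⟨hp, -, hF, hdvd, -⟩ := hmin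
    rw [pow_one] at hdvd hF
    refine ⟨p, hp, hF, ?_⟩
    have := hp.two_le
    omega
  · omega

lemma class6_three {R : Subgroup (Matrix.GeneralLinearGroup ι F)}
    (h : IsLinearSymplecticTypeData 3 R) : ∃ p : ℕ, p.Prime ∧ Fintype.card F = p ∧ p % 3 = 1 := by
  obtain ⟨p, e, hp, -, hF, hoe, he, hdvd, hpe, -⟩ := class6_odd (by norm_num) h
  have he2 : e ≤ 2 := Nat.le_of_dvd (by norm_num) hdvd
  have he1 : e = 1 := by
    interval_cases e
    · rfl
    · exact absurd hoe (by decide)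
  subst he1
  rw [pow_one] at hF hpe
  exact ⟨p, hp, hF, hpe⟩

lemma class6_five {R : Subgroup (Matrix.GeneralLinearGroup ι F)}
    (h : IsLinearSymplecticTypeData 5 R) : ∃ p : ℕ, p.Prime ∧ Fintype.card F = p ∧ p % 5 = 1 := by
  obtain ⟨p, e, hp, -, hF, hoe, he, hdvd, hpe, -⟩ := class6_odd (by norm_num) h
  have he2 : e ≤ 4 := Nat.le_of_dvd (by norm_num) hdvd
  have he1 : e = 1 := by
    interval_cases e
    · rfl
    · exact absurd hoe (by decide)
    · exact absurd hdvd (by decide)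
    · exact absurd hoe (by decide)
  subst he1
  rw [pow_one] at hF hpe
  exact ⟨p, hp, hF, hpe⟩

lemma class6_seven {R : Subgroup (Matrix.GeneralLinearGroup ι F)}
    (h : IsLinearSymplecticTypeData 7 R) : ∃ p : ℕ, p.Prime ∧ CharP F p ∧ ((Fintype.card F = p ∧ p % 7 = 1) ∨
      (Fintype.card F = p ^ 3 ∧ (p % 7 = 2 ∨ p % 7 = 4))) := by
  obtain ⟨p, e, hp, hchar, hF, hoe, he, hdvd, hpe, hmin⟩ := class6_odd (by norm_num) h
  have he2 : e ≤ 6 := Nat.le_of_dvd (by norm_num) hdvd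
  have he1 : e = 1 ∨ e = 3 := by
    interval_cases e
    · left; rfl
    · exact absurd hoe (by decide)
    · right; rfl
    · exact absurd hoe (by decide)
    · exact absurd hdvd (by decide)
    · exact absurd hoe (by decide)
  rcases he1 with rfl | rfl
  · rw [pow_one] at hF hpe
    exact ⟨p, hp, hchar, Or.inl ⟨hF, hpe⟩⟩
  · have h1 := hmin 1 (by norm_num) (by norm_num)
    rw [pow_one] at h1
    rw [Nat.pow_mod] at hpe
    have hlt : p % 7 < 7 := Nat.mod_lt _ (by norm_num)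
    refine ⟨p, hp, hchar, Or.inr ⟨hF, ?_⟩⟩
    generalize p % 7 = x at *
    interval_cases x <;> simp_all

lemma class6_eleven {R : Subgroup (Matrix.GeneralLinearGroup ι F)}
    (h : IsLinearSymplecticTypeData 11 R) : ∃ p : ℕ, p.Prime ∧ CharP F p ∧ ((Fintype.card F = p ∧ p % 11 = 1) ∨
      (Fintype.card F = p ^ 5 ∧ (p % 11 = 3 ∨ p % 11 = 4 ∨ p % 11 = 5 ∨ p % 11 = 9))) := by
  obtain ⟨p, e, hp, hchar, hF, hoe, he, hdvd, hpe, hmin⟩ := class6_odd (by norm_num) h
  have he2 : e ≤ 10 := Nat.le_of_dvd (by norm_num) hdvd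
  have he1 : e = 1 ∨ e = 5 := by
    interval_cases e
    · left; rfl
    · exact absurd hoe (by decide)
    · exact absurd hdvd (by decide)
    · exact absurd hoe (by decide)
    · right; rfl
    · exact absurd hoe (by decide)
    · exact absurd hdvd (by decide)
    · exact absurd hoe (by decide)
    · exact absurd hdvd (by decide)
    · exact absurd hoe (by decide)
  rcases he1 with rfl | rfl
  · rw [pow_one] at hF hpe
    exact ⟨p, hp, hchar, Or.inl ⟨hF, hpe⟩⟩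
  · have h1 := hmin 1 (by norm_num) (by norm_num)
    rw [pow_one] at h1
    rw [Nat.pow_mod] at hpe
    have hlt : p % 11 < 11 := Nat.mod_lt _ (by norm_num)
    refine ⟨p, hp, hchar, Or.inr ⟨hF, ?_⟩⟩
    generalize p % 11 = x at *
    interval_cases x <;> simp_all

lemma no_two_primes {n r k : ℕ} (hr : r.Prime) (h : n = r ^ k) {a b : ℕ} (ha : a.Prime) (hb : b.Prime) (hab : a ≠ b)
    (h1 : a ∣ n) (h2 : b ∣ n) : False := by
  rw [h] at h1 h2
  have h3 := (Nat.prime_dvd_prime_iff_eq ha hr).mp (ha.dvd_of_dvd_pow h1)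
  have h4 := (Nat.prime_dvd_prime_iff_eq hb hr).mp (hb.dvd_of_dvd_pow h2)
  exact hab (h3.trans h4.symm)

lemma eq_of_prime_dvd {n r k : ℕ} (hr : r.Prime) (h : n = r ^ k) {a : ℕ} (ha : a.Prime) (h1 : a ∣ n) : r = a := by
  rw [h] at h1
  exact ((Nat.prime_dvd_prime_iff_eq ha hr).mp (ha.dvd_of_dvd_pow h1)).symm

lemma pow_cases {n m t : ℕ} (hn : n ≤ 12) (h : n = m ^ t) (hm : 3 ≤ m) (ht : 2 ≤ t) : n = 9 ∧ m = 3 ∧ t = 2 := by
  have ht3 : t = 2 := by
    by_contra h3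
    have h4 : 3 ≤ t := by omega
    have : 3 ^ 3 ≤ m ^ t := (Nat.pow_le_pow_left hm 3).trans (Nat.pow_le_pow_right (by omega) h4)
    omega
  subst ht3
  have hm3 : m = 3 := by
    by_contra h3
    have h4 : 4 ≤ m := by omega
    have : 4 ^ 2 ≤ m ^ 2 := Nat.pow_le_pow_left h4 2
    omega
  subst hm3
  exact ⟨by rw [h]; norm_num, rfl, rfl⟩

end Cfsg.Agent.AschCases
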