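import Mathlib
import Cfsg.Agent.AschCases.OrthNot.Two
import Cfsg.Agent.AschCases.OrthNot.Five
import Cfsg.Agent.AschCases.OrthNot.Six

set_option autoImplicit false
set_option linter.unusedSectionVars false

/-!
The commutator subgroup of the isometry group of a non-degenerate quadratic form in dimension at least seven lies in no
member of the geometric classes.
-/

namespace Cfsg.Agent.AschCases

open QuadraticMap Cfsg.Agent.Orth Cfsg.Agent.OMax Cfsg.Geo
open scoped Matrix

variable {ι : Type} [Fintype ι] [DecidableEq ι] {F : Type*} [Field F] [Fintype F]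

theorem two_ne_zero_of_odd_card (h : Odd (Fintype.card F)) : (2 : F) ≠ 0 := by
  intro h2
  have h1 : ringChar F ∣ 2 := (ringChar.spec F 2).mp (by exact_mod_cast h2)
  have h3 : ringChar F = 2 := by
    rcases (Nat.dvd_prime Nat.prime_two).mp h1 with h3 | h3
    · exact absurd h3 CharP.ringChar_ne_one
    · exact h3
  have h4 := FiniteField.even_card_iff_char_two.mp h3
  rw [Nat.odd_iff] at h
  omega

theorem orth_subfield_ne_top {F₀ : Subfield F} {r : ℕ} (hr : r.Prime) (h : Fintype.card F = Nat.card F₀ ^ r) : F₀ ≠ ⊤ := by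
  rintro rfl
  have h1 : Nat.card (⊤ : Subfield F) = Fintype.card F := by
    rw [← Nat.card_eq_fintype_card]
    exact Nat.card_congr Subfield.topEquiv.toEquiv
  rw [h1] at h
  have h2 : 1 < Fintype.card F := Fintype.one_lt_card
  have h3 : Fintype.card F ^ 1 < Fintype.card F ^ r := Nat.pow_lt_pow_right h2 hr.one_lt
  rw [pow_one] at h3
  omega

/-- `Ω` of a non-degenerate quadratic form in dimension at least seven is contained in no member of the geometric
classes. -/
theorem orthMember_not_le' {Q : QuadraticForm F (ι → F)} (hQ : (polarBilin Q).Nondegenerate)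
    (hn : 7 ≤ Fintype.card ι) {M : Subgroup (Matrix.GeneralLinearGroup ι F)} (hM : Asch.OrthMember (⇑Q) M) :
    ¬ omegaGL ⇑Q ≤ M := by
  obtain ⟨e, f, hef⟩ := OrthNot.exists_hyp hQ hn
  rcases hM with ⟨W, h1, h2, rfl⟩ | ⟨W, h1, h2, -, rfl⟩ | ⟨v, -, h1, rfl⟩ | ⟨t, k, D, -, h1, rfl⟩ |
    ⟨k, D, h1, h2, h3, rfl⟩ | ⟨r, K, h1, -, h3, -, rfl⟩ | ⟨K, h1, -, -, -, rfl⟩ |
    ⟨n₁, n₂, e', P, f₁, f₂, h1, h2, h3, h4, h5, h6, rfl⟩ | ⟨n₁, n₂, e', P, f₁, f₂, h1, h2, h3, h4, h5, h6, rfl⟩ |
    ⟨F₀, r, P, ζ, h1, h2, -, -, rfl⟩ | ⟨R, p, k, h1, h2, h3, h4, h5, h6, -, -, -, -, rfl⟩ |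
    ⟨k, t, e', P, f₁, h1, h2, h3, -, h5, h6, rfl⟩ | ⟨k, t, e', P, f₁, h1, -, h3, h4, h5, rfl⟩
  · refine OrthNot.not_le_subspaceStabilizer hQ hn W h1 ?_
    rintro rfl
    have h3 := h2 (e 0 + f 0) trivial
    rw [qadd, hef.qe, hef.qf, hef.ef] at h3
    simp at h3
  · exact OrthNot.not_le_subspaceStabilizer hQ hn W h1 h2
  · have hv0 : v ≠ 0 := by
      rintro rfl
      exact h1 (QuadraticMap.map_zero Q)
    refine OrthNot.not_le_subspaceStabilizer hQ hn _ ?_ ?_
    · rwa [Ne, Submodule.span_singleton_eq_bot]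
    · intro h
      have h3 := finrank_span_singleton (K := F) hv0
      rw [h, finrank_top, Module.finrank_fintype_fun_eq_card] at h3
      omega
  · exact OrthNot.not_le_decomp_orth hQ hn D h1
  · exact OrthNot.not_le_decomp_singular hQ hn D h1 h2 h3
  · exact OrthNot.not_le_subalgebraNormalizer hQ hn h1.two_le K h3
  · exact OrthNot.not_le_subalgebraNormalizer hQ hn le_rfl K h1
  · exact OrthNot.not_le_tensor_symm hQ hn (two_ne_zero_of_odd_card h1) h2 (by omega) e' P h4 h5 h6
  · -- n₂ ≥ 3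
    exact OrthNot.not_le_tensor_sympl hQ hn h1 (by omega) e' P h3 h4 h5 h6
  · exact OrthNot.not_le_subfieldSubgroup hQ hn F₀ (orth_subfield_ne_top h1 h2) P
  · refine OrthNot.not_le_symplType hQ hn ?_ R h1.pGroup h2.1 h3
    apply two_ne_zero_of_odd_card
    rw [h6]; exact h5
  · exact OrthNot.not_le_wreath_symm hQ hn (two_ne_zero_of_odd_card h1) h2 h3 e' P h5 h6
  · exact OrthNot.not_le_wreath_sympl hQ hn h1 e' P h3 h4 h5

/-- The same for a quadratic form given as a function. -/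
theorem orthMember_not_le {Q : (ι → F) → F} (hQ : IsNondegenerateQuadraticForm Q)
    (hn : 7 ≤ Fintype.card ι) {M : Subgroup (Matrix.GeneralLinearGroup ι F)} (hM : Asch.OrthMember Q M) :
    ¬ omegaGL Q ≤ M := by
  obtain ⟨Q', hQ'⟩ : ∃ Q' : QuadraticForm F (ι → F), ⇑Q' = Q :=
    ⟨QuadraticMap.ofPolar Q (fun a x => by rw [hQ.smul, smul_eq_mul, pow_two])
      (fun x x' y => hQ.polar_bilinear.add_left x x' y)
      (fun a x y => by rw [hQ.polar_bilinear.smul_left, smul_eq_mul]), rfl⟩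
  subst hQ'
  have hnd : (polarBilin Q').Nondegenerate := by
    have key : ∀ u : ι → F, (∀ v, polar Q' u v = 0) → u = 0 := by
      intro u hu
      by_contra hu0
      obtain ⟨-, x, hx⟩ := hQ.nondegenerate u hu0
      exact hx (hu x)
    refine ⟨fun u hu => key u hu, fun u hu => key u fun v => ?_⟩
    rw [pc]; exact hu v
  exact orthMember_not_le' hnd hn hM

end Cfsg.Agent.AschCases
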