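import Mathlib
import Cfsg.Agent.AschCases.Transv
import Cfsg.Agent.AschCases.FieldSub

set_option autoImplicit false
set_option linter.unusedSectionVars false
set_option linter.style.haveILetI false

/-!
SL_3 over the field with four elements: the normaliser of a cubic field subalgebra is contained in a subfield
subgroup.
-/

namespace Cfsg.Agent.AschCases

open scoped Matrix
open Cfsg.Geo

/-- The subfield `{0, 1}` of a field with `1 + 1 = 0`. -/
def primeTwo {F : Type*} [Field F] (h2 : (1 : F) + 1 = 0) : Subfield F where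
  carrier := {x | x = 0 ∨ x = 1}
  mul_mem' := by
    rintro a b (rfl | rfl) (rfl | rfl) <;> simp
  one_mem' := Or.inr rfl
  add_mem' := by
    rintro a b (rfl | rfl) (rfl | rfl) <;> simp [h2]
  zero_mem' := Or.inl rfl
  neg_mem' := by
    rintro a (rfl | rfl)
    · simp
    · right
      show -(1 : F) = 1
      linear_combination -1 * h2
  inv_mem' := by
    rintro a (rfl | rfl) <;> simp

lemma mem_primeTwo {F : Type*} [Field F] (h2 : (1 : F) + 1 = 0) (x : F) : x ∈ primeTwo h2 ↔ x = 0 ∨ x = 1 := Iff.rfl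

lemma card_primeTwo {F : Type*} [Field F] (h2 : (1 : F) + 1 = 0) : Nat.card (primeTwo h2) = 2 := by
  have h : ((primeTwo h2 : Subfield F) : Set F) = {0, 1} := by
    ext x
    simp [mem_primeTwo, SetLike.mem_coe]
  have h3 : Nat.card (primeTwo h2) = ((primeTwo h2 : Subfield F) : Set F).ncard := rfl
  rw [h3, h, Set.ncard_pair zero_ne_one]

lemma four_field_one_add_one {F : Type*} [Field F] [Fintype F] (hq : Fintype.card F = 4) : (1 : F) + 1 = 0 := by
  have h := FiniteField.cast_card_eq_zero F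
  rw [hq] at h
  have h4 : ((1 : F) + 1) * (1 + 1) = 0 := by
    push_cast at h
    linear_combination h
  exact mul_self_eq_zero.mp h4

section

variable {F E : Type*} [Field F] [Fintype F] [Field E] [Algebra F E]

lemma cubic_theta (hq : Fintype.card F = 4) (hE : Module.finrank F E = 3) :
    ∃ θ : E, IsPrimitiveRoot θ 7 ∧ (∀ k : ℕ, ∃ x : Fin 3 → F, (∀ i, x i = 0 ∨ x i = 1) ∧
      θ ^ k = ∑ i, algebraMap F E (x i) * θ ^ (i : ℕ)) ∧ LinearIndependent F (fun i : Fin 3 => θ ^ (i : ℕ)) := by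
  haveI : FiniteDimensional F E := FiniteDimensional.of_finrank_pos (by rw [hE]; norm_num)
  haveI : Finite E := Module.finite_of_finite F
  haveI := Fintype.ofFinite E
  have hcard : Fintype.card E = 64 := by
    rw [Module.card_eq_pow_finrank (K := F), hE, hq]; norm_num
  classical
  have hu : Fintype.card Eˣ = 63 := by rw [Fintype.card_units, hcard]
  haveI : Fact (Nat.Prime 7) := ⟨by norm_num⟩
  obtain ⟨u, hu7⟩ := exists_prime_orderOf_dvd_card 7 (G := Eˣ) (by rw [hu]; norm_num)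
  have hprim : IsPrimitiveRoot (u : E) 7 := by
    have h1 : IsPrimitiveRoot u 7 := by rw [← hu7]; exact IsPrimitiveRoot.orderOf u
    exact IsPrimitiveRoot.coe_units_iff.mpr h1
  have h2 : (1 : E) + 1 = 0 := by
    have := four_field_one_add_one hq
    have h3 := congrArg (algebraMap F E) this
    simpa using h3
  set θ : E := (u : E) with hθ
  have h7 : θ ^ 7 = 1 := hprim.pow_eq_one
  have hne : θ ≠ 1 := by
    intro h
    have := hprim.ne_one (by norm_num)
    exact this h
  have hfac : (θ ^ 3 + θ + 1) * (θ ^ 3 + θ ^ 2 + 1) = 0 := by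
    have h3 : (θ - 1) * ((θ ^ 3 + θ + 1) * (θ ^ 3 + θ ^ 2 + 1)) = 0 := by
      linear_combination h7 + (θ ^ 4 - θ ^ 3) * h2
    exact (mul_eq_zero.mp h3).resolve_left (sub_ne_zero.mpr hne)
  have hcub : ∃ a b : F, (a = 0 ∨ a = 1) ∧ (b = 0 ∨ b = 1) ∧
      θ ^ 3 = 1 + algebraMap F E a * θ + algebraMap F E b * θ ^ 2 := by
    rcases mul_eq_zero.mp hfac with h | h
    · refine ⟨1, 0, Or.inr rfl, Or.inl rfl, ?_⟩
      rw [map_one, map_zero]
      linear_combination h - (1 + θ) * h2
    · refine ⟨0, 1, Or.inl rfl, Or.inr rfl, ?_⟩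
      rw [map_one, map_zero]
      linear_combination h - (1 + θ ^ 2) * h2
  obtain ⟨a, b, ha, hb, hab⟩ := hcub
  have h2F : (1 : F) + 1 = 0 := four_field_one_add_one hq
  have hadd : ∀ x y : F, (x = 0 ∨ x = 1) → (y = 0 ∨ y = 1) → (x + y = 0 ∨ x + y = 1) :=
    fun x y hx hy => (primeTwo h2F).add_mem hx hy
  have hmul : ∀ x y : F, (x = 0 ∨ x = 1) → (y = 0 ∨ y = 1) → (x * y = 0 ∨ x * y = 1) :=
    fun x y hx hy => (primeTwo h2F).mul_mem hx hy
  refine ⟨θ, hprim, ?_, ?_⟩
  · intro k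
    induction k with
    | zero =>
      refine ⟨![1, 0, 0], ?_, ?_⟩
      · intro i; fin_cases i <;> simp
      · simp [Fin.sum_univ_three]
    | succ k ih =>
      obtain ⟨x, hx, hxk⟩ := ih
      refine ⟨![x 2, x 0 + x 2 * a, x 1 + x 2 * b], ?_, ?_⟩
      · intro i
        fin_cases i
        · exact hx 2
        · exact hadd _ _ (hx 0) (hmul _ _ (hx 2) ha)
        · exact hadd _ _ (hx 1) (hmul _ _ (hx 2) hb)
      · rw [pow_succ, hxk]
        simp only [Fin.sum_univ_three, Fin.isValue, Fin.val_zero, pow_zero, mul_one, Fin.val_one, pow_one,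
          Fin.val_two, Matrix.cons_val_zero, Matrix.cons_val_one, Matrix.cons_val, map_add, map_mul]
        linear_combination algebraMap F E (x 2) * hab
  · have hint : IsIntegral F θ := IsIntegral.of_finite F θ
    have hdvd := minpoly.degree_dvd (K := F) hint
    rw [hE] at hdvd
    have hdeg : (minpoly F θ).natDegree = 3 := by
      rcases (Nat.dvd_prime Nat.prime_three).mp hdvd with h | h
      · exfalso
        obtain ⟨c, hc⟩ := minpoly.natDegree_eq_one_iff.mp h
        have hc7 : c ^ 7 = 1 := by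
          apply (algebraMap F E).injective
          rw [map_pow, hc, h7, map_one]
        have hc0 : c ≠ 0 := by
          rintro rfl
          simp at hc7
        have hc3 : c ^ 3 = 1 := by
          have := FiniteField.pow_card_sub_one_eq_one c hc0
          rwa [hq] at this
        have : c = 1 := by
          calc c = c ^ 7 * (c ^ 3) ^ 0 * 1 := by rw [pow_zero, mul_one, mul_one]; rw [hc7]; calc c = c * (c ^ 3 * c ^ 3) := by rw [hc3]; ring
                _ = c ^ 7 := by ring
                _ = 1 := hc7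
            _ = 1 := by rw [hc7]; ring
        rw [this, map_one] at hc
        exact hne hc.symm
      · exact h
    have := linearIndependent_pow (K := F) θ
    have e : Fin 3 = Fin (minpoly F θ).natDegree := by rw [hdeg]
    have h3 := this.comp (Fin.cast hdeg.symm) (Fin.cast_injective _)
    exact h3

lemma cubic_aux (hq : Fintype.card F = 4) (hE : Module.finrank F E = 3) (φ : E →ₐ[F] Matrix (Fin 3) (Fin 3) F) :
    ∃ P : Matrix.GeneralLinearGroup (Fin 3) F, ∀ g : Matrix.GeneralLinearGroup (Fin 3) F,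
      g ∈ specialLinear (Fin 3) F →
      (∀ k : E, ∃ k' : E, (g : Matrix (Fin 3) (Fin 3) F) * φ k *
        ((g⁻¹ : Matrix.GeneralLinearGroup (Fin 3) F) : Matrix (Fin 3) (Fin 3) F) = φ k') →
      g ∈ subfieldSubgroup (primeTwo (four_field_one_add_one hq)) P := by
  obtain ⟨θ, hθ, hpow, hli⟩ := cubic_theta hq hE
  haveI : FiniteDimensional F E := FiniteDimensional.of_finrank_pos (by rw [hE]; norm_num)
  haveI : Finite E := Module.finite_of_finite F
  haveI := Fintype.ofFinite E
  have hcard : Fintype.card E = 64 := by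
    rw [Module.card_eq_pow_finrank (K := F), hE, hq]; norm_num
  set F₀ := primeTwo (four_field_one_add_one hq) with hF₀
  -- the evaluation map
  let v : Fin 3 → F := Pi.single 0 1
  let T : E →ₗ[F] (Fin 3 → F) :=
    { toFun := fun k => φ k *ᵥ v
      map_add' := fun x y => by rw [map_add, Matrix.add_mulVec]
      map_smul' := fun c x => by rw [map_smul, Matrix.smul_mulVec, RingHom.id_apply] }
  have hT : ∀ k, T k = φ k *ᵥ v := fun k => rfl
  have hTmul : ∀ a k, T (a * k) = φ a *ᵥ T k := by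
    intro a k
    rw [hT, hT, map_mul, ← Matrix.mulVec_mulVec]
  have hTinj : Function.Injective T := by
    rw [← LinearMap.ker_eq_bot, LinearMap.ker_eq_bot']
    intro k hk
    by_contra hk0
    have h1 : T (k⁻¹ * k) = 0 := by rw [hTmul, hk, Matrix.mulVec_zero]
    rw [inv_mul_cancel₀ hk0, hT, map_one, Matrix.one_mulVec] at h1
    have := congrFun h1 0
    simp [v] at this
  have hfr : Module.finrank F E = Module.finrank F (Fin 3 → F) := by rw [hE]; simp
  let Te : E ≃ₗ[F] (Fin 3 → F) := LinearMap.linearEquivOfInjective T hTinj hfr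
  have hTe : ∀ k, Te k = T k := fun k => rfl
  let b : Module.Basis (Fin 3) F E := basisOfLinearIndependentOfCardEqFinrank hli (by rw [hE]; simp)
  have hb : ∀ i, b i = θ ^ (i : ℕ) := fun i => by simp [b]
  let L : (Fin 3 → F) ≃ₗ[F] (Fin 3 → F) := b.equivFun.symm.trans Te
  have hL1 : LinearMap.toMatrix' (L : (Fin 3 → F) →ₗ[F] (Fin 3 → F)) *
      LinearMap.toMatrix' (L.symm : (Fin 3 → F) →ₗ[F] (Fin 3 → F)) = 1 := by
    rw [← LinearMap.toMatrix'_comp, LinearEquiv.comp_coe, LinearEquiv.symm_trans_self]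
    exact LinearMap.toMatrix'_id
  have hL2 : LinearMap.toMatrix' (L.symm : (Fin 3 → F) →ₗ[F] (Fin 3 → F)) *
      LinearMap.toMatrix' (L : (Fin 3 → F) →ₗ[F] (Fin 3 → F)) = 1 := by
    rw [← LinearMap.toMatrix'_comp, LinearEquiv.comp_coe, LinearEquiv.self_trans_symm]
    exact LinearMap.toMatrix'_id
  let P : Matrix.GeneralLinearGroup (Fin 3) F := ⟨_, _, hL1, hL2⟩
  have hPval : (P : Matrix (Fin 3) (Fin 3) F) = LinearMap.toMatrix' (L : (Fin 3 → F) →ₗ[F] (Fin 3 → F)) := rfl
  have hP : ∀ k : E, (P : Matrix (Fin 3) (Fin 3) F) *ᵥ b.equivFun k = T k := by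
    intro k
    rw [hPval, LinearMap.toMatrix'_mulVec]
    show Te (b.equivFun.symm (b.equivFun k)) = T k
    rw [LinearEquiv.symm_apply_apply, hTe]
  have hPdet : (P : Matrix (Fin 3) (Fin 3) F).det ≠ 0 :=
    ((Matrix.isUnit_iff_isUnit_det _).mp P.isUnit).ne_zero
  have hPe : ∀ i : Fin 3, (P : Matrix (Fin 3) (Fin 3) F) *ᵥ (Pi.single i 1) = T (θ ^ (i : ℕ)) := by
    intro i
    rw [← hP, ← hb]
    congr 1
    ext j
    rw [Module.Basis.equivFun_self]
    by_cases h : i = j
    · subst h; simp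
    · simp [h, Ne.symm h]
  -- coordinates of the powers of θ
  have hcoord : ∀ k : ℕ, ∀ i, b.equivFun (θ ^ k) i = 0 ∨ b.equivFun (θ ^ k) i = 1 := by
    intro k
    obtain ⟨x, hx, hxk⟩ := hpow k
    have h1 : b.equivFun (θ ^ k) = x := by
      have h2 : θ ^ k = b.equivFun.symm x := by
        rw [Module.Basis.equivFun_symm_apply, hxk]
        exact Finset.sum_congr rfl fun i _ => by rw [hb, Algebra.smul_def]
      rw [h2, LinearEquiv.apply_symm_apply]
    rw [h1]; exact hx
  -- the matrices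
  let S : (Fin 3 → ℕ) → Matrix (Fin 3) (Fin 3) F := fun m => Matrix.of fun k i => b.equivFun (θ ^ (m i)) k
  have hScol : ∀ (m : Fin 3 → ℕ) (i : Fin 3), (S m) *ᵥ (Pi.single i 1) = b.equivFun (θ ^ (m i)) := by
    intro m i
    rw [Matrix.mulVec_single_one]
    rfl
  have hPS : ∀ (m : Fin 3 → ℕ) (i : Fin 3), ((P : Matrix (Fin 3) (Fin 3) F) * S m) *ᵥ (Pi.single i 1) = T (θ ^ (m i)) := by
    intro m i
    rw [← Matrix.mulVec_mulVec, hScol, hP]
  have hS0 : ∀ m : Fin 3 → ℕ, ∃ M₀ : Matrix (Fin 3) (Fin 3) F₀, S m = M₀.map F₀.subtype := by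
    intro m
    refine ⟨Matrix.of fun k i => ⟨b.equivFun (θ ^ (m i)) k, hcoord _ _⟩, ?_⟩
    ext k i
    rfl
  have hcolext : ∀ M N : Matrix (Fin 3) (Fin 3) F, (∀ i : Fin 3, M *ᵥ (Pi.single i 1) = N *ᵥ (Pi.single i 1)) → M = N := by
    intro M N h
    ext i j
    have := congrFun (h j) i
    simpa [Matrix.mulVec_single_one] using this
  -- det of φ a
  have hdet : ∀ a : E, (algebraMap F E) ((φ a).det) = a ^ 21 := by
    intro a
    have h1 : LinearMap.det (Algebra.lmul F E a) = (φ a).det := by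
      rw [← LinearMap.det_conj _ Te, ← LinearMap.det_toLin' (φ a)]
      congr 1
      refine LinearMap.ext fun x => ?_
      obtain ⟨k, rfl⟩ := Te.surjective x
      show Te (a * (Te.symm (Te k))) = φ a *ᵥ (Te k)
      rw [LinearEquiv.symm_apply_apply, hTe, hTmul, hTe]
    rw [← h1, ← Algebra.norm_apply, FiniteField.algebraMap_norm_eq_pow, Nat.card_eq_fintype_card,
      Nat.card_eq_fintype_card, hcard, hq]
  refine ⟨P, fun g hgSL hg => ?_⟩
  have hginv : ((g⁻¹ : Matrix.GeneralLinearGroup (Fin 3) F) : Matrix (Fin 3) (Fin 3) F) * (g : Matrix (Fin 3) (Fin 3) F) = 1 := by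
    rw [← Units.val_mul, inv_mul_cancel, Units.val_one]
  have hgdet : (g : Matrix (Fin 3) (Fin 3) F).det = 1 := mem_specialLinear.mp hgSL
  have hφinj : Function.Injective φ := φ.toRingHom.injective
  -- the exponent
  obtain ⟨k', hk'⟩ := hg θ
  have hconjpow : ∀ i : ℕ, (g : Matrix (Fin 3) (Fin 3) F) * φ θ ^ i = φ k' ^ i * (g : Matrix (Fin 3) (Fin 3) F) := by
    have h0 : (g : Matrix (Fin 3) (Fin 3) F) * φ θ = φ k' * (g : Matrix (Fin 3) (Fin 3) F) := by
      rw [← hk', mul_assoc _ _ (g : Matrix (Fin 3) (Fin 3) F), hginv, mul_one]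
    intro i
    induction i with
    | zero => simp
    | succ i ih =>
      rw [pow_succ, ← mul_assoc, ih, mul_assoc, h0, ← mul_assoc, ← pow_succ]
  have hk7 : k' ^ 7 = 1 := by
    apply hφinj
    have h1 := hconjpow 7
    rw [← map_pow, hθ.pow_eq_one, map_one, mul_one] at h1
    have h2 : φ k' ^ 7 = 1 := by
      have hgi : (g : Matrix (Fin 3) (Fin 3) F) * ((g⁻¹ : Matrix.GeneralLinearGroup (Fin 3) F) : Matrix (Fin 3) (Fin 3) F) = 1 := by
        rw [← Units.val_mul, mul_inv_cancel, Units.val_one]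
      calc φ k' ^ 7 = φ k' ^ 7 * ((g : Matrix (Fin 3) (Fin 3) F) * ((g⁻¹ : Matrix.GeneralLinearGroup (Fin 3) F) : Matrix (Fin 3) (Fin 3) F)) := by
            rw [hgi, mul_one]
        _ = 1 := by rw [← mul_assoc, ← h1, hgi]
    rw [map_pow, h2, map_one]
  obtain ⟨j, -, hj⟩ := hθ.eq_pow_of_pow_eq_one hk7
  obtain ⟨a, ha⟩ : ∃ a : E, T a = (g : Matrix (Fin 3) (Fin 3) F) *ᵥ v := by
    obtain ⟨a, ha⟩ := Te.surjective ((g : Matrix (Fin 3) (Fin 3) F) *ᵥ v)
    exact ⟨a, ha⟩
  have hgP : (g : Matrix (Fin 3) (Fin 3) F) * P = φ a * ((P : Matrix (Fin 3) (Fin 3) F) * S (fun i => j * i)) := by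
    apply hcolext
    intro i
    rw [← Matrix.mulVec_mulVec, hPe, ← Matrix.mulVec_mulVec, hPS, ← hTmul, hT, map_pow, Matrix.mulVec_mulVec, hconjpow,
      ← Matrix.mulVec_mulVec, ← ha, hT a, Matrix.mulVec_mulVec, ← map_pow, ← map_mul, ← hj, hT, ← pow_mul, mul_comm]
  -- the determinant of a
  have hgPdet := congrArg Matrix.det hgP
  rw [Matrix.det_mul, Matrix.det_mul, Matrix.det_mul, hgdet, one_mul] at hgPdet
  have hSdet : (S (fun i => j * i)).det = 0 ∨ (S (fun i => j * i)).det = 1 := by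
    obtain ⟨M₀, hM₀⟩ := hS0 (fun i => j * i)
    rw [hM₀]
    have : (M₀.map F₀.subtype).det = F₀.subtype M₀.det := (RingHom.map_det F₀.subtype M₀).symm
    rw [this]
    exact M₀.det.2
  have hadet : (φ a).det = 1 := by
    rcases hSdet with h | h
    · rw [h, mul_zero, mul_zero] at hgPdet
      exact absurd hgPdet hPdet
    · rw [h, mul_one] at hgPdet
      have h1 : ((φ a).det - 1) * (P : Matrix (Fin 3) (Fin 3) F).det = 0 := by
        rw [sub_mul, one_mul, ← hgPdet, sub_self]
      exact sub_eq_zero.mp ((mul_eq_zero.mp h1).resolve_right hPdet)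
  have ha21 : a ^ 21 = 1 := by rw [← hdet, hadet, map_one]
  -- a = c * θ ^ m
  obtain ⟨m, -, hm⟩ := hθ.eq_pow_of_pow_eq_one (ξ := a ^ 15) (by
    calc (a ^ 15) ^ 7 = (a ^ 21) ^ 5 := by ring
      _ = 1 := by rw [ha21, one_pow])
  obtain ⟨c, hc⟩ : ∃ c : F, algebraMap F E c = a ^ 7 := by
    have h3 : (a ^ 7) ^ 3 = 1 := by
      calc (a ^ 7) ^ 3 = a ^ 21 := by ring
        _ = 1 := ha21
    classical
    haveI : Fact (Nat.Prime 3) := ⟨Nat.prime_three⟩
    obtain ⟨u, hu3⟩ := exists_prime_orderOf_dvd_card 3 (G := Fˣ) (by rw [Fintype.card_units, hq])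
    have hprim : IsPrimitiveRoot (algebraMap F E (u : F)) 3 := by
      have h1 : IsPrimitiveRoot u 3 := by rw [← hu3]; exact IsPrimitiveRoot.orderOf u
      exact (IsPrimitiveRoot.coe_units_iff.mpr h1).map_of_injective (algebraMap F E).injective
    obtain ⟨i, -, hi⟩ := hprim.eq_pow_of_pow_eq_one h3
    exact ⟨(u : F) ^ i, by rw [map_pow, hi]⟩
  have hac : a = algebraMap F E c * θ ^ m := by
    rw [hc, hm]
    calc a = a * a ^ 21 := by rw [ha21, mul_one]
      _ = a ^ 7 * a ^ 15 := by ring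
  have hc0 : c ≠ 0 := by
    rintro rfl
    rw [map_zero, zero_mul] at hac
    rw [hac] at ha21
    simp at ha21
  -- φ (θ ^ m) P = P S'
  have hθP : φ (θ ^ m) * (P : Matrix (Fin 3) (Fin 3) F) = (P : Matrix (Fin 3) (Fin 3) F) * S (fun i => m + i) := by
    apply hcolext
    intro i
    rw [← Matrix.mulVec_mulVec, hPe, hPS, ← hTmul, ← pow_add]
  have hmain : (g : Matrix (Fin 3) (Fin 3) F) * P = c • ((P : Matrix (Fin 3) (Fin 3) F) * (S (fun i => m + i) * S (fun i => j * i))) := by
    rw [hgP, hac, map_mul, AlgHom.commutes, ← Algebra.smul_def]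
    rw [Matrix.smul_mul, ← Matrix.mul_assoc (φ (θ ^ m)), hθP, Matrix.mul_assoc]
  obtain ⟨M₁, hM₁⟩ := hS0 (fun i => m + i)
  obtain ⟨M₂, hM₂⟩ := hS0 (fun i => j * i)
  have hM : S (fun i => m + i) * S (fun i => j * i) = (M₁ * M₂).map F₀.subtype := by
    rw [hM₁, hM₂, Matrix.map_mul]
  have hMdet : (M₁ * M₂).det ≠ 0 := by
    intro h0
    have h1 := congrArg Matrix.det hmain
    rw [hM, Matrix.det_mul, Matrix.det_smul, Matrix.det_mul] at h1
    have h2 : ((M₁ * M₂).map F₀.subtype).det = F₀.subtype (M₁ * M₂).det := (RingHom.map_det F₀.subtype _).symm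
    rw [h2, h0, map_zero, mul_zero, mul_zero, hgdet, one_mul] at h1
    exact hPdet h1
  let M : Matrix.GeneralLinearGroup (Fin 3) F₀ := Matrix.GeneralLinearGroup.mkOfDetNeZero _ hMdet
  let sc : Matrix.GeneralLinearGroup (Fin 3) F := Units.map (Matrix.scalar (Fin 3) : F →+* Matrix (Fin 3) (Fin 3) F).toMonoidHom
    (Units.mk0 c hc0)
  have hgeq : g = P * (Matrix.GeneralLinearGroup.map (F₀.subtype : F₀ →+* F) M * sc) * P⁻¹ := by
    rw [eq_mul_inv_iff_mul_eq]
    apply Units.ext
    rw [Units.val_mul, hmain, hM, Units.val_mul, Units.val_mul]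
    have h1 : ((Matrix.GeneralLinearGroup.map (F₀.subtype : F₀ →+* F) M : Matrix.GeneralLinearGroup (Fin 3) F) :
        Matrix (Fin 3) (Fin 3) F) = (M₁ * M₂).map F₀.subtype := rfl
    have h2 : (sc : Matrix (Fin 3) (Fin 3) F) = c • (1 : Matrix (Fin 3) (Fin 3) F) := by
      show Matrix.scalar (Fin 3) c = _
      rw [Matrix.scalar_apply, Matrix.smul_one_eq_diagonal]
    rw [h1, h2, Matrix.mul_smul, mul_one, Matrix.mul_smul]
  rw [hgeq]
  exact ⟨_, Subgroup.mul_mem_sup ⟨M, rfl⟩ ⟨_, rfl⟩, rfl⟩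

end

/-- Over the field with four elements the normaliser in `SL_3` of a cubic field subalgebra lies in a subfield
subgroup. -/
theorem singer_four_le {F : Type*} [Field F] [Fintype F] (hq : Fintype.card F = 4)
    (K : Subalgebra F (Matrix (Fin 3) (Fin 3) F)) (hK : IsFieldSubalgebra 3 K) :
    ∃ (F₀ : Subfield F) (P : Matrix.GeneralLinearGroup (Fin 3) F), Fintype.card F = Nat.card F₀ ^ 2 ∧
      subalgebraNormalizer K ⊓ specialLinear (Fin 3) F ≤ subfieldSubgroup F₀ P := by
  obtain ⟨P, hP⟩ := @cubic_aux F K _ _ (fieldOf hK) (inferInstanceAs (Algebra F K)) hq hK.finrank_eq K.val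
  refine ⟨primeTwo (four_field_one_add_one hq), P, by rw [card_primeTwo, hq]; norm_num, ?_⟩
  rintro g ⟨hg, hgs⟩
  refine hP g hgs fun k => ?_
  exact ⟨⟨_, (hg k).mp k.2⟩, rfl⟩

end Cfsg.Agent.AschCases
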