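import Mathlib
import Cfsg.Agent.AschCases.Lin
import Cfsg.Agent.AschCases.ArithSix
import Cfsg.Agent.AschCases.SingerFour
import Cfsg.Agent.AschCases.LinesFive

set_option autoImplicit false
set_option linter.unusedSectionVars false
set_option linter.unusedVariables false
set_option linter.style.haveILetI false
set_option linter.unnecessarySeqFocus false

/-!
The lists of maximal subgroups of SL_n(F), 3 ≤ n ≤ 12, from the theorem on containment in the geometric classes.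
-/

namespace Cfsg.Agent.AschCases

open scoped Matrix
open Cfsg.Geo

lemma prime_cases_le_twelve {r : ℕ} (hr : r.Prime) (h : r ≤ 12) : r = 2 ∨ r = 3 ∨ r = 5 ∨ r = 7 ∨ r = 11 := by
  have h2 := hr.two_le
  interval_cases r <;> first | (exfalso; revert hr; norm_num; done) | simp

lemma card_ne_six (F : Type*) [Field F] [Fintype F] : Fintype.card F ≠ 6 := by
  intro h
  obtain ⟨p, hp⟩ := CharP.exists F
  haveI : Fact p.Prime := ⟨(CharP.char_is_prime_or_zero F p).resolve_right (CharP.char_ne_zero_of_finite F p)⟩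
  obtain ⟨k, hk, hk'⟩ := FiniteField.card F p
  rw [h] at hk'
  exact no_two_primes hk hk' (a := 2) (b := 3) (by norm_num) (by norm_num) (by norm_num) (by norm_num) (by norm_num)

theorem sl_cases_3 {F : Type*} [Field F] [Fintype F] (H : Subgroup (Matrix.GeneralLinearGroup (Fin 3) F))
    (hH : Cfsg.Geo.IsMaximalIn (Cfsg.Geo.specialLinear (Fin 3) F) H) (h : LinContain 3 F H) :
    (∃ W : Submodule F (Fin 3 → F), W ≠ ⊥ ∧ W ≠ ⊤ ∧ H = Cfsg.Geo.subspaceStabilizer W ⊓ Cfsg.Geo.specialLinear (Fin 3) F) ∨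
    (5 ≤ Fintype.card F ∧ ∃ D : Fin 3 → Submodule F (Fin 3 → F), Cfsg.Geo.IsMDecomposition 1 D ∧ H = Cfsg.Geo.decompositionStabilizer D ⊓ Cfsg.Geo.specialLinear (Fin 3) F) ∨
    (Fintype.card F ≠ 4 ∧ ∃ K : Subalgebra F (Matrix (Fin 3) (Fin 3) F), Cfsg.Geo.IsFieldSubalgebra 3 K ∧ H = Cfsg.Geo.subalgebraNormalizer K ⊓ Cfsg.Geo.specialLinear (Fin 3) F) ∨
    (∃ (F₀ : Subfield F) (r : ℕ) (P : Matrix.GeneralLinearGroup (Fin 3) F), r.Prime ∧ Fintype.card F = Nat.card F₀ ^ r ∧ H = Cfsg.Geo.subfieldSubgroup F₀ P ⊓ Cfsg.Geo.specialLinear (Fin 3) F) ∨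
    (∃ (p : ℕ) (R : Subgroup (Matrix.GeneralLinearGroup (Fin 3) F)), p.Prime ∧ Fintype.card F = p ∧ p % 3 = 1 ∧ Cfsg.Geo.IsLinearSymplecticTypeData 3 R ∧ H = Cfsg.Geo.subgroupNormalizer R ⊓ Cfsg.Geo.specialLinear (Fin 3) F) ∨
    (Odd (Fintype.card F) ∧ ∃ Q : (Fin 3 → F) → F, Cfsg.Geo.IsNondegenerateQuadraticForm Q ∧ H = Cfsg.Geo.quadSimilarityGroup Q ⊓ Cfsg.Geo.specialLinear (Fin 3) F) ∨
    (∃ (σ : F ≃+* F) (f : (Fin 3 → F) → (Fin 3 → F) → F), Cfsg.Geo.IsUnitaryForm σ f ∧ H = Cfsg.Geo.similarityGroup f ⊓ Cfsg.Geo.specialLinear (Fin 3) F) ∨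
    Cfsg.Geo.InLinearResidualClass H := by
  rcases linEq_of_linContain (by norm_num) hH h with
    ⟨W, h0, h1, hW⟩ | ⟨t, m, D, hnt, hq1, hq2, hD, hE⟩ | ⟨r, K, hr, hrn, hK, hE⟩ | ⟨n₁, n₂, e, P, hnn, h2, h12, hq, hE⟩ |
    ⟨F₀, r, P, hr, hF₀, hE⟩ | ⟨r, k, R, hR, hnk, hE⟩ | ⟨m, t, e, P, hmt, hm, ht, hE⟩ | ⟨f, hf, he, hE⟩ |
    ⟨σ, f, hf, hE⟩ | ⟨hodd, Q, hQ, hE⟩ | hres
  · exact Or.inl (⟨W, h0, h1, hW⟩)
  · have ht := hD.two_le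
    have hm0 := hD.pos
    have hml : m ≤ 1 := by nlinarith
    have hc : (t = 3 ∧ m = 1) := by
      interval_cases m <;> omega
    rcases hc with ⟨rfl, rfl⟩
    · exact Or.inr (Or.inl (⟨hq1 rfl, D, hD, hE⟩))
  · have hrle : r ≤ 12 := (Nat.le_of_dvd (by norm_num) hrn).trans (by norm_num)
    rcases prime_cases_le_twelve hr hrle with rfl | rfl | rfl | rfl | rfl
    · exact absurd hrn (by norm_num)
    · by_cases hq4 : Fintype.card F = 4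
      · obtain ⟨F₀, P, hcard, hle⟩ := singer_four_le hq4 K hK
        have hle2 : H ≤ subfieldSubgroup F₀ P := by rw [hE]; exact hle
        have hE2 := eq_inf_of_maximal hH hle2 (sl_not_le_subfieldSubgroup (by simp) F₀
          (subfield_ne_top F₀ 2 Nat.prime_two hcard) P)
        exact Or.inr (Or.inr (Or.inr (Or.inl (⟨F₀, 2, P, Nat.prime_two, hcard, hE2⟩))))
      · exact Or.inr (Or.inr (Or.inl (⟨hq4, K, hK, hE⟩)))
    · exact absurd hrn (by norm_num)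
    · exact absurd hrn (by norm_num)
    · exact absurd hrn (by norm_num)
  · have hn1 : n₁ ≤ 3 := by nlinarith
    exfalso
    interval_cases n₁ <;> omega
  · exact Or.inr (Or.inr (Or.inr (Or.inl (⟨F₀, r, P, hr, hF₀, hE⟩))))
  · obtain rfl := eq_of_prime_dvd hR.symplecticType.prime hnk (a := 3) (by norm_num) (by norm_num)
    obtain ⟨p, hp, hF, hmod⟩ := class6_three hR
    exact Or.inr (Or.inr (Or.inr (Or.inr (Or.inl (⟨p, R, hp, hF, hmod, hR, hE⟩)))))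
  · exact absurd (pow_cases (by norm_num) hmt hm ht).1 (by norm_num)
  · exact absurd he (by decide)
  · exact Or.inr (Or.inr (Or.inr (Or.inr (Or.inr (Or.inr (Or.inl (⟨σ, f, hf, hE⟩)))))))
  · exact Or.inr (Or.inr (Or.inr (Or.inr (Or.inr (Or.inl (⟨hodd, Q, hQ, hE⟩))))))
  · exact Or.inr (Or.inr (Or.inr (Or.inr (Or.inr (Or.inr (Or.inr (hres)))))))

theorem sl_cases_4 {F : Type*} [Field F] [Fintype F] (H : Subgroup (Matrix.GeneralLinearGroup (Fin 4) F))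
    (hH : Cfsg.Geo.IsMaximalIn (Cfsg.Geo.specialLinear (Fin 4) F) H) (h : LinContain 4 F H) :
    (∃ W : Submodule F (Fin 4 → F), W ≠ ⊥ ∧ W ≠ ⊤ ∧ H = Cfsg.Geo.subspaceStabilizer W ⊓ Cfsg.Geo.specialLinear (Fin 4) F) ∨
    (7 ≤ Fintype.card F ∧ ∃ D : Fin 4 → Submodule F (Fin 4 → F), Cfsg.Geo.IsMDecomposition 1 D ∧ H = Cfsg.Geo.decompositionStabilizer D ⊓ Cfsg.Geo.specialLinear (Fin 4) F) ∨
    (4 ≤ Fintype.card F ∧ ∃ D : Fin 2 → Submodule F (Fin 4 → F), Cfsg.Geo.IsMDecomposition 2 D ∧ H = Cfsg.Geo.decompositionStabilizer D ⊓ Cfsg.Geo.specialLinear (Fin 4) F) ∨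
    (∃ K : Subalgebra F (Matrix (Fin 4) (Fin 4) F), Cfsg.Geo.IsFieldSubalgebra 2 K ∧ H = Cfsg.Geo.subalgebraNormalizer K ⊓ Cfsg.Geo.specialLinear (Fin 4) F) ∨
    (∃ (F₀ : Subfield F) (r : ℕ) (P : Matrix.GeneralLinearGroup (Fin 4) F), r.Prime ∧ Fintype.card F = Nat.card F₀ ^ r ∧ H = Cfsg.Geo.subfieldSubgroup F₀ P ⊓ Cfsg.Geo.specialLinear (Fin 4) F) ∨
    (∃ (p : ℕ) (R : Subgroup (Matrix.GeneralLinearGroup (Fin 4) F)), p.Prime ∧ Fintype.card F = p ∧ p % 4 = 1 ∧ Cfsg.Geo.IsLinearSymplecticTypeData 2 R ∧ H = Cfsg.Geo.subgroupNormalizer R ⊓ Cfsg.Geo.specialLinear (Fin 4) F) ∨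
    (Odd (Fintype.card F) ∧ ∃ Q : (Fin 4 → F) → F, Cfsg.Geo.IsNondegenerateQuadraticForm Q ∧ H = Cfsg.Geo.quadSimilarityGroup Q ⊓ Cfsg.Geo.specialLinear (Fin 4) F) ∨
    (∃ f : (Fin 4 → F) → (Fin 4 → F) → F, Cfsg.Geo.IsSymplecticForm f ∧ H = Cfsg.Geo.similarityGroup f ⊓ Cfsg.Geo.specialLinear (Fin 4) F) ∨
    (∃ (σ : F ≃+* F) (f : (Fin 4 → F) → (Fin 4 → F) → F), Cfsg.Geo.IsUnitaryForm σ f ∧ H = Cfsg.Geo.similarityGroup f ⊓ Cfsg.Geo.specialLinear (Fin 4) F) ∨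
    Cfsg.Geo.InLinearResidualClass H := by
  rcases linEq_of_linContain (by norm_num) hH h with
    ⟨W, h0, h1, hW⟩ | ⟨t, m, D, hnt, hq1, hq2, hD, hE⟩ | ⟨r, K, hr, hrn, hK, hE⟩ | ⟨n₁, n₂, e, P, hnn, h2, h12, hq, hE⟩ |
    ⟨F₀, r, P, hr, hF₀, hE⟩ | ⟨r, k, R, hR, hnk, hE⟩ | ⟨m, t, e, P, hmt, hm, ht, hE⟩ | ⟨f, hf, he, hE⟩ |
    ⟨σ, f, hf, hE⟩ | ⟨hodd, Q, hQ, hE⟩ | hres
  · exact Or.inl (⟨W, h0, h1, hW⟩)
  · have ht := hD.two_le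
    have hm0 := hD.pos
    have hml : m ≤ 2 := by nlinarith
    have hc : (t = 4 ∧ m = 1) ∨ (t = 2 ∧ m = 2) := by
      interval_cases m <;> omega
    rcases hc with ⟨rfl, rfl⟩ | ⟨rfl, rfl⟩
    · have hq5 := hq1 rfl
      by_cases hq6 : Fintype.card F = 5
      · obtain ⟨R, hR, hRle⟩ := LF.lines_five_le hq6 hD
        have hE2 := eq_inf_of_maximal hH (hE.le.trans hRle) (sl_not_le_symplType (by simp) 2 R hR)
        exact Or.inr (Or.inr (Or.inr (Or.inr (Or.inr (Or.inl (⟨5, R, by norm_num, hq6, by norm_num, hR, hE2⟩))))))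
      · have hq7 : Fintype.card F ≠ 6 := card_ne_six F
        exact Or.inr (Or.inl (⟨by omega, D, hD, hE⟩))
    · have hq3 := hq2 rfl
      by_cases hq4 : Fintype.card F = 3
      · obtain ⟨f, hf, hf'⟩ := decStab_planes_three hq4 hD
        have hE2 := eq_inf_of_maximal hH (hE.le.trans hf')
          (sl_not_le_similarity_aux (by simp) f hf.bilinear.add_left (form_ne_zero_of_nondeg hf.nondegenerate))
        exact Or.inr (Or.inr (Or.inr (Or.inr (Or.inr (Or.inr (Or.inr (Or.inl (⟨f, hf, hE2⟩))))))))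
      · exact Or.inr (Or.inr (Or.inl (⟨by omega, D, hD, hE⟩)))
  · have hrle : r ≤ 12 := (Nat.le_of_dvd (by norm_num) hrn).trans (by norm_num)
    rcases prime_cases_le_twelve hr hrle with rfl | rfl | rfl | rfl | rfl
    · exact Or.inr (Or.inr (Or.inr (Or.inl (⟨K, hK, hE⟩))))
    · exact absurd hrn (by norm_num)
    · exact absurd hrn (by norm_num)
    · exact absurd hrn (by norm_num)
    · exact absurd hrn (by norm_num)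
  · have hn1 : n₁ ≤ 3 := by nlinarith
    exfalso
    interval_cases n₁ <;> omega
  · exact Or.inr (Or.inr (Or.inr (Or.inr (Or.inl (⟨F₀, r, P, hr, hF₀, hE⟩)))))
  · obtain rfl := eq_of_prime_dvd hR.symplecticType.prime hnk (a := 2) (by norm_num) (by norm_num)
    obtain ⟨p, hp, hF, hmod⟩ := class6_two (by simp) hR
    exact Or.inr (Or.inr (Or.inr (Or.inr (Or.inr (Or.inl (⟨p, R, hp, hF, hmod, hR, hE⟩))))))
  · exact absurd (pow_cases (by norm_num) hmt hm ht).1 (by norm_num)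
  · exact Or.inr (Or.inr (Or.inr (Or.inr (Or.inr (Or.inr (Or.inr (Or.inl (⟨f, hf, hE⟩))))))))
  · exact Or.inr (Or.inr (Or.inr (Or.inr (Or.inr (Or.inr (Or.inr (Or.inr (Or.inl (⟨σ, f, hf, hE⟩)))))))))
  · exact Or.inr (Or.inr (Or.inr (Or.inr (Or.inr (Or.inr (Or.inl (⟨hodd, Q, hQ, hE⟩)))))))
  · exact Or.inr (Or.inr (Or.inr (Or.inr (Or.inr (Or.inr (Or.inr (Or.inr (Or.inr (hres)))))))))

theorem sl_cases_5 {F : Type*} [Field F] [Fintype F] (H : Subgroup (Matrix.GeneralLinearGroup (Fin 5) F))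
    (hH : Cfsg.Geo.IsMaximalIn (Cfsg.Geo.specialLinear (Fin 5) F) H) (h : LinContain 5 F H) :
    (∃ W : Submodule F (Fin 5 → F), W ≠ ⊥ ∧ W ≠ ⊤ ∧ H = Cfsg.Geo.subspaceStabilizer W ⊓ Cfsg.Geo.specialLinear (Fin 5) F) ∨
    (5 ≤ Fintype.card F ∧ ∃ D : Fin 5 → Submodule F (Fin 5 → F), Cfsg.Geo.IsMDecomposition 1 D ∧ H = Cfsg.Geo.decompositionStabilizer D ⊓ Cfsg.Geo.specialLinear (Fin 5) F) ∨
    (∃ K : Subalgebra F (Matrix (Fin 5) (Fin 5) F), Cfsg.Geo.IsFieldSubalgebra 5 K ∧ H = Cfsg.Geo.subalgebraNormalizer K ⊓ Cfsg.Geo.specialLinear (Fin 5) F) ∨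
    (∃ (F₀ : Subfield F) (r : ℕ) (P : Matrix.GeneralLinearGroup (Fin 5) F), r.Prime ∧ Fintype.card F = Nat.card F₀ ^ r ∧ H = Cfsg.Geo.subfieldSubgroup F₀ P ⊓ Cfsg.Geo.specialLinear (Fin 5) F) ∨
    ((∃ p : ℕ, p.Prime ∧ Fintype.card F = p ∧ (p % 5 = 1)) ∧ ∃ R : Subgroup (Matrix.GeneralLinearGroup (Fin 5) F), Cfsg.Geo.IsLinearSymplecticTypeData 5 R ∧ H = Cfsg.Geo.subgroupNormalizer R ⊓ Cfsg.Geo.specialLinear (Fin 5) F) ∨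
    (Odd (Fintype.card F) ∧ ∃ Q : (Fin 5 → F) → F, Cfsg.Geo.IsNondegenerateQuadraticForm Q ∧ H = Cfsg.Geo.quadSimilarityGroup Q ⊓ Cfsg.Geo.specialLinear (Fin 5) F) ∨
    (∃ (σ : F ≃+* F) (f : (Fin 5 → F) → (Fin 5 → F) → F), Cfsg.Geo.IsUnitaryForm σ f ∧ H = Cfsg.Geo.similarityGroup f ⊓ Cfsg.Geo.specialLinear (Fin 5) F) ∨
    Cfsg.Geo.InLinearResidualClass H := by
  rcases linEq_of_linContain (by norm_num) hH h with
    ⟨W, h0, h1, hW⟩ | ⟨t, m, D, hnt, hq1, hq2, hD, hE⟩ | ⟨r, K, hr, hrn, hK, hE⟩ | ⟨n₁, n₂, e, P, hnn, h2, h12, hq, hE⟩ |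
    ⟨F₀, r, P, hr, hF₀, hE⟩ | ⟨r, k, R, hR, hnk, hE⟩ | ⟨m, t, e, P, hmt, hm, ht, hE⟩ | ⟨f, hf, he, hE⟩ |
    ⟨σ, f, hf, hE⟩ | ⟨hodd, Q, hQ, hE⟩ | hres
  · exact Or.inl (⟨W, h0, h1, hW⟩)
  · have ht := hD.two_le
    have hm0 := hD.pos
    have hml : m ≤ 2 := by nlinarith
    have hc : (t = 5 ∧ m = 1) := by
      interval_cases m <;> omega
    rcases hc with ⟨rfl, rfl⟩
    · exact Or.inr (Or.inl (⟨hq1 rfl, D, hD, hE⟩))
  · have hrle : r ≤ 12 := (Nat.le_of_dvd (by norm_num) hrn).trans (by norm_num)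
    rcases prime_cases_le_twelve hr hrle with rfl | rfl | rfl | rfl | rfl
    · exact absurd hrn (by norm_num)
    · exact absurd hrn (by norm_num)
    · exact Or.inr (Or.inr (Or.inl (⟨K, hK, hE⟩)))
    · exact absurd hrn (by norm_num)
    · exact absurd hrn (by norm_num)
  · have hn1 : n₁ ≤ 3 := by nlinarith
    exfalso
    interval_cases n₁ <;> omega
  · exact Or.inr (Or.inr (Or.inr (Or.inl (⟨F₀, r, P, hr, hF₀, hE⟩))))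
  · obtain rfl := eq_of_prime_dvd hR.symplecticType.prime hnk (a := 5) (by norm_num) (by norm_num)
    obtain ⟨p, hp, hF, hmod⟩ := class6_five hR
    exact Or.inr (Or.inr (Or.inr (Or.inr (Or.inl (⟨⟨p, hp, hF, hmod⟩, R, hR, hE⟩)))))
  · exact absurd (pow_cases (by norm_num) hmt hm ht).1 (by norm_num)
  · exact absurd he (by decide)
  · exact Or.inr (Or.inr (Or.inr (Or.inr (Or.inr (Or.inr (Or.inl (⟨σ, f, hf, hE⟩)))))))
  · exact Or.inr (Or.inr (Or.inr (Or.inr (Or.inr (Or.inl (⟨hodd, Q, hQ, hE⟩))))))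
  · exact Or.inr (Or.inr (Or.inr (Or.inr (Or.inr (Or.inr (Or.inr (hres)))))))

theorem sl_cases_6 {F : Type*} [Field F] [Fintype F] (H : Subgroup (Matrix.GeneralLinearGroup (Fin 6) F))
    (hH : Cfsg.Geo.IsMaximalIn (Cfsg.Geo.specialLinear (Fin 6) F) H) (h : LinContain 6 F H) :
    (∃ W : Submodule F (Fin 6 → F), W ≠ ⊥ ∧ W ≠ ⊤ ∧ H = Cfsg.Geo.subspaceStabilizer W ⊓ Cfsg.Geo.specialLinear (Fin 6) F) ∨
    (5 ≤ Fintype.card F ∧ ∃ D : Fin 6 → Submodule F (Fin 6 → F), Cfsg.Geo.IsMDecomposition 1 D ∧ H = Cfsg.Geo.decompositionStabilizer D ⊓ Cfsg.Geo.specialLinear (Fin 6) F) ∨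
    (3 ≤ Fintype.card F ∧ ∃ D : Fin 3 → Submodule F (Fin 6 → F), Cfsg.Geo.IsMDecomposition 2 D ∧ H = Cfsg.Geo.decompositionStabilizer D ⊓ Cfsg.Geo.specialLinear (Fin 6) F) ∨
    (∃ D : Fin 2 → Submodule F (Fin 6 → F), Cfsg.Geo.IsMDecomposition 3 D ∧ H = Cfsg.Geo.decompositionStabilizer D ⊓ Cfsg.Geo.specialLinear (Fin 6) F) ∨
    (∃ K : Subalgebra F (Matrix (Fin 6) (Fin 6) F), Cfsg.Geo.IsFieldSubalgebra 2 K ∧ H = Cfsg.Geo.subalgebraNormalizer K ⊓ Cfsg.Geo.specialLinear (Fin 6) F) ∨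
    (∃ K : Subalgebra F (Matrix (Fin 6) (Fin 6) F), Cfsg.Geo.IsFieldSubalgebra 3 K ∧ H = Cfsg.Geo.subalgebraNormalizer K ⊓ Cfsg.Geo.specialLinear (Fin 6) F) ∨
    (3 ≤ Fintype.card F ∧ ∃ (e : Fin 6 ≃ Fin 2 × Fin 3) (P : Matrix.GeneralLinearGroup (Fin 6) F), H = Cfsg.Geo.tensorProductSubgroup 2 3 e P ⊓ Cfsg.Geo.specialLinear (Fin 6) F) ∨
    (∃ (F₀ : Subfield F) (r : ℕ) (P : Matrix.GeneralLinearGroup (Fin 6) F), r.Prime ∧ Fintype.card F = Nat.card F₀ ^ r ∧ H = Cfsg.Geo.subfieldSubgroup F₀ P ⊓ Cfsg.Geo.specialLinear (Fin 6) F) ∨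
    (Odd (Fintype.card F) ∧ ∃ Q : (Fin 6 → F) → F, Cfsg.Geo.IsNondegenerateQuadraticForm Q ∧ H = Cfsg.Geo.quadSimilarityGroup Q ⊓ Cfsg.Geo.specialLinear (Fin 6) F) ∨
    (∃ f : (Fin 6 → F) → (Fin 6 → F) → F, Cfsg.Geo.IsSymplecticForm f ∧ H = Cfsg.Geo.similarityGroup f ⊓ Cfsg.Geo.specialLinear (Fin 6) F) ∨
    (∃ (σ : F ≃+* F) (f : (Fin 6 → F) → (Fin 6 → F) → F), Cfsg.Geo.IsUnitaryForm σ f ∧ H = Cfsg.Geo.similarityGroup f ⊓ Cfsg.Geo.specialLinear (Fin 6) F) ∨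
    Cfsg.Geo.InLinearResidualClass H := by
  rcases linEq_of_linContain (by norm_num) hH h with
    ⟨W, h0, h1, hW⟩ | ⟨t, m, D, hnt, hq1, hq2, hD, hE⟩ | ⟨r, K, hr, hrn, hK, hE⟩ | ⟨n₁, n₂, e, P, hnn, h2, h12, hq, hE⟩ |
    ⟨F₀, r, P, hr, hF₀, hE⟩ | ⟨r, k, R, hR, hnk, hE⟩ | ⟨m, t, e, P, hmt, hm, ht, hE⟩ | ⟨f, hf, he, hE⟩ |
    ⟨σ, f, hf, hE⟩ | ⟨hodd, Q, hQ, hE⟩ | hres
  · exact Or.inl (⟨W, h0, h1, hW⟩)
  · have ht := hD.two_le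
    have hm0 := hD.pos
    have hml : m ≤ 3 := by nlinarith
    have hc : (t = 6 ∧ m = 1) ∨ (t = 3 ∧ m = 2) ∨ (t = 2 ∧ m = 3) := by
      interval_cases m <;> omega
    rcases hc with ⟨rfl, rfl⟩ | ⟨rfl, rfl⟩ | ⟨rfl, rfl⟩
    · exact Or.inr (Or.inl (⟨hq1 rfl, D, hD, hE⟩))
    · exact Or.inr (Or.inr (Or.inl (⟨hq2 rfl, D, hD, hE⟩)))
    · exact Or.inr (Or.inr (Or.inr (Or.inl (⟨D, hD, hE⟩))))
  · have hrle : r ≤ 12 := (Nat.le_of_dvd (by norm_num) hrn).trans (by norm_num)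
    rcases prime_cases_le_twelve hr hrle with rfl | rfl | rfl | rfl | rfl
    · exact Or.inr (Or.inr (Or.inr (Or.inr (Or.inl (⟨K, hK, hE⟩)))))
    · exact Or.inr (Or.inr (Or.inr (Or.inr (Or.inr (Or.inl (⟨K, hK, hE⟩))))))
    · exact absurd hrn (by norm_num)
    · exact absurd hrn (by norm_num)
    · exact absurd hrn (by norm_num)
  · have hn1 : n₁ ≤ 3 := by nlinarith
    have hc : (n₁ = 2 ∧ n₂ = 3) := by
      interval_cases n₁ <;> omega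
    obtain ⟨rfl, rfl⟩ := hc
    exact Or.inr (Or.inr (Or.inr (Or.inr (Or.inr (Or.inr (Or.inl (⟨hq rfl, e, P, hE⟩)))))))
  · exact Or.inr (Or.inr (Or.inr (Or.inr (Or.inr (Or.inr (Or.inr (Or.inl (⟨F₀, r, P, hr, hF₀, hE⟩))))))))
  · exact (no_two_primes hR.symplecticType.prime hnk (a := 2) (b := 3) (by norm_num) (by norm_num)
      (by norm_num) (by norm_num) (by norm_num)).elim
  · exact absurd (pow_cases (by norm_num) hmt hm ht).1 (by norm_num)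
  · exact Or.inr (Or.inr (Or.inr (Or.inr (Or.inr (Or.inr (Or.inr (Or.inr (Or.inr (Or.inl (⟨f, hf, hE⟩))))))))))
  · exact Or.inr (Or.inr (Or.inr (Or.inr (Or.inr (Or.inr (Or.inr (Or.inr (Or.inr (Or.inr (Or.inl (⟨σ, f, hf, hE⟩)))))))))))
  · exact Or.inr (Or.inr (Or.inr (Or.inr (Or.inr (Or.inr (Or.inr (Or.inr (Or.inl (⟨hodd, Q, hQ, hE⟩)))))))))
  · exact Or.inr (Or.inr (Or.inr (Or.inr (Or.inr (Or.inr (Or.inr (Or.inr (Or.inr (Or.inr (Or.inr (hres)))))))))))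

theorem sl_cases_7 {F : Type*} [Field F] [Fintype F] (H : Subgroup (Matrix.GeneralLinearGroup (Fin 7) F))
    (hH : Cfsg.Geo.IsMaximalIn (Cfsg.Geo.specialLinear (Fin 7) F) H) (h : LinContain 7 F H) :
    (∃ W : Submodule F (Fin 7 → F), W ≠ ⊥ ∧ W ≠ ⊤ ∧ H = Cfsg.Geo.subspaceStabilizer W ⊓ Cfsg.Geo.specialLinear (Fin 7) F) ∨
    (5 ≤ Fintype.card F ∧ ∃ D : Fin 7 → Submodule F (Fin 7 → F), Cfsg.Geo.IsMDecomposition 1 D ∧ H = Cfsg.Geo.decompositionStabilizer D ⊓ Cfsg.Geo.specialLinear (Fin 7) F) ∨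
    (∃ K : Subalgebra F (Matrix (Fin 7) (Fin 7) F), Cfsg.Geo.IsFieldSubalgebra 7 K ∧ H = Cfsg.Geo.subalgebraNormalizer K ⊓ Cfsg.Geo.specialLinear (Fin 7) F) ∨
    (∃ (F₀ : Subfield F) (r : ℕ) (P : Matrix.GeneralLinearGroup (Fin 7) F), r.Prime ∧ Fintype.card F = Nat.card F₀ ^ r ∧ H = Cfsg.Geo.subfieldSubgroup F₀ P ⊓ Cfsg.Geo.specialLinear (Fin 7) F) ∨
    ((∃ p : ℕ, p.Prime ∧ CharP F p ∧ ((Fintype.card F = p ∧ p % 7 = 1) ∨ (Fintype.card F = p ^ 3 ∧ (p % 7 = 2 ∨ p % 7 = 4)))) ∧ ∃ R : Subgroup (Matrix.GeneralLinearGroup (Fin 7) F), Cfsg.Geo.IsLinearSymplecticTypeData 7 R ∧ H = Cfsg.Geo.subgroupNormalizer R ⊓ Cfsg.Geo.specialLinear (Fin 7) F) ∨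
    (Odd (Fintype.card F) ∧ ∃ Q : (Fin 7 → F) → F, Cfsg.Geo.IsNondegenerateQuadraticForm Q ∧ H = Cfsg.Geo.quadSimilarityGroup Q ⊓ Cfsg.Geo.specialLinear (Fin 7) F) ∨
    (∃ (σ : F ≃+* F) (f : (Fin 7 → F) → (Fin 7 → F) → F), Cfsg.Geo.IsUnitaryForm σ f ∧ H = Cfsg.Geo.similarityGroup f ⊓ Cfsg.Geo.specialLinear (Fin 7) F) ∨
    Cfsg.Geo.InLinearResidualClass H := by
  rcases linEq_of_linContain (by norm_num) hH h with
    ⟨W, h0, h1, hW⟩ | ⟨t, m, D, hnt, hq1, hq2, hD, hE⟩ | ⟨r, K, hr, hrn, hK, hE⟩ | ⟨n₁, n₂, e, P, hnn, h2, h12, hq, hE⟩ |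
    ⟨F₀, r, P, hr, hF₀, hE⟩ | ⟨r, k, R, hR, hnk, hE⟩ | ⟨m, t, e, P, hmt, hm, ht, hE⟩ | ⟨f, hf, he, hE⟩ |
    ⟨σ, f, hf, hE⟩ | ⟨hodd, Q, hQ, hE⟩ | hres
  · exact Or.inl (⟨W, h0, h1, hW⟩)
  · have ht := hD.two_le
    have hm0 := hD.pos
    have hml : m ≤ 3 := by nlinarith
    have hc : (t = 7 ∧ m = 1) := by
      interval_cases m <;> omega
    rcases hc with ⟨rfl, rfl⟩
    · exact Or.inr (Or.inl (⟨hq1 rfl, D, hD, hE⟩))
  · have hrle : r ≤ 12 := (Nat.le_of_dvd (by norm_num) hrn).trans (by norm_num)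
    rcases prime_cases_le_twelve hr hrle with rfl | rfl | rfl | rfl | rfl
    · exact absurd hrn (by norm_num)
    · exact absurd hrn (by norm_num)
    · exact absurd hrn (by norm_num)
    · exact Or.inr (Or.inr (Or.inl (⟨K, hK, hE⟩)))
    · exact absurd hrn (by norm_num)
  · have hn1 : n₁ ≤ 3 := by nlinarith
    exfalso
    interval_cases n₁ <;> omega
  · exact Or.inr (Or.inr (Or.inr (Or.inl (⟨F₀, r, P, hr, hF₀, hE⟩))))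
  · obtain rfl := eq_of_prime_dvd hR.symplecticType.prime hnk (a := 7) (by norm_num) (by norm_num)
    obtain ⟨p, hp, hchar, hF⟩ := class6_seven hR
    exact Or.inr (Or.inr (Or.inr (Or.inr (Or.inl (⟨⟨p, hp, hchar, hF⟩, R, hR, hE⟩)))))
  · exact absurd (pow_cases (by norm_num) hmt hm ht).1 (by norm_num)
  · exact absurd he (by decide)
  · exact Or.inr (Or.inr (Or.inr (Or.inr (Or.inr (Or.inr (Or.inl (⟨σ, f, hf, hE⟩)))))))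
  · exact Or.inr (Or.inr (Or.inr (Or.inr (Or.inr (Or.inl (⟨hodd, Q, hQ, hE⟩))))))
  · exact Or.inr (Or.inr (Or.inr (Or.inr (Or.inr (Or.inr (Or.inr (hres)))))))

theorem sl_cases_8 {F : Type*} [Field F] [Fintype F] (H : Subgroup (Matrix.GeneralLinearGroup (Fin 8) F))
    (hH : Cfsg.Geo.IsMaximalIn (Cfsg.Geo.specialLinear (Fin 8) F) H) (h : LinContain 8 F H) :
    (∃ W : Submodule F (Fin 8 → F), W ≠ ⊥ ∧ W ≠ ⊤ ∧ H = Cfsg.Geo.subspaceStabilizer W ⊓ Cfsg.Geo.specialLinear (Fin 8) F) ∨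
    (5 ≤ Fintype.card F ∧ ∃ D : Fin 8 → Submodule F (Fin 8 → F), Cfsg.Geo.IsMDecomposition 1 D ∧ H = Cfsg.Geo.decompositionStabilizer D ⊓ Cfsg.Geo.specialLinear (Fin 8) F) ∨
    (3 ≤ Fintype.card F ∧ ∃ D : Fin 4 → Submodule F (Fin 8 → F), Cfsg.Geo.IsMDecomposition 2 D ∧ H = Cfsg.Geo.decompositionStabilizer D ⊓ Cfsg.Geo.specialLinear (Fin 8) F) ∨
    (∃ D : Fin 2 → Submodule F (Fin 8 → F), Cfsg.Geo.IsMDecomposition 4 D ∧ H = Cfsg.Geo.decompositionStabilizer D ⊓ Cfsg.Geo.specialLinear (Fin 8) F) ∨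
    (∃ K : Subalgebra F (Matrix (Fin 8) (Fin 8) F), Cfsg.Geo.IsFieldSubalgebra 2 K ∧ H = Cfsg.Geo.subalgebraNormalizer K ⊓ Cfsg.Geo.specialLinear (Fin 8) F) ∨
    (3 ≤ Fintype.card F ∧ ∃ (e : Fin 8 ≃ Fin 2 × Fin 4) (P : Matrix.GeneralLinearGroup (Fin 8) F), H = Cfsg.Geo.tensorProductSubgroup 2 4 e P ⊓ Cfsg.Geo.specialLinear (Fin 8) F) ∨
    (∃ (F₀ : Subfield F) (r : ℕ) (P : Matrix.GeneralLinearGroup (Fin 8) F), r.Prime ∧ Fintype.card F = Nat.card F₀ ^ r ∧ H = Cfsg.Geo.subfieldSubgroup F₀ P ⊓ Cfsg.Geo.specialLinear (Fin 8) F) ∨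
    ((∃ p : ℕ, p.Prime ∧ Fintype.card F = p ∧ (p % 4 = 1)) ∧ ∃ R : Subgroup (Matrix.GeneralLinearGroup (Fin 8) F), Cfsg.Geo.IsLinearSymplecticTypeData 2 R ∧ H = Cfsg.Geo.subgroupNormalizer R ⊓ Cfsg.Geo.specialLinear (Fin 8) F) ∨
    (Odd (Fintype.card F) ∧ ∃ Q : (Fin 8 → F) → F, Cfsg.Geo.IsNondegenerateQuadraticForm Q ∧ H = Cfsg.Geo.quadSimilarityGroup Q ⊓ Cfsg.Geo.specialLinear (Fin 8) F) ∨
    (∃ f : (Fin 8 → F) → (Fin 8 → F) → F, Cfsg.Geo.IsSymplecticForm f ∧ H = Cfsg.Geo.similarityGroup f ⊓ Cfsg.Geo.specialLinear (Fin 8) F) ∨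
    (∃ (σ : F ≃+* F) (f : (Fin 8 → F) → (Fin 8 → F) → F), Cfsg.Geo.IsUnitaryForm σ f ∧ H = Cfsg.Geo.similarityGroup f ⊓ Cfsg.Geo.specialLinear (Fin 8) F) ∨
    Cfsg.Geo.InLinearResidualClass H := by
  rcases linEq_of_linContain (by norm_num) hH h with
    ⟨W, h0, h1, hW⟩ | ⟨t, m, D, hnt, hq1, hq2, hD, hE⟩ | ⟨r, K, hr, hrn, hK, hE⟩ | ⟨n₁, n₂, e, P, hnn, h2, h12, hq, hE⟩ |
    ⟨F₀, r, P, hr, hF₀, hE⟩ | ⟨r, k, R, hR, hnk, hE⟩ | ⟨m, t, e, P, hmt, hm, ht, hE⟩ | ⟨f, hf, he, hE⟩ |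
    ⟨σ, f, hf, hE⟩ | ⟨hodd, Q, hQ, hE⟩ | hres
  · exact Or.inl (⟨W, h0, h1, hW⟩)
  · have ht := hD.two_le
    have hm0 := hD.pos
    have hml : m ≤ 4 := by nlinarith
    have hc : (t = 8 ∧ m = 1) ∨ (t = 4 ∧ m = 2) ∨ (t = 2 ∧ m = 4) := by
      interval_cases m <;> omega
    rcases hc with ⟨rfl, rfl⟩ | ⟨rfl, rfl⟩ | ⟨rfl, rfl⟩
    · exact Or.inr (Or.inl (⟨hq1 rfl, D, hD, hE⟩))
    · exact Or.inr (Or.inr (Or.inl (⟨hq2 rfl, D, hD, hE⟩)))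
    · exact Or.inr (Or.inr (Or.inr (Or.inl (⟨D, hD, hE⟩))))
  · have hrle : r ≤ 12 := (Nat.le_of_dvd (by norm_num) hrn).trans (by norm_num)
    rcases prime_cases_le_twelve hr hrle with rfl | rfl | rfl | rfl | rfl
    · exact Or.inr (Or.inr (Or.inr (Or.inr (Or.inl (⟨K, hK, hE⟩)))))
    · exact absurd hrn (by norm_num)
    · exact absurd hrn (by norm_num)
    · exact absurd hrn (by norm_num)
    · exact absurd hrn (by norm_num)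
  · have hn1 : n₁ ≤ 3 := by nlinarith
    have hc : (n₁ = 2 ∧ n₂ = 4) := by
      interval_cases n₁ <;> omega
    obtain ⟨rfl, rfl⟩ := hc
    exact Or.inr (Or.inr (Or.inr (Or.inr (Or.inr (Or.inl (⟨hq rfl, e, P, hE⟩))))))
  · exact Or.inr (Or.inr (Or.inr (Or.inr (Or.inr (Or.inr (Or.inl (⟨F₀, r, P, hr, hF₀, hE⟩)))))))
  · obtain rfl := eq_of_prime_dvd hR.symplecticType.prime hnk (a := 2) (by norm_num) (by norm_num)
    obtain ⟨p, hp, hF, hmod⟩ := class6_two (by simp) hR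
    exact Or.inr (Or.inr (Or.inr (Or.inr (Or.inr (Or.inr (Or.inr (Or.inl (⟨⟨p, hp, hF, hmod⟩, R, hR, hE⟩))))))))
  · exact absurd (pow_cases (by norm_num) hmt hm ht).1 (by norm_num)
  · exact Or.inr (Or.inr (Or.inr (Or.inr (Or.inr (Or.inr (Or.inr (Or.inr (Or.inr (Or.inl (⟨f, hf, hE⟩))))))))))
  · exact Or.inr (Or.inr (Or.inr (Or.inr (Or.inr (Or.inr (Or.inr (Or.inr (Or.inr (Or.inr (Or.inl (⟨σ, f, hf, hE⟩)))))))))))
  · exact Or.inr (Or.inr (Or.inr (Or.inr (Or.inr (Or.inr (Or.inr (Or.inr (Or.inl (⟨hodd, Q, hQ, hE⟩)))))))))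
  · exact Or.inr (Or.inr (Or.inr (Or.inr (Or.inr (Or.inr (Or.inr (Or.inr (Or.inr (Or.inr (Or.inr (hres)))))))))))

theorem sl_cases_9 {F : Type*} [Field F] [Fintype F] (H : Subgroup (Matrix.GeneralLinearGroup (Fin 9) F))
    (hH : Cfsg.Geo.IsMaximalIn (Cfsg.Geo.specialLinear (Fin 9) F) H) (h : LinContain 9 F H) :
    (∃ W : Submodule F (Fin 9 → F), W ≠ ⊥ ∧ W ≠ ⊤ ∧ H = Cfsg.Geo.subspaceStabilizer W ⊓ Cfsg.Geo.specialLinear (Fin 9) F) ∨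
    (5 ≤ Fintype.card F ∧ ∃ D : Fin 9 → Submodule F (Fin 9 → F), Cfsg.Geo.IsMDecomposition 1 D ∧ H = Cfsg.Geo.decompositionStabilizer D ⊓ Cfsg.Geo.specialLinear (Fin 9) F) ∨
    (∃ D : Fin 3 → Submodule F (Fin 9 → F), Cfsg.Geo.IsMDecomposition 3 D ∧ H = Cfsg.Geo.decompositionStabilizer D ⊓ Cfsg.Geo.specialLinear (Fin 9) F) ∨
    (∃ K : Subalgebra F (Matrix (Fin 9) (Fin 9) F), Cfsg.Geo.IsFieldSubalgebra 3 K ∧ H = Cfsg.Geo.subalgebraNormalizer K ⊓ Cfsg.Geo.specialLinear (Fin 9) F) ∨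
    (∃ (F₀ : Subfield F) (r : ℕ) (P : Matrix.GeneralLinearGroup (Fin 9) F), r.Prime ∧ Fintype.card F = Nat.card F₀ ^ r ∧ H = Cfsg.Geo.subfieldSubgroup F₀ P ⊓ Cfsg.Geo.specialLinear (Fin 9) F) ∨
    ((∃ p : ℕ, p.Prime ∧ Fintype.card F = p ∧ (p % 3 = 1)) ∧ ∃ R : Subgroup (Matrix.GeneralLinearGroup (Fin 9) F), Cfsg.Geo.IsLinearSymplecticTypeData 3 R ∧ H = Cfsg.Geo.subgroupNormalizer R ⊓ Cfsg.Geo.specialLinear (Fin 9) F) ∨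
    (∃ (e : Fin 9 ≃ (Fin 2 → Fin 3)) (P : Matrix.GeneralLinearGroup (Fin 9) F), H = Cfsg.Geo.tensorWreathSubgroup 3 2 e P ⊓ Cfsg.Geo.specialLinear (Fin 9) F) ∨
    (Odd (Fintype.card F) ∧ ∃ Q : (Fin 9 → F) → F, Cfsg.Geo.IsNondegenerateQuadraticForm Q ∧ H = Cfsg.Geo.quadSimilarityGroup Q ⊓ Cfsg.Geo.specialLinear (Fin 9) F) ∨
    (∃ (σ : F ≃+* F) (f : (Fin 9 → F) → (Fin 9 → F) → F), Cfsg.Geo.IsUnitaryForm σ f ∧ H = Cfsg.Geo.similarityGroup f ⊓ Cfsg.Geo.specialLinear (Fin 9) F) ∨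
    Cfsg.Geo.InLinearResidualClass H := by
  rcases linEq_of_linContain (by norm_num) hH h with
    ⟨W, h0, h1, hW⟩ | ⟨t, m, D, hnt, hq1, hq2, hD, hE⟩ | ⟨r, K, hr, hrn, hK, hE⟩ | ⟨n₁, n₂, e, P, hnn, h2, h12, hq, hE⟩ |
    ⟨F₀, r, P, hr, hF₀, hE⟩ | ⟨r, k, R, hR, hnk, hE⟩ | ⟨m, t, e, P, hmt, hm, ht, hE⟩ | ⟨f, hf, he, hE⟩ |
    ⟨σ, f, hf, hE⟩ | ⟨hodd, Q, hQ, hE⟩ | hres
  · exact Or.inl (⟨W, h0, h1, hW⟩)
  · have ht := hD.two_le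
    have hm0 := hD.pos
    have hml : m ≤ 4 := by nlinarith
    have hc : (t = 9 ∧ m = 1) ∨ (t = 3 ∧ m = 3) := by
      interval_cases m <;> omega
    rcases hc with ⟨rfl, rfl⟩ | ⟨rfl, rfl⟩
    · exact Or.inr (Or.inl (⟨hq1 rfl, D, hD, hE⟩))
    · exact Or.inr (Or.inr (Or.inl (⟨D, hD, hE⟩)))
  · have hrle : r ≤ 12 := (Nat.le_of_dvd (by norm_num) hrn).trans (by norm_num)
    rcases prime_cases_le_twelve hr hrle with rfl | rfl | rfl | rfl | rfl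
    · exact absurd hrn (by norm_num)
    · exact Or.inr (Or.inr (Or.inr (Or.inl (⟨K, hK, hE⟩))))
    · exact absurd hrn (by norm_num)
    · exact absurd hrn (by norm_num)
    · exact absurd hrn (by norm_num)
  · have hn1 : n₁ ≤ 3 := by nlinarith
    exfalso
    interval_cases n₁ <;> omega
  · exact Or.inr (Or.inr (Or.inr (Or.inr (Or.inl (⟨F₀, r, P, hr, hF₀, hE⟩)))))
  · obtain rfl := eq_of_prime_dvd hR.symplecticType.prime hnk (a := 3) (by norm_num) (by norm_num)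
    obtain ⟨p, hp, hF, hmod⟩ := class6_three hR
    exact Or.inr (Or.inr (Or.inr (Or.inr (Or.inr (Or.inl (⟨⟨p, hp, hF, hmod⟩, R, hR, hE⟩))))))
  · obtain ⟨-, rfl, rfl⟩ := pow_cases (by norm_num) hmt hm ht
    exact Or.inr (Or.inr (Or.inr (Or.inr (Or.inr (Or.inr (Or.inl (⟨e, P, hE⟩)))))))
  · exact absurd he (by decide)
  · exact Or.inr (Or.inr (Or.inr (Or.inr (Or.inr (Or.inr (Or.inr (Or.inr (Or.inl (⟨σ, f, hf, hE⟩)))))))))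
  · exact Or.inr (Or.inr (Or.inr (Or.inr (Or.inr (Or.inr (Or.inr (Or.inl (⟨hodd, Q, hQ, hE⟩))))))))
  · exact Or.inr (Or.inr (Or.inr (Or.inr (Or.inr (Or.inr (Or.inr (Or.inr (Or.inr (hres)))))))))

theorem sl_cases_10 {F : Type*} [Field F] [Fintype F] (H : Subgroup (Matrix.GeneralLinearGroup (Fin 10) F))
    (hH : Cfsg.Geo.IsMaximalIn (Cfsg.Geo.specialLinear (Fin 10) F) H) (h : LinContain 10 F H) :
    (∃ W : Submodule F (Fin 10 → F), W ≠ ⊥ ∧ W ≠ ⊤ ∧ H = Cfsg.Geo.subspaceStabilizer W ⊓ Cfsg.Geo.specialLinear (Fin 10) F) ∨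
    (5 ≤ Fintype.card F ∧ ∃ D : Fin 10 → Submodule F (Fin 10 → F), Cfsg.Geo.IsMDecomposition 1 D ∧ H = Cfsg.Geo.decompositionStabilizer D ⊓ Cfsg.Geo.specialLinear (Fin 10) F) ∨
    (3 ≤ Fintype.card F ∧ ∃ D : Fin 5 → Submodule F (Fin 10 → F), Cfsg.Geo.IsMDecomposition 2 D ∧ H = Cfsg.Geo.decompositionStabilizer D ⊓ Cfsg.Geo.specialLinear (Fin 10) F) ∨
    (∃ D : Fin 2 → Submodule F (Fin 10 → F), Cfsg.Geo.IsMDecomposition 5 D ∧ H = Cfsg.Geo.decompositionStabilizer D ⊓ Cfsg.Geo.specialLinear (Fin 10) F) ∨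
    (∃ K : Subalgebra F (Matrix (Fin 10) (Fin 10) F), Cfsg.Geo.IsFieldSubalgebra 5 K ∧ H = Cfsg.Geo.subalgebraNormalizer K ⊓ Cfsg.Geo.specialLinear (Fin 10) F) ∨
    (∃ K : Subalgebra F (Matrix (Fin 10) (Fin 10) F), Cfsg.Geo.IsFieldSubalgebra 2 K ∧ H = Cfsg.Geo.subalgebraNormalizer K ⊓ Cfsg.Geo.specialLinear (Fin 10) F) ∨
    (3 ≤ Fintype.card F ∧ ∃ (e : Fin 10 ≃ Fin 2 × Fin 5) (P : Matrix.GeneralLinearGroup (Fin 10) F), H = Cfsg.Geo.tensorProductSubgroup 2 5 e P ⊓ Cfsg.Geo.specialLinear (Fin 10) F) ∨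
    (∃ (F₀ : Subfield F) (r : ℕ) (P : Matrix.GeneralLinearGroup (Fin 10) F), r.Prime ∧ Fintype.card F = Nat.card F₀ ^ r ∧ H = Cfsg.Geo.subfieldSubgroup F₀ P ⊓ Cfsg.Geo.specialLinear (Fin 10) F) ∨
    (Odd (Fintype.card F) ∧ ∃ Q : (Fin 10 → F) → F, Cfsg.Geo.IsNondegenerateQuadraticForm Q ∧ H = Cfsg.Geo.quadSimilarityGroup Q ⊓ Cfsg.Geo.specialLinear (Fin 10) F) ∨
    (∃ f : (Fin 10 → F) → (Fin 10 → F) → F, Cfsg.Geo.IsSymplecticForm f ∧ H = Cfsg.Geo.similarityGroup f ⊓ Cfsg.Geo.specialLinear (Fin 10) F) ∨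
    (∃ (σ : F ≃+* F) (f : (Fin 10 → F) → (Fin 10 → F) → F), Cfsg.Geo.IsUnitaryForm σ f ∧ H = Cfsg.Geo.similarityGroup f ⊓ Cfsg.Geo.specialLinear (Fin 10) F) ∨
    Cfsg.Geo.InLinearResidualClass H := by
  rcases linEq_of_linContain (by norm_num) hH h with
    ⟨W, h0, h1, hW⟩ | ⟨t, m, D, hnt, hq1, hq2, hD, hE⟩ | ⟨r, K, hr, hrn, hK, hE⟩ | ⟨n₁, n₂, e, P, hnn, h2, h12, hq, hE⟩ |
    ⟨F₀, r, P, hr, hF₀, hE⟩ | ⟨r, k, R, hR, hnk, hE⟩ | ⟨m, t, e, P, hmt, hm, ht, hE⟩ | ⟨f, hf, he, hE⟩ |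
    ⟨σ, f, hf, hE⟩ | ⟨hodd, Q, hQ, hE⟩ | hres
  · exact Or.inl (⟨W, h0, h1, hW⟩)
  · have ht := hD.two_le
    have hm0 := hD.pos
    have hml : m ≤ 5 := by nlinarith
    have hc : (t = 10 ∧ m = 1) ∨ (t = 5 ∧ m = 2) ∨ (t = 2 ∧ m = 5) := by
      interval_cases m <;> omega
    rcases hc with ⟨rfl, rfl⟩ | ⟨rfl, rfl⟩ | ⟨rfl, rfl⟩
    · exact Or.inr (Or.inl (⟨hq1 rfl, D, hD, hE⟩))
    · exact Or.inr (Or.inr (Or.inl (⟨hq2 rfl, D, hD, hE⟩)))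
    · exact Or.inr (Or.inr (Or.inr (Or.inl (⟨D, hD, hE⟩))))
  · have hrle : r ≤ 12 := (Nat.le_of_dvd (by norm_num) hrn).trans (by norm_num)
    rcases prime_cases_le_twelve hr hrle with rfl | rfl | rfl | rfl | rfl
    · exact Or.inr (Or.inr (Or.inr (Or.inr (Or.inr (Or.inl (⟨K, hK, hE⟩))))))
    · exact absurd hrn (by norm_num)
    · exact Or.inr (Or.inr (Or.inr (Or.inr (Or.inl (⟨K, hK, hE⟩)))))
    · exact absurd hrn (by norm_num)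
    · exact absurd hrn (by norm_num)
  · have hn1 : n₁ ≤ 3 := by nlinarith
    have hc : (n₁ = 2 ∧ n₂ = 5) := by
      interval_cases n₁ <;> omega
    obtain ⟨rfl, rfl⟩ := hc
    exact Or.inr (Or.inr (Or.inr (Or.inr (Or.inr (Or.inr (Or.inl (⟨hq rfl, e, P, hE⟩)))))))
  · exact Or.inr (Or.inr (Or.inr (Or.inr (Or.inr (Or.inr (Or.inr (Or.inl (⟨F₀, r, P, hr, hF₀, hE⟩))))))))
  · exact (no_two_primes hR.symplecticType.prime hnk (a := 2) (b := 5) (by norm_num) (by norm_num)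
      (by norm_num) (by norm_num) (by norm_num)).elim
  · exact absurd (pow_cases (by norm_num) hmt hm ht).1 (by norm_num)
  · exact Or.inr (Or.inr (Or.inr (Or.inr (Or.inr (Or.inr (Or.inr (Or.inr (Or.inr (Or.inl (⟨f, hf, hE⟩))))))))))
  · exact Or.inr (Or.inr (Or.inr (Or.inr (Or.inr (Or.inr (Or.inr (Or.inr (Or.inr (Or.inr (Or.inl (⟨σ, f, hf, hE⟩)))))))))))
  · exact Or.inr (Or.inr (Or.inr (Or.inr (Or.inr (Or.inr (Or.inr (Or.inr (Or.inl (⟨hodd, Q, hQ, hE⟩)))))))))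
  · exact Or.inr (Or.inr (Or.inr (Or.inr (Or.inr (Or.inr (Or.inr (Or.inr (Or.inr (Or.inr (Or.inr (hres)))))))))))

theorem sl_cases_11 {F : Type*} [Field F] [Fintype F] (H : Subgroup (Matrix.GeneralLinearGroup (Fin 11) F))
    (hH : Cfsg.Geo.IsMaximalIn (Cfsg.Geo.specialLinear (Fin 11) F) H) (h : LinContain 11 F H) :
    (∃ W : Submodule F (Fin 11 → F), W ≠ ⊥ ∧ W ≠ ⊤ ∧ H = Cfsg.Geo.subspaceStabilizer W ⊓ Cfsg.Geo.specialLinear (Fin 11) F) ∨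
    (5 ≤ Fintype.card F ∧ ∃ D : Fin 11 → Submodule F (Fin 11 → F), Cfsg.Geo.IsMDecomposition 1 D ∧ H = Cfsg.Geo.decompositionStabilizer D ⊓ Cfsg.Geo.specialLinear (Fin 11) F) ∨
    (∃ K : Subalgebra F (Matrix (Fin 11) (Fin 11) F), Cfsg.Geo.IsFieldSubalgebra 11 K ∧ H = Cfsg.Geo.subalgebraNormalizer K ⊓ Cfsg.Geo.specialLinear (Fin 11) F) ∨
    (∃ (F₀ : Subfield F) (r : ℕ) (P : Matrix.GeneralLinearGroup (Fin 11) F), r.Prime ∧ Fintype.card F = Nat.card F₀ ^ r ∧ H = Cfsg.Geo.subfieldSubgroup F₀ P ⊓ Cfsg.Geo.specialLinear (Fin 11) F) ∨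
    ((∃ p : ℕ, p.Prime ∧ CharP F p ∧ ((Fintype.card F = p ∧ p % 11 = 1) ∨ (Fintype.card F = p ^ 5 ∧ (p % 11 = 3 ∨ p % 11 = 4 ∨ p % 11 = 5 ∨ p % 11 = 9)))) ∧ ∃ R : Subgroup (Matrix.GeneralLinearGroup (Fin 11) F), Cfsg.Geo.IsLinearSymplecticTypeData 11 R ∧ H = Cfsg.Geo.subgroupNormalizer R ⊓ Cfsg.Geo.specialLinear (Fin 11) F) ∨
    (Odd (Fintype.card F) ∧ ∃ Q : (Fin 11 → F) → F, Cfsg.Geo.IsNondegenerateQuadraticForm Q ∧ H = Cfsg.Geo.quadSimilarityGroup Q ⊓ Cfsg.Geo.specialLinear (Fin 11) F) ∨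
    (∃ (σ : F ≃+* F) (f : (Fin 11 → F) → (Fin 11 → F) → F), Cfsg.Geo.IsUnitaryForm σ f ∧ H = Cfsg.Geo.similarityGroup f ⊓ Cfsg.Geo.specialLinear (Fin 11) F) ∨
    Cfsg.Geo.InLinearResidualClass H := by
  rcases linEq_of_linContain (by norm_num) hH h with
    ⟨W, h0, h1, hW⟩ | ⟨t, m, D, hnt, hq1, hq2, hD, hE⟩ | ⟨r, K, hr, hrn, hK, hE⟩ | ⟨n₁, n₂, e, P, hnn, h2, h12, hq, hE⟩ |
    ⟨F₀, r, P, hr, hF₀, hE⟩ | ⟨r, k, R, hR, hnk, hE⟩ | ⟨m, t, e, P, hmt, hm, ht, hE⟩ | ⟨f, hf, he, hE⟩ |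
    ⟨σ, f, hf, hE⟩ | ⟨hodd, Q, hQ, hE⟩ | hres
  · exact Or.inl (⟨W, h0, h1, hW⟩)
  · have ht := hD.two_le
    have hm0 := hD.pos
    have hml : m ≤ 5 := by nlinarith
    have hc : (t = 11 ∧ m = 1) := by
      interval_cases m <;> omega
    rcases hc with ⟨rfl, rfl⟩
    · exact Or.inr (Or.inl (⟨hq1 rfl, D, hD, hE⟩))
  · have hrle : r ≤ 12 := (Nat.le_of_dvd (by norm_num) hrn).trans (by norm_num)
    rcases prime_cases_le_twelve hr hrle with rfl | rfl | rfl | rfl | rfl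
    · exact absurd hrn (by norm_num)
    · exact absurd hrn (by norm_num)
    · exact absurd hrn (by norm_num)
    · exact absurd hrn (by norm_num)
    · exact Or.inr (Or.inr (Or.inl (⟨K, hK, hE⟩)))
  · have hn1 : n₁ ≤ 3 := by nlinarith
    exfalso
    interval_cases n₁ <;> omega
  · exact Or.inr (Or.inr (Or.inr (Or.inl (⟨F₀, r, P, hr, hF₀, hE⟩))))
  · obtain rfl := eq_of_prime_dvd hR.symplecticType.prime hnk (a := 11) (by norm_num) (by norm_num)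
    obtain ⟨p, hp, hchar, hF⟩ := class6_eleven hR
    exact Or.inr (Or.inr (Or.inr (Or.inr (Or.inl (⟨⟨p, hp, hchar, hF⟩, R, hR, hE⟩)))))
  · exact absurd (pow_cases (by norm_num) hmt hm ht).1 (by norm_num)
  · exact absurd he (by decide)
  · exact Or.inr (Or.inr (Or.inr (Or.inr (Or.inr (Or.inr (Or.inl (⟨σ, f, hf, hE⟩)))))))
  · exact Or.inr (Or.inr (Or.inr (Or.inr (Or.inr (Or.inl (⟨hodd, Q, hQ, hE⟩))))))
  · exact Or.inr (Or.inr (Or.inr (Or.inr (Or.inr (Or.inr (Or.inr (hres)))))))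

theorem sl_cases_12 {F : Type*} [Field F] [Fintype F] (H : Subgroup (Matrix.GeneralLinearGroup (Fin 12) F))
    (hH : Cfsg.Geo.IsMaximalIn (Cfsg.Geo.specialLinear (Fin 12) F) H) (h : LinContain 12 F H) :
    (∃ W : Submodule F (Fin 12 → F), W ≠ ⊥ ∧ W ≠ ⊤ ∧ H = Cfsg.Geo.subspaceStabilizer W ⊓ Cfsg.Geo.specialLinear (Fin 12) F) ∨
    (5 ≤ Fintype.card F ∧ ∃ D : Fin 12 → Submodule F (Fin 12 → F), Cfsg.Geo.IsMDecomposition 1 D ∧ H = Cfsg.Geo.decompositionStabilizer D ⊓ Cfsg.Geo.specialLinear (Fin 12) F) ∨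
    (3 ≤ Fintype.card F ∧ ∃ D : Fin 6 → Submodule F (Fin 12 → F), Cfsg.Geo.IsMDecomposition 2 D ∧ H = Cfsg.Geo.decompositionStabilizer D ⊓ Cfsg.Geo.specialLinear (Fin 12) F) ∨
    (∃ D : Fin 4 → Submodule F (Fin 12 → F), Cfsg.Geo.IsMDecomposition 3 D ∧ H = Cfsg.Geo.decompositionStabilizer D ⊓ Cfsg.Geo.specialLinear (Fin 12) F) ∨
    (∃ D : Fin 3 → Submodule F (Fin 12 → F), Cfsg.Geo.IsMDecomposition 4 D ∧ H = Cfsg.Geo.decompositionStabilizer D ⊓ Cfsg.Geo.specialLinear (Fin 12) F) ∨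
    (∃ D : Fin 2 → Submodule F (Fin 12 → F), Cfsg.Geo.IsMDecomposition 6 D ∧ H = Cfsg.Geo.decompositionStabilizer D ⊓ Cfsg.Geo.specialLinear (Fin 12) F) ∨
    (∃ K : Subalgebra F (Matrix (Fin 12) (Fin 12) F), Cfsg.Geo.IsFieldSubalgebra 2 K ∧ H = Cfsg.Geo.subalgebraNormalizer K ⊓ Cfsg.Geo.specialLinear (Fin 12) F) ∨
    (∃ K : Subalgebra F (Matrix (Fin 12) (Fin 12) F), Cfsg.Geo.IsFieldSubalgebra 3 K ∧ H = Cfsg.Geo.subalgebraNormalizer K ⊓ Cfsg.Geo.specialLinear (Fin 12) F) ∨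
    (3 ≤ Fintype.card F ∧ ∃ (e : Fin 12 ≃ Fin 2 × Fin 6) (P : Matrix.GeneralLinearGroup (Fin 12) F), H = Cfsg.Geo.tensorProductSubgroup 2 6 e P ⊓ Cfsg.Geo.specialLinear (Fin 12) F) ∨
    (∃ (e : Fin 12 ≃ Fin 3 × Fin 4) (P : Matrix.GeneralLinearGroup (Fin 12) F), H = Cfsg.Geo.tensorProductSubgroup 3 4 e P ⊓ Cfsg.Geo.specialLinear (Fin 12) F) ∨
    (∃ (F₀ : Subfield F) (r : ℕ) (P : Matrix.GeneralLinearGroup (Fin 12) F), r.Prime ∧ Fintype.card F = Nat.card F₀ ^ r ∧ H = Cfsg.Geo.subfieldSubgroup F₀ P ⊓ Cfsg.Geo.specialLinear (Fin 12) F) ∨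
    (Odd (Fintype.card F) ∧ ∃ Q : (Fin 12 → F) → F, Cfsg.Geo.IsNondegenerateQuadraticForm Q ∧ H = Cfsg.Geo.quadSimilarityGroup Q ⊓ Cfsg.Geo.specialLinear (Fin 12) F) ∨
    (∃ f : (Fin 12 → F) → (Fin 12 → F) → F, Cfsg.Geo.IsSymplecticForm f ∧ H = Cfsg.Geo.similarityGroup f ⊓ Cfsg.Geo.specialLinear (Fin 12) F) ∨
    (∃ (σ : F ≃+* F) (f : (Fin 12 → F) → (Fin 12 → F) → F), Cfsg.Geo.IsUnitaryForm σ f ∧ H = Cfsg.Geo.similarityGroup f ⊓ Cfsg.Geo.specialLinear (Fin 12) F) ∨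
    Cfsg.Geo.InLinearResidualClass H := by
  rcases linEq_of_linContain (by norm_num) hH h with
    ⟨W, h0, h1, hW⟩ | ⟨t, m, D, hnt, hq1, hq2, hD, hE⟩ | ⟨r, K, hr, hrn, hK, hE⟩ | ⟨n₁, n₂, e, P, hnn, h2, h12, hq, hE⟩ |
    ⟨F₀, r, P, hr, hF₀, hE⟩ | ⟨r, k, R, hR, hnk, hE⟩ | ⟨m, t, e, P, hmt, hm, ht, hE⟩ | ⟨f, hf, he, hE⟩ |
    ⟨σ, f, hf, hE⟩ | ⟨hodd, Q, hQ, hE⟩ | hres
  · exact Or.inl (⟨W, h0, h1, hW⟩)
  · have ht := hD.two_le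
    have hm0 := hD.pos
    have hml : m ≤ 6 := by nlinarith
    have hc : (t = 12 ∧ m = 1) ∨ (t = 6 ∧ m = 2) ∨ (t = 4 ∧ m = 3) ∨ (t = 3 ∧ m = 4) ∨ (t = 2 ∧ m = 6) := by
      interval_cases m <;> omega
    rcases hc with ⟨rfl, rfl⟩ | ⟨rfl, rfl⟩ | ⟨rfl, rfl⟩ | ⟨rfl, rfl⟩ | ⟨rfl, rfl⟩
    · exact Or.inr (Or.inl (⟨hq1 rfl, D, hD, hE⟩))
    · exact Or.inr (Or.inr (Or.inl (⟨hq2 rfl, D, hD, hE⟩)))
    · exact Or.inr (Or.inr (Or.inr (Or.inl (⟨D, hD, hE⟩))))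
    · exact Or.inr (Or.inr (Or.inr (Or.inr (Or.inl (⟨D, hD, hE⟩)))))
    · exact Or.inr (Or.inr (Or.inr (Or.inr (Or.inr (Or.inl (⟨D, hD, hE⟩))))))
  · have hrle : r ≤ 12 := (Nat.le_of_dvd (by norm_num) hrn).trans (by norm_num)
    rcases prime_cases_le_twelve hr hrle with rfl | rfl | rfl | rfl | rfl
    · exact Or.inr (Or.inr (Or.inr (Or.inr (Or.inr (Or.inr (Or.inl (⟨K, hK, hE⟩)))))))
    · exact Or.inr (Or.inr (Or.inr (Or.inr (Or.inr (Or.inr (Or.inr (Or.inl (⟨K, hK, hE⟩))))))))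
    · exact absurd hrn (by norm_num)
    · exact absurd hrn (by norm_num)
    · exact absurd hrn (by norm_num)
  · have hn1 : n₁ ≤ 3 := by nlinarith
    have hc : (n₁ = 2 ∧ n₂ = 6) ∨ (n₁ = 3 ∧ n₂ = 4) := by
      interval_cases n₁ <;> omega
    rcases hc with ⟨rfl, rfl⟩ | ⟨rfl, rfl⟩
    · exact Or.inr (Or.inr (Or.inr (Or.inr (Or.inr (Or.inr (Or.inr (Or.inr (Or.inl (⟨hq rfl, e, P, hE⟩)))))))))
    · exact Or.inr (Or.inr (Or.inr (Or.inr (Or.inr (Or.inr (Or.inr (Or.inr (Or.inr (Or.inl (⟨e, P, hE⟩))))))))))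
  · exact Or.inr (Or.inr (Or.inr (Or.inr (Or.inr (Or.inr (Or.inr (Or.inr (Or.inr (Or.inr (Or.inl (⟨F₀, r, P, hr, hF₀, hE⟩)))))))))))
  · exact (no_two_primes hR.symplecticType.prime hnk (a := 2) (b := 3) (by norm_num) (by norm_num)
      (by norm_num) (by norm_num) (by norm_num)).elim
  · exact absurd (pow_cases (by norm_num) hmt hm ht).1 (by norm_num)
  · exact Or.inr (Or.inr (Or.inr (Or.inr (Or.inr (Or.inr (Or.inr (Or.inr (Or.inr (Or.inr (Or.inr (Or.inr (Or.inl (⟨f, hf, hE⟩)))))))))))))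
  · exact Or.inr (Or.inr (Or.inr (Or.inr (Or.inr (Or.inr (Or.inr (Or.inr (Or.inr (Or.inr (Or.inr (Or.inr (Or.inr (Or.inl (⟨σ, f, hf, hE⟩))))))))))))))
  · exact Or.inr (Or.inr (Or.inr (Or.inr (Or.inr (Or.inr (Or.inr (Or.inr (Or.inr (Or.inr (Or.inr (Or.inl (⟨hodd, Q, hQ, hE⟩))))))))))))
  · exact Or.inr (Or.inr (Or.inr (Or.inr (Or.inr (Or.inr (Or.inr (Or.inr (Or.inr (Or.inr (Or.inr (Or.inr (Or.inr (Or.inr (hres))))))))))))))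

end Cfsg.Agent.AschCases
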