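import Mathlib
import Cfsg.Agent.AschCases.SLCases
import Cfsg.Agent.Asch.LinearMain

set_option autoImplicit false

/-!
The containment hypothesis of the lists of maximal subgroups, from Aschbacher's theorem.
-/

namespace Cfsg.Agent.AschCases

open Cfsg.Geo

theorem linContain_all {F : Type*} [Field F] [Fintype F] (n : ℕ) (hn : 3 ≤ n)
    (H : Subgroup (Matrix.GeneralLinearGroup (Fin n) F)) : LinContain n F H := by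
  unfold LinContain
  rcases Asch.linear_structure n hn H with ⟨M, hM, hle⟩ | hres
  · rcases hM with ⟨W, h1, h2, h3⟩ | ⟨t, m, D, h1, h2⟩ | ⟨r, K, h1, h2, h3⟩ | ⟨n₁, n₂, e, P, h1, h2, h3⟩ |
      ⟨F₀, r, P, h1, h2, h3⟩ | ⟨r, R, k, h1, h2, h3⟩ | ⟨m, t, e, P, h1, h2, h3⟩ | ⟨f, h1, h2, h3, h4⟩ |
      ⟨σ, f, h1, h2, h3⟩ | ⟨Q, h1, h2, h3, h4⟩
    · exact Or.inl ⟨W, h1, h2, h3 ▸ hle⟩
    · exact Or.inr (Or.inl ⟨t, m, D, h1, h2 ▸ hle⟩)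
    · exact Or.inr (Or.inr (Or.inl ⟨r, K, h1, h2, h3 ▸ hle⟩))
    · exact Or.inr (Or.inr (Or.inr (Or.inl ⟨n₁, n₂, e, P, h1, h2, h3 ▸ hle⟩)))
    · exact Or.inr (Or.inr (Or.inr (Or.inr (Or.inl ⟨F₀, r, P, h1, h2, h3 ▸ hle⟩))))
    · exact Or.inr (Or.inr (Or.inr (Or.inr (Or.inr (Or.inl ⟨r, k, R, h1, h2, h3 ▸ hle⟩)))))
    · exact Or.inr (Or.inr (Or.inr (Or.inr (Or.inr (Or.inr (Or.inl ⟨m, t, e, P, h1, h2, h3 ▸ hle⟩))))))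
    · exact Or.inr (Or.inr (Or.inr (Or.inr (Or.inr (Or.inr (Or.inr (Or.inl ⟨f, h1, h2, h4 ▸ hle⟩)))))))
    · exact Or.inr (Or.inr (Or.inr (Or.inr (Or.inr (Or.inr (Or.inr (Or.inr (Or.inl ⟨σ, f, h1, h3 ▸ hle⟩))))))))
    · exact Or.inr (Or.inr (Or.inr (Or.inr (Or.inr (Or.inr (Or.inr (Or.inr (Or.inr (Or.inl ⟨h2, Q, h1, h4 ▸ hle⟩)))))))))
  · exact Or.inr (Or.inr (Or.inr (Or.inr (Or.inr (Or.inr (Or.inr (Or.inr (Or.inr (Or.inr hres)))))))))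

end Cfsg.Agent.AschCases
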