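import Mathlib
import Cfsg.Agent.AschCases.SpGeom
import Cfsg.Agent.AschCases.FieldSub
import Cfsg.Agent.AschCases.BlockDec
import Cfsg.Agent.Asch.Linear
import Cfsg.Agent.AschCases.TensorTwo

set_option autoImplicit false
set_option linter.unusedSectionVars false
set_option linter.style.haveILetI false

/-!
Parity facts and exceptional containments for the symplectic groups.
-/

namespace Cfsg.Agent.AschCases

open scoped Matrix
open Cfsg.Geo

variable {ι : Type} [Fintype ι] [DecidableEq ι] {F : Type*} [Field F]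

/-- Non-degenerate subspaces of symplectic spaces have even dimension. -/
theorem even_finrank_nondeg {f : (ι → F) → (ι → F) → F} (hf : IsSymplecticForm f) {W : Submodule F (ι → F)}
    (hW : IsNondegenerateOn f W) : Even (Module.finrank F W) := by
  set k := Module.finrank F W with hk
  let b := Module.finBasis F W
  let e : (Fin k → F) ≃ₗ[F] W := b.equivFun.symm
  have hg : IsSymplecticForm (fun x y : Fin k → F => f (e x : ι → F) (e y : ι → F)) := by
    refine ⟨⟨?_, ?_, ?_, ?_⟩, ?_, ?_, ?_⟩
    · intro x y v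
      simp only [map_add, Submodule.coe_add, hf.bilinear.add_left]
    · intro c x v
      simp only [map_smul, Submodule.coe_smul, hf.bilinear.smul_left]
    · intro v x y
      simp only [map_add, Submodule.coe_add, hf.bilinear.add_right]
    · intro c v x
      simp only [map_smul, Submodule.coe_smul, hf.bilinear.smul_right]
    · intro v w
      exact hf.skew _ _
    · intro v
      exact hf.alternating _
    · intro v hv
      have h0 : ((e v : W) : ι → F) ≠ 0 := by
        intro h
        apply hv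
        have : e v = 0 := Subtype.ext h
        rwa [LinearEquiv.map_eq_zero_iff] at this
      obtain ⟨⟨x, hx, hx'⟩, ⟨y, hy, hy'⟩⟩ := hW _ (e v).2 h0
      refine ⟨⟨e.symm ⟨x, hx⟩, ?_⟩, ⟨e.symm ⟨y, hy⟩, ?_⟩⟩
      · simpa using hx'
      · simpa using hy'
  have := Asch.even_card_of_isSymplecticForm hg
  rwa [Fintype.card_fin] at this

/-- The degree of a self-adjoint field of the symplectic kind divides half of the dimension. -/
theorem dvd_half [Nonempty ι] {f : (ι → F) → (ι → F) → F} (hf : IsSymplecticForm f) {r : ℕ}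
    {K : Subalgebra F (Matrix ι ι F)} (hK : IsFieldSubalgebra r K) (hsa : IsSelfAdjointFor f K)
    (halt : ∀ k ∈ K, ∀ v, f (k *ᵥ v) v = 0) {m : ℕ} (hm : Fintype.card ι = 2 * m) : r ∣ m := by
  classical
  -- invariant totally singular subspaces
  let P : Submodule F (ι → F) → Prop := fun L => IsTotallySingularFor f L ∧ ∀ k ∈ K, ∀ v ∈ L, k *ᵥ v ∈ L
  have hbot : P ⊥ := by
    constructor
    · intro u hu v _
      rw [Submodule.mem_bot] at hu
      rw [hu]
      have := hf.bilinear.smul_left 0 0 v
      simpa using this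
    · intro k _ v hv
      rw [Submodule.mem_bot] at hv ⊢
      rw [hv, Matrix.mulVec_zero]
  -- one of maximal dimension
  obtain ⟨L, hL, hmax⟩ : ∃ L, P L ∧ ∀ L', P L' → Module.finrank F L' ≤ Module.finrank F L := by
    have hne : {d : ℕ | ∃ L, P L ∧ Module.finrank F L = d}.Nonempty := ⟨_, ⊥, hbot, rfl⟩
    have hbdd : BddAbove {d : ℕ | ∃ L, P L ∧ Module.finrank F L = d} := by
      refine ⟨Fintype.card ι, ?_⟩
      rintro d ⟨L, -, rfl⟩
      have := Submodule.finrank_le L
      rwa [Module.finrank_fintype_fun_eq_card] at this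
    obtain ⟨L, hL, hd⟩ := Nat.sSup_mem hne hbdd
    exact ⟨L, hL, fun L' hL' => by rw [hd]; exact le_csSup hbdd ⟨L', hL', rfl⟩⟩
  have h1 := GeoMax.Symp.finrank_perp hf L
  -- the perp is contained in L
  have hperp : GeoMax.Symp.perp hf L ≤ L := by
    intro v hv
    rw [GeoMax.Symp.mem_perp'] at hv
    by_contra hvL
    -- the span of K v
    let Kv : Submodule F (ι → F) :=
      { carrier := {w | ∃ k ∈ K, w = k *ᵥ v}
        add_mem' := by
          rintro _ _ ⟨k, hk, rfl⟩ ⟨k', hk', rfl⟩
          exact ⟨k + k', K.add_mem hk hk', by rw [Matrix.add_mulVec]⟩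
        zero_mem' := ⟨0, K.zero_mem, by rw [Matrix.zero_mulVec]⟩
        smul_mem' := by
          rintro c _ ⟨k, hk, rfl⟩
          exact ⟨c • k, K.smul_mem hk c, by rw [Matrix.smul_mulVec]⟩ }
    have hvKv : v ∈ Kv := ⟨1, K.one_mem, by rw [Matrix.one_mulVec]⟩
    have hts : P (L ⊔ Kv) := by
      constructor
      · intro x hx y hy
        obtain ⟨a, ha, b, ⟨k, hk, rfl⟩, rfl⟩ := Submodule.mem_sup.1 hx
        obtain ⟨a', ha', b', ⟨k', hk', rfl⟩, rfl⟩ := Submodule.mem_sup.1 hy
        rw [hf.bilinear.add_left, hf.bilinear.add_right, hf.bilinear.add_right, hL.1 a ha a' ha']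
        have e1 : f a (k' *ᵥ v) = 0 := by
          rw [← hsa k' hk', hf.skew, hv _ (hL.2 k' hk' a ha), neg_zero]
        have e2 : f (k *ᵥ v) a' = 0 := by
          rw [hsa k hk]
          exact hv _ (hL.2 k hk a' ha')
        have e3 : f (k *ᵥ v) (k' *ᵥ v) = 0 := by
          rw [← hsa k' hk', Matrix.mulVec_mulVec]
          exact halt _ (K.mul_mem hk' hk) v
        rw [e1, e2, e3]
        ring
      · intro k hk x hx
        obtain ⟨a, ha, b, ⟨k', hk', rfl⟩, rfl⟩ := Submodule.mem_sup.1 hx
        rw [Matrix.mulVec_add, Matrix.mulVec_mulVec]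
        exact Submodule.add_mem_sup (hL.2 k hk a ha) ⟨k * k', K.mul_mem hk hk', rfl⟩
    have hlt : L < L ⊔ Kv := by
      refine lt_of_le_of_ne le_sup_left fun h => hvL ?_
      rw [h]
      exact Submodule.mem_sup_right hvKv
    exact absurd (hmax _ hts) (not_le.2 (Submodule.finrank_lt_finrank_of_lt hlt))
  have hle : L ≤ GeoMax.Symp.perp hf L := by
    intro v hv
    rw [GeoMax.Symp.mem_perp']
    intro w hw
    exact hL.1 v hv w hw
  have heq : GeoMax.Symp.perp hf L = L := le_antisymm hperp hle
  have hfin : Module.finrank F L = m := by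
    have h2 := Submodule.finrank_le L
    rw [Module.finrank_fintype_fun_eq_card] at h2
    rw [heq] at h1
    omega
  rw [← hfin]
  -- L is a K-vector space
  let φ : K →ₐ[F] Module.End F L :=
    { toFun := fun k =>
        { toFun := fun v => ⟨(k : Matrix ι ι F) *ᵥ (v : ι → F), hL.2 k k.2 v v.2⟩
          map_add' := fun v w => Subtype.ext (Matrix.mulVec_add _ _ _)
          map_smul' := fun c v => Subtype.ext (Matrix.mulVec_smul _ _ _) }
      map_one' := by
        ext v : 2
        exact Matrix.one_mulVec _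
      map_mul' := fun k k' => by
        ext v : 2
        exact (Matrix.mulVec_mulVec _ _ _).symm
      map_zero' := by
        ext v : 2
        exact Matrix.zero_mulVec _
      map_add' := fun k k' => by
        ext v : 2
        exact Matrix.add_mulVec _ _ _
      commutes' := fun c => by
        ext v : 2
        show (algebraMap F (Matrix ι ι F) c) *ᵥ (v : ι → F) = c • (v : ι → F)
        rw [Algebra.algebraMap_eq_smul_one, Matrix.smul_mulVec, Matrix.one_mulVec] }
  have key := @finrank_dvd_of_algHom F K L _ (fieldOf hK) (inferInstanceAs (Algebra F K)) _ _ _ φ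
  have h2 : Module.finrank F K = r := hK.finrank_eq
  rw [← h2]
  exact key

/-- The form in coordinates adapted to an orthogonal decomposition into planes. -/
lemma form_planes {f : (ι → F) → (ι → F) → F} (hf : IsSymplecticForm f) {t : ℕ}
    (b : Module.Basis (Σ _ : Fin t, Fin 2) F (ι → F)) (hortho : ∀ i j, i ≠ j → ∀ a c, f (b ⟨i, a⟩) (b ⟨j, c⟩) = 0)
    (u v : ι → F) : f u v = ∑ i, (b.repr u ⟨i, 0⟩ * b.repr v ⟨i, 1⟩ - b.repr u ⟨i, 1⟩ * b.repr v ⟨i, 0⟩) * f (b ⟨i, 0⟩) (b ⟨i, 1⟩) := by
  have hs := Asch.isSesq_of_bilinear hf.bilinear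
  have e : ∀ w : ι → F, w = ∑ i, (b.repr w ⟨i, 0⟩ • b ⟨i, 0⟩ + b.repr w ⟨i, 1⟩ • b ⟨i, 1⟩) := by
    intro w
    conv_lhs => rw [← b.sum_repr w]
    rw [Fintype.sum_sigma]
    refine Finset.sum_congr rfl fun i _ => ?_
    rw [Fin.sum_univ_two]
  conv_lhs => rw [e u, e v]
  rw [hs.sum_left]
  refine Finset.sum_congr rfl fun i _ => ?_
  rw [hs.sum_right, Finset.sum_eq_single i]
  · simp only [hf.bilinear.add_left, hf.bilinear.add_right, hf.bilinear.smul_left, hf.bilinear.smul_right, hf.alternating]
    rw [hf.skew (b ⟨i, 1⟩) (b ⟨i, 0⟩)]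
    ring
  · intro j _ hj
    simp only [hf.bilinear.add_left, hf.bilinear.add_right, hf.bilinear.smul_left, hf.bilinear.smul_right,
      hortho i j (Ne.symm hj), mul_zero, add_zero]
  · intro h; exact absurd (Finset.mem_univ _) h

/-- Over the field with two elements an orthogonal decomposition into planes carries a quadratic form. -/
theorem planes_two [Fintype F] (hq : Fintype.card F = 2) {f : (ι → F) → (ι → F) → F} (hf : IsSymplecticForm f) {t : ℕ}
    {D : Fin t → Submodule F (ι → F)} (hD : IsNondegenerateMDecomposition f 2 D) :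
    ∃ Q : (ι → F) → F, IsNondegenerateQuadraticForm Q ∧ (∀ u v, QuadraticMap.polar Q u v = f u v) ∧
      decompositionStabilizer D ≤ quadSimilarityGroup Q := by
  obtain ⟨b, hb, hb'⟩ := exists_basis_decomp hD.decomp
  have h2 : (2 : F) = 0 := by
    have := two_field_one_add_one (F := F) hq
    rw [← this]; norm_num
  have hF : ∀ c : F, c ≠ 0 → c = 1 := fun c hc => (two_field_cases hq c).resolve_left hc
  have hortho : ∀ i j, i ≠ j → ∀ a c, f (b ⟨i, a⟩) (b ⟨j, c⟩) = 0 := fun i j hij a c =>
    hD.orthogonal i j hij _ (hb i a) _ (hb j c)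
  have hone : ∀ i, f (b ⟨i, 0⟩) (b ⟨i, 1⟩) = 1 := by
    intro i
    apply hF
    intro h0
    have hb0 : b ⟨i, 0⟩ ≠ 0 := b.ne_zero _
    obtain ⟨-, x, hx, hx'⟩ := hD.nondegenerate i _ (hb i 0) hb0
    apply hx'
    rw [form_planes hf b hortho]
    refine Finset.sum_eq_zero fun j _ => ?_
    by_cases hj : j = i
    · subst hj; rw [h0, mul_zero]
    · rw [hb' i x hx j hj, hb' i x hx j hj, mul_zero, mul_zero, sub_zero, zero_mul]
  let N : F → F → F := fun x y => x ^ 2 + x * y + y ^ 2
  let Q : (ι → F) → F := fun v => ∑ i, N (b.repr v ⟨i, 0⟩) (b.repr v ⟨i, 1⟩)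
  have hpol : ∀ u v, QuadraticMap.polar Q u v = f u v := by
    intro u v
    rw [form_planes hf b hortho u v, QuadraticMap.polar]
    simp only [Q, N, map_add, Finsupp.add_apply]
    rw [← Finset.sum_sub_distrib, ← Finset.sum_sub_distrib]
    refine Finset.sum_congr rfl fun i _ => ?_
    rw [hone]
    linear_combination (b.repr u ⟨i, 0⟩ * b.repr v ⟨i, 0⟩ + b.repr u ⟨i, 1⟩ * b.repr v ⟨i, 1⟩ +
      b.repr u ⟨i, 1⟩ * b.repr v ⟨i, 0⟩) * h2
  have hpol' : QuadraticMap.polar Q = f := by funext u v; exact hpol u v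
  refine ⟨Q, ⟨?_, by rw [hpol']; exact hf.bilinear, by rw [hpol']; exact hf.nondegenerate⟩, hpol, ?_⟩
  · intro c v
    simp only [Q, N, map_smul, Finsupp.smul_apply, smul_eq_mul]
    rw [Finset.mul_sum]
    refine Finset.sum_congr rfl fun i _ => ?_
    ring
  · intro g hg
    obtain ⟨σ, hσ⟩ := mem_decompositionStabilizer.mp hg
    obtain ⟨A, hA, -, hA'⟩ := decStab_coord b hb hb' g σ hσ
    have hN : ∀ (B : Matrix (Fin 2) (Fin 2) F), B.det ≠ 0 → ∀ x y,
        N (B 0 0 * x + B 0 1 * y) (B 1 0 * x + B 1 1 * y) = N x y := by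
      intro B hB x y
      rw [Matrix.det_fin_two] at hB
      have h11 := two_field_one_add_one (F := F) hq
      simp only [N]
      rcases two_field_cases hq (B 0 0) with e1 | e1 <;> rcases two_field_cases hq (B 0 1) with e2 | e2 <;>
        rcases two_field_cases hq (B 1 0) with e3 | e3 <;> rcases two_field_cases hq (B 1 1) with e4 | e4 <;>
        rcases two_field_cases hq x with e5 | e5 <;> rcases two_field_cases hq y with e6 | e6 <;>
        rw [e1, e2, e3, e4] at hB <;> rw [e1, e2, e3, e4, e5, e6] <;> simp [h11] at hB ⊢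
    refine ⟨1, fun v => ?_⟩
    rw [Units.val_one, one_mul]
    show ∑ i, N _ _ = ∑ i, N _ _
    rw [sum_perm_eq σ]
    refine Finset.sum_congr rfl fun i _ => ?_
    rw [hA', hA', Fin.sum_univ_two, Fin.sum_univ_two]
    exact hN (A i) (hA i) _ _

end Cfsg.Agent.AschCases
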