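import Mathlib
import Cfsg.Agent.AschCases.TensForm

set_option autoImplicit false
set_option linter.unusedSectionVars false
set_option linter.style.haveILetI false

/-!
Over the field with three elements the similarities of a symmetric form in dimension three permute a frame, so the tensor
product with such a form is contained in the stabiliser of an orthogonal decomposition.
-/

namespace Cfsg.Agent.AschCases

open scoped Matrix Kronecker
open Cfsg.Geo

variable {F : Type*} [Field F]

lemma three_field_cases [Fintype F] (hq : Fintype.card F = 3) (x : F) : x = 0 ∨ x = 1 ∨ x = -1 := by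
  by_cases hx : x = 0
  · left; exact hx
  · right
    have := FiniteField.pow_card_sub_one_eq_one x hx
    rw [hq] at this
    have h1 : (x - 1) * (x + 1) = 0 := by
      have : x ^ 2 = 1 := this
      linear_combination this
    rcases mul_eq_zero.1 h1 with h | h
    · left; linear_combination h
    · right; linear_combination h

lemma three_field_three [Fintype F] (hq : Fintype.card F = 3) : (3 : F) = 0 := by
  have h := FiniteField.cast_card_eq_zero F
  rw [hq] at h
  exact_mod_cast h

lemma three_field_two_ne [Fintype F] (hq : Fintype.card F = 3) : (2 : F) ≠ 0 := by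
  intro h2
  have h3 := three_field_three (F := F) hq
  exact one_ne_zero (α := F) (by linear_combination h3 - h2)

/-- Orthogonal frames with equal norms in dimension three over the field with three elements. -/
lemma exists_frame_three [Fintype F] (hq : Fintype.card F = 3) {f : (Fin 3 → F) → (Fin 3 → F) → F} (hf : IsSymmetricForm f) :
    ∃ (w : Fin 3 → Fin 3 → F) (δ : F), δ ≠ 0 ∧ ∀ i j, f (w i) (w j) = if i = j then δ else 0 := by
  have h2 := three_field_two_ne hq
  have h3 := three_field_three (F := F) hq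
  letI : Invertible (2 : F) := invertibleOfNonzero h2
  let B : LinearMap.BilinForm F (Fin 3 → F) := LinearMap.mk₂ F f hf.bilinear.add_left hf.bilinear.smul_left
    hf.bilinear.add_right (fun c v x => hf.bilinear.smul_right c v x)
  have hB : ∀ x y, B x y = f x y := fun _ _ => rfl
  have hsymm : B.IsSymm := ⟨fun x y => hf.symm x y⟩
  obtain ⟨v', hv'⟩ := LinearMap.BilinForm.exists_orthogonal_basis (LinearMap.BilinForm.isSymm_iff.1 hsymm)
  have hfin : Module.finrank F (Fin 3 → F) = 3 := by simp
  let v : Module.Basis (Fin 3) F (Fin 3 → F) := v'.reindex (finCongr hfin)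
  have hv : ∀ i j, i ≠ j → f (v i) (v j) = 0 := by
    intro i j hij
    rw [Module.Basis.reindex_apply, Module.Basis.reindex_apply, ← hB]
    exact hv' (fun h => hij ((finCongr hfin).symm.injective h))
  have hd : ∀ i, f (v i) (v i) ≠ 0 := by
    intro i h0
    obtain ⟨-, x, hx⟩ := hf.nondegenerate (v i) (v.ne_zero i)
    apply hx
    have hs := Asch.isSesq_of_bilinear hf.bilinear
    rw [← v.sum_repr x, hs.sum_right]
    refine Finset.sum_eq_zero fun j _ => ?_
    rw [hf.bilinear.smul_right]
    by_cases hj : i = j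
    · subst hj; rw [h0, mul_zero]
    · rw [hv i j hj, mul_zero]
  -- the general step
  have key : ∀ a b c : Fin 3 → F, f a b = 0 → f a c = 0 → f b c = 0 → f a a = f b b → f a a ≠ 0 → f c c ≠ 0 →
      ∃ (w : Fin 3 → Fin 3 → F) (δ : F), δ ≠ 0 ∧ ∀ i j, f (w i) (w j) = if i = j then δ else 0 := by
    intro a b c hab hac hbc haa ha hc
    have hba : f b a = 0 := by rw [hf.symm, hab]
    have hca : f c a = 0 := by rw [hf.symm, hac]
    have hcb : f c b = 0 := by rw [hf.symm, hbc]
    have hneg : ∀ x y, f x (-y) = - f x y := by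
      intro x y
      have := hf.bilinear.smul_right (-1) x y
      rwa [neg_one_smul, neg_one_mul] at this
    have hneg' : ∀ x y, f (-x) y = - f x y := by
      intro x y
      have := hf.bilinear.smul_left (-1) x y
      rwa [neg_one_smul, neg_one_mul] at this
    by_cases hcc : f c c = f a a
    · refine ⟨![a, b, c], f a a, ha, fun i j => ?_⟩
      fin_cases i <;> fin_cases j <;> simp [hab, hac, hbc, hba, hca, hcb, haa, hcc]
    · have hcc' : f c c = - f a a := by
        rcases three_field_cases hq (f a a) with h | h | h <;> rcases three_field_cases hq (f c c) with h' | h' | h'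
        · exact absurd h ha
        · exact absurd h ha
        · exact absurd h ha
        · exact absurd h' hc
        · exact absurd (h'.trans h.symm) hcc
        · rw [h', h]
        · exact absurd h' hc
        · rw [h', h, neg_neg]
        · exact absurd (h'.trans h.symm) hcc
      refine ⟨![a + b, a - b, c], - f a a, neg_ne_zero.2 ha, fun i j => ?_⟩
      have e1 : f (a + b) (a + b) = - f a a := by
        rw [hf.bilinear.add_left, hf.bilinear.add_right, hf.bilinear.add_right, hab, hba, ← haa]
        linear_combination (f a a) * h3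
      have e2 : f (a - b) (a - b) = - f a a := by
        rw [sub_eq_add_neg, hf.bilinear.add_left, hf.bilinear.add_right, hf.bilinear.add_right, hneg, hneg, hneg', hneg', hab, hba,
          ← haa]
        linear_combination (f a a) * h3
      have e3 : f (a + b) (a - b) = 0 := by
        rw [sub_eq_add_neg, hf.bilinear.add_left, hf.bilinear.add_right, hf.bilinear.add_right, hneg, hneg, hab, hba, ← haa]
        ring
      have e4 : f (a - b) (a + b) = 0 := by rw [hf.symm, e3]
      have e5 : f (a + b) c = 0 := by rw [hf.bilinear.add_left, hac, hbc, add_zero]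
      have e6 : f (a - b) c = 0 := by rw [sub_eq_add_neg, hf.bilinear.add_left, hneg', hac, hbc, neg_zero, add_zero]
      have e7 : f c (a + b) = 0 := by rw [hf.symm, e5]
      have e8 : f c (a - b) = 0 := by rw [hf.symm, e6]
      fin_cases i <;> fin_cases j <;> simp [e1, e2, e3, e4, e5, e6, e7, e8, hcc']
  -- two of the norms are equal
  have hcases : ∀ i, f (v i) (v i) = 1 ∨ f (v i) (v i) = -1 := fun i =>
    (three_field_cases hq (f (v i) (v i))).resolve_left (hd i)
  by_cases h01 : f (v 0) (v 0) = f (v 1) (v 1)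
  · exact key (v 0) (v 1) (v 2) (hv _ _ (by decide)) (hv _ _ (by decide)) (hv _ _ (by decide)) h01 (hd 0) (hd 2)
  · by_cases h02 : f (v 0) (v 0) = f (v 2) (v 2)
    · exact key (v 0) (v 2) (v 1) (hv _ _ (by decide)) (hv _ _ (by decide)) (hv _ _ (by decide)) h02 (hd 0) (hd 1)
    · have h12 : f (v 1) (v 1) = f (v 2) (v 2) := by
        rcases hcases 0 with h | h <;> rcases hcases 1 with h' | h' <;> rcases hcases 2 with h'' | h'' <;>
          rw [h, h'] at h01 <;> rw [h, h''] at h02 <;> rw [h', h''] <;> first | exact absurd rfl h01 | exact absurd rfl h02 | rfl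
      exact key (v 1) (v 2) (v 0) (hv _ _ (by decide)) (hv _ _ (by decide)) (hv _ _ (by decide)) h12 (hd 1) (hd 0)

/-- Vectors of norm one in an orthonormal frame. -/
lemma norm_one_three [Fintype F] (hq : Fintype.card F = 3) (a b c : F) (h : a * a + b * b + c * c = 1) :
    (a ≠ 0 ∧ b = 0 ∧ c = 0) ∨ (a = 0 ∧ b ≠ 0 ∧ c = 0) ∨ (a = 0 ∧ b = 0 ∧ c ≠ 0) := by
  have h3 := three_field_three (F := F) hq
  have hsq : ∀ x : F, x ≠ 0 → x * x = 1 := by
    intro x hx
    rcases (three_field_cases hq x).resolve_left hx with rfl | rfl <;> ring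
  have e0 : ¬ ((0 : F) = 1) := zero_ne_one
  by_cases ha : a = 0 <;> by_cases hb : b = 0 <;> by_cases hc : c = 0
  · exfalso; rw [ha, hb, hc] at h; exact e0 (by linear_combination h)
  · exact Or.inr (Or.inr ⟨ha, hb, hc⟩)
  · exact Or.inr (Or.inl ⟨ha, hb, hc⟩)
  · exfalso; rw [ha, hsq b hb, hsq c hc] at h; exact e0 (by linear_combination -h)
  · exact Or.inl ⟨ha, hb, hc⟩
  · exfalso; rw [hb, hsq a ha, hsq c hc] at h; exact e0 (by linear_combination -h)
  · exfalso; rw [hc, hsq a ha, hsq b hb] at h; exact e0 (by linear_combination -h)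
  · exfalso; rw [hsq a ha, hsq b hb, hsq c hc] at h; exact e0 (by linear_combination h - h3)

variable {ι : Type} [Fintype ι] [DecidableEq ι] {n₁ : ℕ}

/-- The tensor product of a non-degenerate form with a symmetric form in dimension three, over the field with three
elements: contained in the stabiliser of an orthogonal decomposition into three spaces. -/
theorem tensor_three_three [Fintype F] (hq : Fintype.card F = 3) {f : (ι → F) → (ι → F) → F} (hf : IsBilinearForm f)
    {f₁ : (Fin n₁ → F) → (Fin n₁ → F) → F} {f₂ : (Fin 3 → F) → (Fin 3 → F) → F} (hn₁ : 0 < n₁)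
    (h₁ : IsBilinearForm f₁) (hnd₁ : IsNondegenerateForm f₁)
    (h₂ : IsSymmetricForm f₂) {e : ι ≃ Fin n₁ × Fin 3} {P : Matrix.GeneralLinearGroup ι F}
    (hT : IsTensorFormStructure id f f₁ f₂ e P) :
    ∃ D : Fin 3 → Submodule F (ι → F), IsNondegenerateMDecomposition f n₁ D ∧
      ∀ g ∈ tensorProductSubgroup n₁ 3 e P, (∀ u v, f ((g : Matrix ι ι F) *ᵥ u) ((g : Matrix ι ι F) *ᵥ v) = f u v) →
        g ∈ decompositionStabilizer D := by
  obtain ⟨w, δ, hδ, hw⟩ := exists_frame_three hq h₂
  have hs₁ := Asch.isSesq_of_bilinear h₁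
  have hs₂ := Asch.isSesq_of_bilinear h₂.bilinear
  have hs := Asch.isSesq_of_bilinear hf
  obtain ⟨c, hc, hform⟩ := form_tp (σ := RingEquiv.refl F) (P := P) hs₁ hs₂ hT
  -- the basis
  let u : Fin 3 × Fin n₁ → (Fin n₁ × Fin 3 → F) := fun p => tp (Pi.single p.2 1) (w p.1)
  have hcoef : ∀ (x : Fin 3 → F), (∑ i, x i • w i = 0) → ∀ i, x i = 0 := by
    intro x hx i
    have h := congrArg (fun y => f₂ y (w i)) hx
    simp only [hs₂.sum_left, hs₂.smul_left, hs₂.zero_left, hw] at h
    rw [Finset.sum_eq_single i] at h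
    · rw [if_pos rfl] at h
      exact (mul_eq_zero.1 h).resolve_right hδ
    · intro j _ hj; rw [if_neg hj, mul_zero]
    · intro h; exact absurd (Finset.mem_univ _) h
  have hli : LinearIndependent F u := by
    rw [Fintype.linearIndependent_iff]
    rintro g hg ⟨i, a⟩
    refine hcoef (fun i => g (i, a)) ?_ i
    funext k
    have h := congrFun hg (a, k)
    rw [Finset.sum_apply, Fintype.sum_prod_type] at h
    rw [Finset.sum_apply]
    simp only [Pi.smul_apply, smul_eq_mul, u, tp, Pi.zero_apply] at h ⊢
    rw [← h]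
    refine Finset.sum_congr rfl fun j _ => ?_
    rw [Finset.sum_eq_single a]
    · rw [Pi.single_eq_same, one_mul]
    · intro a' _ ha'; rw [Pi.single_eq_of_ne (Ne.symm ha'), zero_mul, mul_zero]
    · intro h; exact absurd (Finset.mem_univ _) h
  have hli' : LinearIndependent F (fun p => tmap e P (u p)) := hli.map' _ (LinearEquiv.ker _)
  have hcard : Fintype.card (Fin 3 × Fin n₁) = Module.finrank F (ι → F) := by
    rw [Module.finrank_fintype_fun_eq_card, Fintype.card_congr e, Fintype.card_prod, Fintype.card_prod, mul_comm]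
  haveI : Nonempty (Fin 3 × Fin n₁) := ⟨(0, ⟨0, hn₁⟩)⟩
  let b : Module.Basis (Fin 3 × Fin n₁) F (ι → F) := basisOfLinearIndependentOfCardEqFinrank hli' hcard
  have hb : ∀ p, b p = tmap e P (u p) := by
    intro p
    simp only [b, coe_basisOfLinearIndependentOfCardEqFinrank]
  -- vectors of the blocks
  have hsum : ∀ (i : Fin 3) (x : Fin n₁ → F), tmap e P (tp x (w i)) = ∑ a, x a • b (i, a) := by
    intro i x
    have h1 : tp x (w i) = ∑ a, x a • u (i, a) := by
      funext k
      rw [Finset.sum_apply]
      simp only [Pi.smul_apply, smul_eq_mul, u, tp]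
      rw [Finset.sum_eq_single k.1]
      · rw [Pi.single_eq_same, one_mul]
      · intro a' _ ha'; rw [Pi.single_eq_of_ne (Ne.symm ha'), zero_mul, mul_zero]
      · intro h; exact absurd (Finset.mem_univ _) h
    rw [h1, map_sum]
    refine Finset.sum_congr rfl fun a _ => ?_
    rw [map_smul, hb]
  have hblk : ∀ i v, v ∈ blk b i ↔ ∃ x : Fin n₁ → F, v = tmap e P (tp x (w i)) := by
    intro i v
    constructor
    · intro hv
      refine ⟨fun a => b.repr v (i, a), ?_⟩
      rw [hsum]
      exact blk_eq_sum b hv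
    · rintro ⟨x, rfl⟩
      rw [hsum]
      exact Submodule.sum_mem _ fun a _ => Submodule.smul_mem _ _ (basis_mem_blk b i a)
  refine ⟨blk b, ⟨blk_isMDecomposition b (by norm_num) hn₁, ?_, ?_⟩, ?_⟩
  · intro i v hv hv0
    obtain ⟨x, rfl⟩ := (hblk i v).1 hv
    have hx0 : x ≠ 0 := by
      rintro rfl
      apply hv0
      have : tp (0 : Fin n₁ → F) (w i) = 0 := by funext k; simp [tp]
      rw [this, map_zero]
    obtain ⟨⟨y, hy⟩, ⟨z, hz⟩⟩ := hnd₁ x hx0
    refine ⟨⟨_, (hblk i _).2 ⟨y, rfl⟩, ?_⟩, ⟨_, (hblk i _).2 ⟨z, rfl⟩, ?_⟩⟩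
    · rw [hform, hw, if_pos rfl]
      exact mul_ne_zero hc (mul_ne_zero hy hδ)
    · rw [hform, hw, if_pos rfl]
      exact mul_ne_zero hc (mul_ne_zero hz hδ)
  · intro i j hij v hv v' hv'
    obtain ⟨x, rfl⟩ := (hblk i v).1 hv
    obtain ⟨y, rfl⟩ := (hblk j v').1 hv'
    rw [hform, hw, if_neg hij, mul_zero, mul_zero]
  · intro g hg hiso
    obtain ⟨A, B, hAB⟩ := tensorElt hg
    have hne₂ : ∃ w z, f₂ w z ≠ 0 := ⟨w 0, w 0, by rw [hw, if_pos rfl]; exact hδ⟩
    have hne₁ : ∃ x y, f₁ x y ≠ 0 := by
      have h0 : (Pi.single (⟨0, hn₁⟩ : Fin n₁) (1 : F) : Fin n₁ → F) ≠ 0 := by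
        intro h
        have := congrFun h ⟨0, hn₁⟩
        simp at this
      obtain ⟨⟨y, hy⟩, -⟩ := hnd₁ _ h0
      exact ⟨y, _, hy⟩
    obtain ⟨l, -, hB⟩ := similarity_of_tensor (σ := RingEquiv.refl F) hs₁ hs₂ hne₁ hne₂ hT hiso A B hAB
    -- the frame is a basis
    have hliw : LinearIndependent F w := by
      rw [Fintype.linearIndependent_iff]
      exact fun x hx => hcoef x hx
    have hcard3 : Fintype.card (Fin 3) = Module.finrank F (Fin 3 → F) := by simp
    let wb : Module.Basis (Fin 3) F (Fin 3 → F) := basisOfLinearIndependentOfCardEqFinrank hliw hcard3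
    have hwb : ∀ i, wb i = w i := by
      intro i
      simp only [wb, coe_basisOfLinearIndependentOfCardEqFinrank]
    let β : Matrix (Fin 3) (Fin 3) F := fun i j => wb.repr ((B : Matrix (Fin 3) (Fin 3) F) *ᵥ w i) j
    have hβ : ∀ i, (B : Matrix (Fin 3) (Fin 3) F) *ᵥ w i = ∑ j, β i j • w j := by
      intro i
      conv_lhs => rw [← wb.sum_repr ((B : Matrix (Fin 3) (Fin 3) F) *ᵥ w i)]
      refine Finset.sum_congr rfl fun j _ => ?_
      rw [hwb]
    have hββ : ∀ i k, ∑ j, β i j * β k j = if i = k then ((l⁻¹ : Fˣ) : F) else 0 := by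
      intro i k
      have h1 := hB (w i) (w k)
      rw [hβ i, hβ k, hs₂.sum_left] at h1
      have h4 : ∀ j, f₂ (β i j • w j) (∑ j', β k j' • w j') = β i j * β k j * δ := by
        intro j
        rw [hs₂.smul_left, hs₂.sum_right, Finset.sum_eq_single j]
        · rw [h₂.bilinear.smul_right, hw, if_pos rfl]; ring
        · intro j' _ hj'; rw [h₂.bilinear.smul_right, hw, if_neg (Ne.symm hj'), mul_zero]
        · intro h; exact absurd (Finset.mem_univ _) h
      simp only [h4] at h1
      rw [← Finset.sum_mul, hw] at h1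
      apply mul_right_cancel₀ hδ
      rw [h1]
      by_cases hik : i = k
      · rw [if_pos hik, if_pos hik]
      · rw [if_neg hik, if_neg hik, mul_zero, zero_mul]
    have hsq : ∀ x : F, x ≠ 0 → x * x = 1 := by
      intro x hx
      rcases (three_field_cases hq x).resolve_left hx with rfl | rfl <;> ring
    have hl1 : ((l⁻¹ : Fˣ) : F) = 1 := by
      have h1 : β * βᵀ = ((l⁻¹ : Fˣ) : F) • (1 : Matrix (Fin 3) (Fin 3) F) := by
        ext i k
        rw [Matrix.mul_apply]
        simp only [Matrix.transpose_apply, Matrix.smul_apply, smul_eq_mul, Matrix.one_apply]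
        rw [hββ]
        by_cases hik : i = k
        · rw [if_pos hik, if_pos hik, mul_one]
        · rw [if_neg hik, if_neg hik, mul_zero]
      have h2 := congrArg Matrix.det h1
      rw [Matrix.det_mul, Matrix.det_transpose, Matrix.det_smul, Matrix.det_one, mul_one, Fintype.card_fin] at h2
      have h3 : ((l⁻¹ : Fˣ) : F) ^ 3 ≠ 0 := pow_ne_zero 3 (Units.ne_zero _)
      have h4 : β.det ≠ 0 := by
        intro h; rw [h, zero_mul] at h2; exact h3 h2.symm
      rw [hsq _ h4] at h2
      have h5 : ((l⁻¹ : Fˣ) : F) ^ 3 = ((l⁻¹ : Fˣ) : F) * (((l⁻¹ : Fˣ) : F) * ((l⁻¹ : Fˣ) : F)) := by ring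
      rw [h5, hsq _ (Units.ne_zero _), mul_one] at h2
      exact h2.symm
    -- each row has one non-zero entry
    have hrow : ∀ i, ∃ j, β i j ≠ 0 ∧ ∀ j', j' ≠ j → β i j' = 0 := by
      intro i
      have h1 := hββ i i
      rw [if_pos rfl, hl1, Fin.sum_univ_three] at h1
      rcases norm_one_three hq _ _ _ h1 with ⟨h, h', h''⟩ | ⟨h, h', h''⟩ | ⟨h, h', h''⟩
      · refine ⟨0, h, fun j hj => ?_⟩
        fin_cases j
        · exact absurd rfl hj
        · exact h'
        · exact h''
      · refine ⟨1, h', fun j hj => ?_⟩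
        fin_cases j
        · exact h
        · exact absurd rfl hj
        · exact h''
      · refine ⟨2, h'', fun j hj => ?_⟩
        fin_cases j
        · exact h
        · exact h'
        · exact absurd rfl hj
    choose τ hτ hτ' using hrow
    have hτinj : Function.Injective τ := by
      intro i k hik
      by_contra hne
      have h1 := hββ i k
      rw [if_neg hne, Finset.sum_eq_single (τ i)] at h1
      · rw [hik] at h1
        have h2 := hτ i
        rw [hik] at h2
        exact mul_ne_zero h2 (hτ k) h1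
      · intro j _ hj; rw [hτ' i j hj, zero_mul]
      · intro h; exact absurd (Finset.mem_univ _) h
    refine mem_decStab_blk b g (Equiv.ofBijective τ (Finite.injective_iff_bijective.1 hτinj)) fun i a => ?_
    rw [Equiv.ofBijective_apply, hb, hAB, kron_tp, hβ, Finset.sum_eq_single (τ i)]
    · rw [hblk]
      refine ⟨β i (τ i) • ((A : Matrix (Fin n₁) (Fin n₁) F) *ᵥ (Pi.single a 1)), ?_⟩
      congr 1
      funext k
      simp only [tp, Pi.smul_apply, smul_eq_mul]
      ring
    · intro j _ hj; rw [hτ' i j hj, zero_smul]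
    · intro h; exact absurd (Finset.mem_univ _) h

end Cfsg.Agent.AschCases
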