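import Mathlib
import Cfsg.Agent.AschCases.SpExcl
import Cfsg.Agent.AschCases.TensThree
import Cfsg.Agent.AschCases.Lin

set_option autoImplicit false
set_option linter.unusedSectionVars false
set_option linter.style.haveILetI false

/-!
Maximal subgroups of the symplectic group from the structure theorem.
-/

namespace Cfsg.Agent.AschCases

open scoped Matrix
open Cfsg.Geo

variable {F : Type*} [Field F] [Fintype F] {m : ℕ}

lemma two_eq_zero_of_card (h : ¬ Odd (Fintype.card F)) : (2 : F) = 0 := by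
  by_contra h2
  apply h
  have h3 : ringChar F ≠ 2 := by
    intro h4
    apply h2
    have : ((2 : ℕ) : F) = 0 := by rw [← h4]; exact ringChar.Nat.cast_ringChar
    exact_mod_cast this
  have := FiniteField.odd_card_of_char_ne_two h3
  rw [Nat.odd_iff]
  exact this

/-- The symplectic group is contained in no member. -/
theorem spMember_not_le (hm : 2 ≤ m) {M : Subgroup (Matrix.GeneralLinearGroup (Fin m ⊕ Fin m) F)}
    (hM : Asch.SpMember (Cfsg.sympForm m F) M) : ¬ Cfsg.spGL m F ≤ M := by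
  have G := sp_geom m F
  have hs := GeoMax.Symp.std m F
  have hc : Fintype.card (Fin m ⊕ Fin m) = 2 * m := by simp; ring
  haveI : Nonempty (Fin m ⊕ Fin m) := ⟨Sum.inl ⟨0, by omega⟩⟩
  have hfin : Module.finrank F (Fin m ⊕ Fin m → F) = 2 * m := by rw [Module.finrank_fintype_fun_eq_card, hc]
  rcases hM with ⟨W, h1, h2, rfl⟩ | ⟨W, h1, h2, h3, rfl⟩ | ⟨t, k, D, h1, rfl⟩ | ⟨k, D, h1, h2, h3, rfl⟩ |
    ⟨r, K, h1, h2, h3, h4, rfl⟩ | ⟨K, h1, h2, h3, h4, rfl⟩ | ⟨n₁, n₂, e, P, f₁, f₂, h1, h2, h3, h4, h5, rfl⟩ |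
    ⟨F₀, r, P, ζ, h1, h2, h3, h4, rfl⟩ | ⟨R, p, k, h1, h2, h3, h4, h5, h6, h7, h8, h9, h10, rfl⟩ |
    ⟨k, t, e, P, f₁, h1, h2, h3, h4, h5, h6, rfl⟩ | ⟨Q, h1, h2, h3, rfl⟩
  · refine G.not_le_subspaceStabilizer W h1 ?_
    rintro rfl
    obtain ⟨u, y, huy⟩ := form_ne_zero_of_nondeg hs.nondegenerate
    exact huy (h2 u trivial y trivial)
  · refine G.not_le_subspaceStabilizer W h1 ?_
    rintro rfl
    rw [finrank_top, hfin, hc] at h3
    omega
  · refine G.not_le_decompositionStabilizer ?_ D h1.decomp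
    have ht := h1.decomp.two_le
    have e1 := even_finrank_nondeg hs (h1.nondegenerate ⟨0, by omega⟩)
    rw [h1.decomp.finrank_eq] at e1
    have := h1.decomp.pos
    obtain ⟨j, hj⟩ := e1
    omega
  · refine G.not_le_decompositionStabilizer ?_ D h2
    have := card_eq_of_decomp h2
    rw [hc] at this
    omega
  · exact G.not_le_subalgebraNormalizer (by rw [hc]; omega) h1.two_le K h2
  · exact G.not_le_subalgebraNormalizer (by rw [hc]; omega) le_rfl K h2
  · refine G.not_le_tensorProductSubgroup ?_ (by omega) e P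
    have e1 := Asch.even_card_of_isSymplecticForm h3
    rw [Fintype.card_fin] at e1
    have e2 : Fintype.card (Fin m ⊕ Fin m) = n₁ * n₂ := by simpa using Fintype.card_congr e
    rw [hc] at e2
    obtain ⟨j, hj⟩ := e1
    by_contra hlt
    have : n₁ = 0 := by omega
    rw [this, zero_mul] at e2
    omega
  · obtain ⟨v, w, hvw, hind⟩ := exists_ts_plane (F := F) hm
    exact G.not_le_subfieldSubgroup (by rw [hc]; omega) F₀ (subfield_ne_top F₀ r h1 h2) P v w (hs.alternating v) (hs.alternating w)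
      (Or.inl hvw) hind
  · have hodd : 3 ≤ Fintype.card F := by
      rw [h6]
      have := h4.two_le
      rcases h5 with ⟨j, hj⟩
      omega
    haveI : Fact p.Prime := ⟨h4⟩
    haveI : CharP F p := charP_of_card_eq_prime h6
    refine G.not_le_symplType (by rw [hc]; omega) R h1.pGroup h2.1 ?_ ?_
    · intro x hx t ht
      exact similarity_normalises (fun g => mem_spGL_iff g) x (h3 hx) t ht
    · intro N hN hnorm hNr
      refine sp_normal_scalar (p := p) (by omega) h1.prime h4 ?_ N hN hnorm hNr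
      rintro rfl
      rcases h5 with ⟨j, hj⟩
      omega
  · refine G.not_le_tensorWreathSubgroup (Or.inr ⟨?_, h3⟩) e P
    have e1 := Asch.even_card_of_isSymplecticForm h5
    rw [Fintype.card_fin] at e1
    have e2 : Fintype.card (Fin m ⊕ Fin m) = k ^ t := by simpa using Fintype.card_congr e
    rw [hc] at e2
    obtain ⟨j, hj⟩ := e1
    by_contra hlt
    have : k = 0 := by omega
    rw [this, zero_pow (by omega)] at e2
    omega
  · exact sp_not_le_quadSimilarity hm (two_eq_zero_of_card h1) h2 h3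

/-- Maximal subgroups are the intersections with the members. -/
theorem sp_maximal (hm : 2 ≤ m) {H : Subgroup (Matrix.GeneralLinearGroup (Fin m ⊕ Fin m) F)}
    (hH : IsMaximalIn (Cfsg.spGL m F) H)
    (hstr : (∃ M, Asch.SpMember (Cfsg.sympForm m F) M ∧ H ≤ M) ∨ InSymplecticResidualClass H) :
    (∃ M, Asch.SpMember (Cfsg.sympForm m F) M ∧ H = M ⊓ Cfsg.spGL m F) ∨ InSymplecticResidualClass H := by
  rcases hstr with ⟨M, hM, hle⟩ | h
  · exact Or.inl ⟨M, hM, eq_inf_of_maximal hH hle (spMember_not_le hm hM)⟩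
  · exact Or.inr h

end Cfsg.Agent.AschCases
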