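import Mathlib
import Cfsg.Agent.AschCases.SpMain
import Cfsg.Agent.AschCases.ArithSix

set_option autoImplicit false
set_option linter.unusedSectionVars false
set_option linter.unusedVariables false
set_option linter.style.haveILetI false
set_option linter.unnecessarySeqFocus false

/-!
The lists of maximal subgroups of Sp_4 (even characteristic), Sp_6, Sp_10, Sp_12 from the structure theorem.
-/

namespace Cfsg.Agent.AschCases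

open scoped Matrix
open Cfsg.Geo

theorem sp_cases_2e {F : Type*} [Field F] [Fintype F] (heven : ¬ Odd (Fintype.card F)) (H : Subgroup (Matrix.GeneralLinearGroup (Fin 2 ⊕ Fin 2) F))
    (hH : Cfsg.Geo.IsMaximalIn (Cfsg.spGL 2 F) H)
    (hstr : (∃ M, Asch.SpMember (Cfsg.sympForm 2 F) M ∧ H ≤ M) ∨ InSymplecticResidualClass H) :
    (∃ W : Submodule F (Fin 2 ⊕ Fin 2 → F), W ≠ ⊥ ∧ Cfsg.Geo.IsTotallySingularFor (Cfsg.sympForm 2 F) W ∧ H = Cfsg.Geo.subspaceStabilizer W ⊓ Cfsg.spGL 2 F) ∨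
    (∃ D : Fin 2 → Submodule F (Fin 2 ⊕ Fin 2 → F), Cfsg.Geo.IsNondegenerateMDecomposition (Cfsg.sympForm 2 F) 2 D ∧ H = Cfsg.Geo.decompositionStabilizer D ⊓ Cfsg.spGL 2 F) ∨
    (∃ K : Subalgebra F (Matrix (Fin 2 ⊕ Fin 2) (Fin 2 ⊕ Fin 2) F), Cfsg.Geo.IsFieldSubalgebra 2 K ∧ Cfsg.Geo.IsSelfAdjointFor (Cfsg.sympForm 2 F) K ∧ (∀ k ∈ K, ∀ v : (Fin 2 ⊕ Fin 2 → F), (Cfsg.sympForm 2 F) (Matrix.mulVec k v) v = 0) ∧ H = Cfsg.Geo.subalgebraNormalizer K ⊓ Cfsg.spGL 2 F) ∨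
    (∃ (F₀ : Subfield F) (r : ℕ) (P : Matrix.GeneralLinearGroup (Fin 2 ⊕ Fin 2) F) (ζ : F), r.Prime ∧ Fintype.card F = Nat.card F₀ ^ r ∧ ζ ≠ 0 ∧ Cfsg.Geo.IsFormRationalStructure (Cfsg.sympForm 2 F) F₀ ζ P ∧ H = Cfsg.Geo.subfieldSubgroup F₀ P ⊓ Cfsg.spGL 2 F) ∨
    (∃ Q : (Fin 2 ⊕ Fin 2 → F) → F, Cfsg.Geo.IsNondegenerateQuadraticForm Q ∧ (∀ u v : (Fin 2 ⊕ Fin 2 → F), QuadraticMap.polar Q u v = (Cfsg.sympForm 2 F) u v) ∧ H = Cfsg.Geo.quadSimilarityGroup Q ⊓ Cfsg.spGL 2 F) ∨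
    Cfsg.Geo.InSymplecticResidualClass H := by
  have hs := GeoMax.Symp.std 2 F
  have hc : Fintype.card (Fin 2 ⊕ Fin 2) = 4 := by simp
  haveI : Nonempty (Fin 2 ⊕ Fin 2) := ⟨Sum.inl 0⟩
  have hq1 : 1 < Fintype.card F := Fintype.one_lt_card
  rcases sp_maximal (by norm_num) hH hstr with ⟨M, hM, hE⟩ | hres
  swap
  · exact Or.inr (Or.inr (Or.inr (Or.inr (Or.inr (hres)))))
  rcases hM with ⟨W, h1, h2, rfl⟩ | ⟨W, h1, h2, h3, rfl⟩ | ⟨t, k, D, h1, rfl⟩ | ⟨k, D, h1, h2, h3, rfl⟩ |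
    ⟨r, K, h1, h2, h3, h4, rfl⟩ | ⟨K, h1, h2, h3, h4, rfl⟩ | ⟨n₁, n₂, e, P, f₁, f₂, h1, h2, h3, h4, h5, rfl⟩ |
    ⟨F₀, r, P, ζ, h1, h2, h3, h4, rfl⟩ | ⟨R, p, k, h1, h2, h3, h4, h5, h6, h7, h8, h9, h10, rfl⟩ |
    ⟨k, t, e, P, f₁, h1, h2, h3, h4, h5, h6, rfl⟩ | ⟨Q, h1, h2, h3, rfl⟩
  · exact Or.inl (⟨W, h1, h2, hE⟩)
  · exfalso
    have e1 := even_finrank_nondeg hs h2
    have e2 : Module.finrank F W ≠ 0 := fun h => h1 (Submodule.finrank_eq_zero.1 h)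
    obtain ⟨j, hj⟩ := e1
    omega
  · have ht := h1.decomp.two_le
    have e1 := even_finrank_nondeg hs (h1.nondegenerate ⟨0, by omega⟩)
    rw [h1.decomp.finrank_eq] at e1
    have e2 := card_eq_of_decomp h1.decomp
    rw [hc] at e2
    have e3 := h1.decomp.pos
    obtain ⟨j, hj⟩ := e1
    have e4 : k ≤ 2 := by nlinarith
    have hcs : (t = 2 ∧ k = 2) := by
      interval_cases k <;> omega
    obtain ⟨rfl, rfl⟩ := hcs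
    exact Or.inr (Or.inl (⟨D, h1, hE⟩))
  · exact absurd h1 heven
  · have hrm : r ∣ 2 := dvd_half hs h2 h3 h4 (by rw [hc])
    have hrle : r ≤ 2 := Nat.le_of_dvd (by norm_num) hrm
    have hr2 := h1.two_le
    have hcs : r = 2 := by
      interval_cases r <;> first | (exfalso; revert hrm; norm_num; done) | (exfalso; revert h1; norm_num; done) | simp
    rcases hcs with rfl
    · exact Or.inr (Or.inr (Or.inl (⟨K, h2, h3, h4, hE⟩)))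
  · exact absurd h1 heven
  · exact absurd h1 heven
  · exact Or.inr (Or.inr (Or.inr (Or.inl (⟨F₀, r, P, ζ, h1, h2, h3, h4, hE⟩))))
  · exact absurd (h6 ▸ h5) heven
  · exact absurd h1 heven
  · exact Or.inr (Or.inr (Or.inr (Or.inr (Or.inl (⟨Q, h2, h3, hE⟩)))))

theorem sp_cases_3 {F : Type*} [Field F] [Fintype F] (H : Subgroup (Matrix.GeneralLinearGroup (Fin 3 ⊕ Fin 3) F))
    (hH : Cfsg.Geo.IsMaximalIn (Cfsg.spGL 3 F) H)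
    (hstr : (∃ M, Asch.SpMember (Cfsg.sympForm 3 F) M ∧ H ≤ M) ∨ InSymplecticResidualClass H) :
    (∃ W : Submodule F (Fin 3 ⊕ Fin 3 → F), W ≠ ⊥ ∧ Cfsg.Geo.IsTotallySingularFor (Cfsg.sympForm 3 F) W ∧ H = Cfsg.Geo.subspaceStabilizer W ⊓ Cfsg.spGL 3 F) ∨
    (∃ W : Submodule F (Fin 3 ⊕ Fin 3 → F), W ≠ ⊥ ∧ Cfsg.Geo.IsNondegenerateOn (Cfsg.sympForm 3 F) W ∧ Module.finrank F W < 3 ∧ H = Cfsg.Geo.subspaceStabilizer W ⊓ Cfsg.spGL 3 F) ∨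
    (3 ≤ Fintype.card F ∧ ∃ D : Fin 3 → Submodule F (Fin 3 ⊕ Fin 3 → F), Cfsg.Geo.IsNondegenerateMDecomposition (Cfsg.sympForm 3 F) 2 D ∧ H = Cfsg.Geo.decompositionStabilizer D ⊓ Cfsg.spGL 3 F) ∨
    (Odd (Fintype.card F) ∧ ∃ D : Fin 2 → Submodule F (Fin 3 ⊕ Fin 3 → F), Cfsg.Geo.IsMDecomposition 3 D ∧ (∀ i, Cfsg.Geo.IsTotallySingularFor (Cfsg.sympForm 3 F) (D i)) ∧ H = Cfsg.Geo.decompositionStabilizer D ⊓ Cfsg.spGL 3 F) ∨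
    (∃ K : Subalgebra F (Matrix (Fin 3 ⊕ Fin 3) (Fin 3 ⊕ Fin 3) F), Cfsg.Geo.IsFieldSubalgebra 3 K ∧ Cfsg.Geo.IsSelfAdjointFor (Cfsg.sympForm 3 F) K ∧ (∀ k ∈ K, ∀ v : (Fin 3 ⊕ Fin 3 → F), (Cfsg.sympForm 3 F) (Matrix.mulVec k v) v = 0) ∧ H = Cfsg.Geo.subalgebraNormalizer K ⊓ Cfsg.spGL 3 F) ∨
    (Odd (Fintype.card F) ∧ ∃ K : Subalgebra F (Matrix (Fin 3 ⊕ Fin 3) (Fin 3 ⊕ Fin 3) F), Cfsg.Geo.IsFieldSubalgebra 2 K ∧ Cfsg.Geo.IsAdjointClosedFor (Cfsg.sympForm 3 F) K ∧ ¬ Cfsg.Geo.IsSelfAdjointFor (Cfsg.sympForm 3 F) K ∧ H = Cfsg.Geo.subalgebraNormalizer K ⊓ Cfsg.spGL 3 F) ∨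
    (Odd (Fintype.card F) ∧ 5 ≤ Fintype.card F ∧ ∃ (e : (Fin 3 ⊕ Fin 3) ≃ Fin 2 × Fin 3) (P : Matrix.GeneralLinearGroup (Fin 3 ⊕ Fin 3) F) (f₁ : (Fin 2 → F) → (Fin 2 → F) → F) (f₂ : (Fin 3 → F) → (Fin 3 → F) → F), Cfsg.Geo.IsSymplecticForm f₁ ∧ Cfsg.Geo.IsSymmetricForm f₂ ∧ Cfsg.Geo.IsTensorFormStructure id (Cfsg.sympForm 3 F) f₁ f₂ e P ∧ H = Cfsg.Geo.tensorProductSubgroup 2 3 e P ⊓ Cfsg.spGL 3 F) ∨
    (∃ (F₀ : Subfield F) (r : ℕ) (P : Matrix.GeneralLinearGroup (Fin 3 ⊕ Fin 3) F) (ζ : F), r.Prime ∧ Fintype.card F = Nat.card F₀ ^ r ∧ ζ ≠ 0 ∧ Cfsg.Geo.IsFormRationalStructure (Cfsg.sympForm 3 F) F₀ ζ P ∧ H = Cfsg.Geo.subfieldSubgroup F₀ P ⊓ Cfsg.spGL 3 F) ∨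
    (¬ Odd (Fintype.card F) ∧ ∃ Q : (Fin 3 ⊕ Fin 3 → F) → F, Cfsg.Geo.IsNondegenerateQuadraticForm Q ∧ (∀ u v : (Fin 3 ⊕ Fin 3 → F), QuadraticMap.polar Q u v = (Cfsg.sympForm 3 F) u v) ∧ H = Cfsg.Geo.quadSimilarityGroup Q ⊓ Cfsg.spGL 3 F) ∨
    Cfsg.Geo.InSymplecticResidualClass H := by
  have hs := GeoMax.Symp.std 3 F
  have hc : Fintype.card (Fin 3 ⊕ Fin 3) = 6 := by simp
  haveI : Nonempty (Fin 3 ⊕ Fin 3) := ⟨Sum.inl 0⟩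
  have hq1 : 1 < Fintype.card F := Fintype.one_lt_card
  rcases sp_maximal (by norm_num) hH hstr with ⟨M, hM, hE⟩ | hres
  swap
  · exact Or.inr (Or.inr (Or.inr (Or.inr (Or.inr (Or.inr (Or.inr (Or.inr (Or.inr (hres)))))))))
  rcases hM with ⟨W, h1, h2, rfl⟩ | ⟨W, h1, h2, h3, rfl⟩ | ⟨t, k, D, h1, rfl⟩ | ⟨k, D, h1, h2, h3, rfl⟩ |
    ⟨r, K, h1, h2, h3, h4, rfl⟩ | ⟨K, h1, h2, h3, h4, rfl⟩ | ⟨n₁, n₂, e, P, f₁, f₂, h1, h2, h3, h4, h5, rfl⟩ |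
    ⟨F₀, r, P, ζ, h1, h2, h3, h4, rfl⟩ | ⟨R, p, k, h1, h2, h3, h4, h5, h6, h7, h8, h9, h10, rfl⟩ |
    ⟨k, t, e, P, f₁, h1, h2, h3, h4, h5, h6, rfl⟩ | ⟨Q, h1, h2, h3, rfl⟩
  · exact Or.inl (⟨W, h1, h2, hE⟩)
  · exact Or.inr (Or.inl (⟨W, h1, h2, by omega, hE⟩))
  · have ht := h1.decomp.two_le
    have e1 := even_finrank_nondeg hs (h1.nondegenerate ⟨0, by omega⟩)
    rw [h1.decomp.finrank_eq] at e1
    have e2 := card_eq_of_decomp h1.decomp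
    rw [hc] at e2
    have e3 := h1.decomp.pos
    obtain ⟨j, hj⟩ := e1
    have e4 : k ≤ 3 := by nlinarith
    have hcs : (t = 3 ∧ k = 2) := by
      interval_cases k <;> omega
    obtain ⟨rfl, rfl⟩ := hcs
    by_cases hq2 : Fintype.card F = 2
    · obtain ⟨Q, hQ, hQ', hle⟩ := planes_two hq2 hs h1
      have hodd : ¬ Odd (Fintype.card F) := by rw [hq2]; decide
      have hle2 : H ≤ quadSimilarityGroup Q := by rw [hE]; exact inf_le_left.trans hle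
      have hE2 := eq_inf_of_maximal hH hle2 (sp_not_le_quadSimilarity (by norm_num) (two_eq_zero_of_card hodd) hQ hQ')
      exact Or.inr (Or.inr (Or.inr (Or.inr (Or.inr (Or.inr (Or.inr (Or.inr (Or.inl (⟨hodd, Q, hQ, hQ', hE2⟩)))))))))
    · exact Or.inr (Or.inr (Or.inl (⟨by omega, D, h1, hE⟩)))
  · have e2 := card_eq_of_decomp h2
    rw [hc] at e2
    obtain rfl : k = 3 := by omega
    exact Or.inr (Or.inr (Or.inr (Or.inl (⟨h1, D, h2, h3, hE⟩))))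
  · have hrm : r ∣ 3 := dvd_half hs h2 h3 h4 (by rw [hc])
    have hrle : r ≤ 3 := Nat.le_of_dvd (by norm_num) hrm
    have hr2 := h1.two_le
    have hcs : r = 3 := by
      interval_cases r <;> first | (exfalso; revert hrm; norm_num; done) | (exfalso; revert h1; norm_num; done) | simp
    rcases hcs with rfl
    · exact Or.inr (Or.inr (Or.inr (Or.inr (Or.inl (⟨K, h2, h3, h4, hE⟩)))))
  · exact Or.inr (Or.inr (Or.inr (Or.inr (Or.inr (Or.inl (⟨h1, K, h2, h3, h4, hE⟩))))))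
  · have e1 := Asch.even_card_of_isSymplecticForm h3
    rw [Fintype.card_fin] at e1
    have e2 : Fintype.card (Fin 3 ⊕ Fin 3) = n₁ * n₂ := by simpa using Fintype.card_congr e
    rw [hc] at e2
    obtain ⟨j, hj⟩ := e1
    have e4 : n₁ ≤ 2 := by nlinarith
    have hcs : (n₁ = 2 ∧ n₂ = 3) := by
      interval_cases n₁ <;> omega
    obtain ⟨rfl, rfl⟩ := hcs
    by_cases hq3 : Fintype.card F = 3
    · obtain ⟨D, hD, hle⟩ := tensor_three_three hq3 hs.bilinear (by norm_num) h3.bilinear h3.nondegenerate h4 h5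
      have hle2 : H ≤ decompositionStabilizer D := by
        rw [hE]; exact fun g hg => hle g hg.1 ((mem_spGL_iff g).1 hg.2)
      have hE2 := eq_inf_of_maximal hH hle2 ((sp_geom 3 F).not_le_decompositionStabilizer (by norm_num) D hD.decomp)
      exact Or.inr (Or.inr (Or.inl (⟨by omega, D, hD, hE2⟩)))
    · have hq5 : 5 ≤ Fintype.card F := by
        obtain ⟨j, hj⟩ := h1
        omega
      exact Or.inr (Or.inr (Or.inr (Or.inr (Or.inr (Or.inr (Or.inl (⟨h1, hq5, e, P, f₁, f₂, h3, h4, h5, hE⟩)))))))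
  · exact Or.inr (Or.inr (Or.inr (Or.inr (Or.inr (Or.inr (Or.inr (Or.inl (⟨F₀, r, P, ζ, h1, h2, h3, h4, hE⟩))))))))
  · exfalso
    rw [hc] at h10
    exact no_two_primes Nat.prime_two h10 (a := 2) (b := 3) (by norm_num) (by norm_num) (by norm_num) (by norm_num) (by norm_num)
  · exfalso
    have e1 := Asch.even_card_of_isSymplecticForm h5
    rw [Fintype.card_fin] at e1
    have e2 : Fintype.card (Fin 3 ⊕ Fin 3) = k ^ t := by simpa using Fintype.card_congr e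
    rw [hc] at e2
    have hk0 : k ≠ 0 := by
      rintro rfl
      rw [zero_pow (by omega)] at e2
      omega
    obtain ⟨j, hj⟩ := e1
    have hk2 : 2 ≤ k := by omega
    have hk3 : k < 3 := by
      by_contra hk3
      have e5 : 3 ^ 3 ≤ k ^ t := (Nat.pow_le_pow_left (by omega) 3).trans (Nat.pow_le_pow_right (by omega) h3)
      omega
    obtain rfl : k = 2 := by omega
    exact no_two_primes Nat.prime_two e2 (a := 2) (b := 3) (by norm_num) (by norm_num) (by norm_num) (by norm_num) (by norm_num)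
  · exact Or.inr (Or.inr (Or.inr (Or.inr (Or.inr (Or.inr (Or.inr (Or.inr (Or.inl (⟨h1, Q, h2, h3, hE⟩)))))))))

theorem sp_cases_5 {F : Type*} [Field F] [Fintype F] (H : Subgroup (Matrix.GeneralLinearGroup (Fin 5 ⊕ Fin 5) F))
    (hH : Cfsg.Geo.IsMaximalIn (Cfsg.spGL 5 F) H)
    (hstr : (∃ M, Asch.SpMember (Cfsg.sympForm 5 F) M ∧ H ≤ M) ∨ InSymplecticResidualClass H) :
    (∃ W : Submodule F (Fin 5 ⊕ Fin 5 → F), W ≠ ⊥ ∧ Cfsg.Geo.IsTotallySingularFor (Cfsg.sympForm 5 F) W ∧ H = Cfsg.Geo.subspaceStabilizer W ⊓ Cfsg.spGL 5 F) ∨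
    (∃ W : Submodule F (Fin 5 ⊕ Fin 5 → F), W ≠ ⊥ ∧ Cfsg.Geo.IsNondegenerateOn (Cfsg.sympForm 5 F) W ∧ Module.finrank F W < 5 ∧ H = Cfsg.Geo.subspaceStabilizer W ⊓ Cfsg.spGL 5 F) ∨
    (3 ≤ Fintype.card F ∧ ∃ D : Fin 5 → Submodule F (Fin 5 ⊕ Fin 5 → F), Cfsg.Geo.IsNondegenerateMDecomposition (Cfsg.sympForm 5 F) 2 D ∧ H = Cfsg.Geo.decompositionStabilizer D ⊓ Cfsg.spGL 5 F) ∨
    (Odd (Fintype.card F) ∧ ∃ D : Fin 2 → Submodule F (Fin 5 ⊕ Fin 5 → F), Cfsg.Geo.IsMDecomposition 5 D ∧ (∀ i, Cfsg.Geo.IsTotallySingularFor (Cfsg.sympForm 5 F) (D i)) ∧ H = Cfsg.Geo.decompositionStabilizer D ⊓ Cfsg.spGL 5 F) ∨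
    (∃ K : Subalgebra F (Matrix (Fin 5 ⊕ Fin 5) (Fin 5 ⊕ Fin 5) F), Cfsg.Geo.IsFieldSubalgebra 5 K ∧ Cfsg.Geo.IsSelfAdjointFor (Cfsg.sympForm 5 F) K ∧ (∀ k ∈ K, ∀ v : (Fin 5 ⊕ Fin 5 → F), (Cfsg.sympForm 5 F) (Matrix.mulVec k v) v = 0) ∧ H = Cfsg.Geo.subalgebraNormalizer K ⊓ Cfsg.spGL 5 F) ∨
    (Odd (Fintype.card F) ∧ ∃ K : Subalgebra F (Matrix (Fin 5 ⊕ Fin 5) (Fin 5 ⊕ Fin 5) F), Cfsg.Geo.IsFieldSubalgebra 2 K ∧ Cfsg.Geo.IsAdjointClosedFor (Cfsg.sympForm 5 F) K ∧ ¬ Cfsg.Geo.IsSelfAdjointFor (Cfsg.sympForm 5 F) K ∧ H = Cfsg.Geo.subalgebraNormalizer K ⊓ Cfsg.spGL 5 F) ∨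
    (Odd (Fintype.card F) ∧ ∃ (e : (Fin 5 ⊕ Fin 5) ≃ Fin 2 × Fin 5) (P : Matrix.GeneralLinearGroup (Fin 5 ⊕ Fin 5) F) (f₁ : (Fin 2 → F) → (Fin 2 → F) → F) (f₂ : (Fin 5 → F) → (Fin 5 → F) → F), Cfsg.Geo.IsSymplecticForm f₁ ∧ Cfsg.Geo.IsSymmetricForm f₂ ∧ Cfsg.Geo.IsTensorFormStructure id (Cfsg.sympForm 5 F) f₁ f₂ e P ∧ H = Cfsg.Geo.tensorProductSubgroup 2 5 e P ⊓ Cfsg.spGL 5 F) ∨
    (∃ (F₀ : Subfield F) (r : ℕ) (P : Matrix.GeneralLinearGroup (Fin 5 ⊕ Fin 5) F) (ζ : F), r.Prime ∧ Fintype.card F = Nat.card F₀ ^ r ∧ ζ ≠ 0 ∧ Cfsg.Geo.IsFormRationalStructure (Cfsg.sympForm 5 F) F₀ ζ P ∧ H = Cfsg.Geo.subfieldSubgroup F₀ P ⊓ Cfsg.spGL 5 F) ∨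
    (¬ Odd (Fintype.card F) ∧ ∃ Q : (Fin 5 ⊕ Fin 5 → F) → F, Cfsg.Geo.IsNondegenerateQuadraticForm Q ∧ (∀ u v : (Fin 5 ⊕ Fin 5 → F), QuadraticMap.polar Q u v = (Cfsg.sympForm 5 F) u v) ∧ H = Cfsg.Geo.quadSimilarityGroup Q ⊓ Cfsg.spGL 5 F) ∨
    Cfsg.Geo.InSymplecticResidualClass H := by
  have hs := GeoMax.Symp.std 5 F
  have hc : Fintype.card (Fin 5 ⊕ Fin 5) = 10 := by simp
  haveI : Nonempty (Fin 5 ⊕ Fin 5) := ⟨Sum.inl 0⟩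
  have hq1 : 1 < Fintype.card F := Fintype.one_lt_card
  rcases sp_maximal (by norm_num) hH hstr with ⟨M, hM, hE⟩ | hres
  swap
  · exact Or.inr (Or.inr (Or.inr (Or.inr (Or.inr (Or.inr (Or.inr (Or.inr (Or.inr (hres)))))))))
  rcases hM with ⟨W, h1, h2, rfl⟩ | ⟨W, h1, h2, h3, rfl⟩ | ⟨t, k, D, h1, rfl⟩ | ⟨k, D, h1, h2, h3, rfl⟩ |
    ⟨r, K, h1, h2, h3, h4, rfl⟩ | ⟨K, h1, h2, h3, h4, rfl⟩ | ⟨n₁, n₂, e, P, f₁, f₂, h1, h2, h3, h4, h5, rfl⟩ |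
    ⟨F₀, r, P, ζ, h1, h2, h3, h4, rfl⟩ | ⟨R, p, k, h1, h2, h3, h4, h5, h6, h7, h8, h9, h10, rfl⟩ |
    ⟨k, t, e, P, f₁, h1, h2, h3, h4, h5, h6, rfl⟩ | ⟨Q, h1, h2, h3, rfl⟩
  · exact Or.inl (⟨W, h1, h2, hE⟩)
  · exact Or.inr (Or.inl (⟨W, h1, h2, by omega, hE⟩))
  · have ht := h1.decomp.two_le
    have e1 := even_finrank_nondeg hs (h1.nondegenerate ⟨0, by omega⟩)
    rw [h1.decomp.finrank_eq] at e1
    have e2 := card_eq_of_decomp h1.decomp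
    rw [hc] at e2
    have e3 := h1.decomp.pos
    obtain ⟨j, hj⟩ := e1
    have e4 : k ≤ 5 := by nlinarith
    have hcs : (t = 5 ∧ k = 2) := by
      interval_cases k <;> omega
    obtain ⟨rfl, rfl⟩ := hcs
    by_cases hq2 : Fintype.card F = 2
    · obtain ⟨Q, hQ, hQ', hle⟩ := planes_two hq2 hs h1
      have hodd : ¬ Odd (Fintype.card F) := by rw [hq2]; decide
      have hle2 : H ≤ quadSimilarityGroup Q := by rw [hE]; exact inf_le_left.trans hle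
      have hE2 := eq_inf_of_maximal hH hle2 (sp_not_le_quadSimilarity (by norm_num) (two_eq_zero_of_card hodd) hQ hQ')
      exact Or.inr (Or.inr (Or.inr (Or.inr (Or.inr (Or.inr (Or.inr (Or.inr (Or.inl (⟨hodd, Q, hQ, hQ', hE2⟩)))))))))
    · exact Or.inr (Or.inr (Or.inl (⟨by omega, D, h1, hE⟩)))
  · have e2 := card_eq_of_decomp h2
    rw [hc] at e2
    obtain rfl : k = 5 := by omega
    exact Or.inr (Or.inr (Or.inr (Or.inl (⟨h1, D, h2, h3, hE⟩))))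
  · have hrm : r ∣ 5 := dvd_half hs h2 h3 h4 (by rw [hc])
    have hrle : r ≤ 5 := Nat.le_of_dvd (by norm_num) hrm
    have hr2 := h1.two_le
    have hcs : r = 5 := by
      interval_cases r <;> first | (exfalso; revert hrm; norm_num; done) | (exfalso; revert h1; norm_num; done) | simp
    rcases hcs with rfl
    · exact Or.inr (Or.inr (Or.inr (Or.inr (Or.inl (⟨K, h2, h3, h4, hE⟩)))))
  · exact Or.inr (Or.inr (Or.inr (Or.inr (Or.inr (Or.inl (⟨h1, K, h2, h3, h4, hE⟩))))))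
  · have e1 := Asch.even_card_of_isSymplecticForm h3
    rw [Fintype.card_fin] at e1
    have e2 : Fintype.card (Fin 5 ⊕ Fin 5) = n₁ * n₂ := by simpa using Fintype.card_congr e
    rw [hc] at e2
    obtain ⟨j, hj⟩ := e1
    have e4 : n₁ ≤ 3 := by nlinarith
    have hcs : (n₁ = 2 ∧ n₂ = 5) := by
      interval_cases n₁ <;> omega
    obtain ⟨rfl, rfl⟩ := hcs
    exact Or.inr (Or.inr (Or.inr (Or.inr (Or.inr (Or.inr (Or.inl (⟨h1, e, P, f₁, f₂, h3, h4, h5, hE⟩)))))))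
  · exact Or.inr (Or.inr (Or.inr (Or.inr (Or.inr (Or.inr (Or.inr (Or.inl (⟨F₀, r, P, ζ, h1, h2, h3, h4, hE⟩))))))))
  · exfalso
    rw [hc] at h10
    exact no_two_primes Nat.prime_two h10 (a := 2) (b := 5) (by norm_num) (by norm_num) (by norm_num) (by norm_num) (by norm_num)
  · exfalso
    have e1 := Asch.even_card_of_isSymplecticForm h5
    rw [Fintype.card_fin] at e1
    have e2 : Fintype.card (Fin 5 ⊕ Fin 5) = k ^ t := by simpa using Fintype.card_congr e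
    rw [hc] at e2
    have hk0 : k ≠ 0 := by
      rintro rfl
      rw [zero_pow (by omega)] at e2
      omega
    obtain ⟨j, hj⟩ := e1
    have hk2 : 2 ≤ k := by omega
    have hk3 : k < 3 := by
      by_contra hk3
      have e5 : 3 ^ 3 ≤ k ^ t := (Nat.pow_le_pow_left (by omega) 3).trans (Nat.pow_le_pow_right (by omega) h3)
      omega
    obtain rfl : k = 2 := by omega
    exact no_two_primes Nat.prime_two e2 (a := 2) (b := 5) (by norm_num) (by norm_num) (by norm_num) (by norm_num) (by norm_num)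
  · exact Or.inr (Or.inr (Or.inr (Or.inr (Or.inr (Or.inr (Or.inr (Or.inr (Or.inl (⟨h1, Q, h2, h3, hE⟩)))))))))

theorem sp_cases_6 {F : Type*} [Field F] [Fintype F] (H : Subgroup (Matrix.GeneralLinearGroup (Fin 6 ⊕ Fin 6) F))
    (hH : Cfsg.Geo.IsMaximalIn (Cfsg.spGL 6 F) H)
    (hstr : (∃ M, Asch.SpMember (Cfsg.sympForm 6 F) M ∧ H ≤ M) ∨ InSymplecticResidualClass H) :
    (∃ W : Submodule F (Fin 6 ⊕ Fin 6 → F), W ≠ ⊥ ∧ Cfsg.Geo.IsTotallySingularFor (Cfsg.sympForm 6 F) W ∧ H = Cfsg.Geo.subspaceStabilizer W ⊓ Cfsg.spGL 6 F) ∨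
    (∃ W : Submodule F (Fin 6 ⊕ Fin 6 → F), W ≠ ⊥ ∧ Cfsg.Geo.IsNondegenerateOn (Cfsg.sympForm 6 F) W ∧ Module.finrank F W < 6 ∧ H = Cfsg.Geo.subspaceStabilizer W ⊓ Cfsg.spGL 6 F) ∨
    (3 ≤ Fintype.card F ∧ ∃ D : Fin 6 → Submodule F (Fin 6 ⊕ Fin 6 → F), Cfsg.Geo.IsNondegenerateMDecomposition (Cfsg.sympForm 6 F) 2 D ∧ H = Cfsg.Geo.decompositionStabilizer D ⊓ Cfsg.spGL 6 F) ∨
    (∃ D : Fin 3 → Submodule F (Fin 6 ⊕ Fin 6 → F), Cfsg.Geo.IsNondegenerateMDecomposition (Cfsg.sympForm 6 F) 4 D ∧ H = Cfsg.Geo.decompositionStabilizer D ⊓ Cfsg.spGL 6 F) ∨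
    (∃ D : Fin 2 → Submodule F (Fin 6 ⊕ Fin 6 → F), Cfsg.Geo.IsNondegenerateMDecomposition (Cfsg.sympForm 6 F) 6 D ∧ H = Cfsg.Geo.decompositionStabilizer D ⊓ Cfsg.spGL 6 F) ∨
    (Odd (Fintype.card F) ∧ ∃ D : Fin 2 → Submodule F (Fin 6 ⊕ Fin 6 → F), Cfsg.Geo.IsMDecomposition 6 D ∧ (∀ i, Cfsg.Geo.IsTotallySingularFor (Cfsg.sympForm 6 F) (D i)) ∧ H = Cfsg.Geo.decompositionStabilizer D ⊓ Cfsg.spGL 6 F) ∨
    (∃ K : Subalgebra F (Matrix (Fin 6 ⊕ Fin 6) (Fin 6 ⊕ Fin 6) F), Cfsg.Geo.IsFieldSubalgebra 2 K ∧ Cfsg.Geo.IsSelfAdjointFor (Cfsg.sympForm 6 F) K ∧ (∀ k ∈ K, ∀ v : (Fin 6 ⊕ Fin 6 → F), (Cfsg.sympForm 6 F) (Matrix.mulVec k v) v = 0) ∧ H = Cfsg.Geo.subalgebraNormalizer K ⊓ Cfsg.spGL 6 F) ∨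
    (∃ K : Subalgebra F (Matrix (Fin 6 ⊕ Fin 6) (Fin 6 ⊕ Fin 6) F), Cfsg.Geo.IsFieldSubalgebra 3 K ∧ Cfsg.Geo.IsSelfAdjointFor (Cfsg.sympForm 6 F) K ∧ (∀ k ∈ K, ∀ v : (Fin 6 ⊕ Fin 6 → F), (Cfsg.sympForm 6 F) (Matrix.mulVec k v) v = 0) ∧ H = Cfsg.Geo.subalgebraNormalizer K ⊓ Cfsg.spGL 6 F) ∨
    (Odd (Fintype.card F) ∧ ∃ K : Subalgebra F (Matrix (Fin 6 ⊕ Fin 6) (Fin 6 ⊕ Fin 6) F), Cfsg.Geo.IsFieldSubalgebra 2 K ∧ Cfsg.Geo.IsAdjointClosedFor (Cfsg.sympForm 6 F) K ∧ ¬ Cfsg.Geo.IsSelfAdjointFor (Cfsg.sympForm 6 F) K ∧ H = Cfsg.Geo.subalgebraNormalizer K ⊓ Cfsg.spGL 6 F) ∨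
    (Odd (Fintype.card F) ∧ ∃ (e : (Fin 6 ⊕ Fin 6) ≃ Fin 2 × Fin 6) (P : Matrix.GeneralLinearGroup (Fin 6 ⊕ Fin 6) F) (f₁ : (Fin 2 → F) → (Fin 2 → F) → F) (f₂ : (Fin 6 → F) → (Fin 6 → F) → F), Cfsg.Geo.IsSymplecticForm f₁ ∧ Cfsg.Geo.IsSymmetricForm f₂ ∧ Cfsg.Geo.IsTensorFormStructure id (Cfsg.sympForm 6 F) f₁ f₂ e P ∧ H = Cfsg.Geo.tensorProductSubgroup 2 6 e P ⊓ Cfsg.spGL 6 F) ∨
    (Odd (Fintype.card F) ∧ 5 ≤ Fintype.card F ∧ ∃ (e : (Fin 6 ⊕ Fin 6) ≃ Fin 4 × Fin 3) (P : Matrix.GeneralLinearGroup (Fin 6 ⊕ Fin 6) F) (f₁ : (Fin 4 → F) → (Fin 4 → F) → F) (f₂ : (Fin 3 → F) → (Fin 3 → F) → F), Cfsg.Geo.IsSymplecticForm f₁ ∧ Cfsg.Geo.IsSymmetricForm f₂ ∧ Cfsg.Geo.IsTensorFormStructure id (Cfsg.sympForm 6 F) f₁ f₂ e P ∧ H = Cfsg.Geo.tensorProductSubgroup 4 3 e P ⊓ Cfsg.spGL 6 F) ∨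
    (∃ (F₀ : Subfield F) (r : ℕ) (P : Matrix.GeneralLinearGroup (Fin 6 ⊕ Fin 6) F) (ζ : F), r.Prime ∧ Fintype.card F = Nat.card F₀ ^ r ∧ ζ ≠ 0 ∧ Cfsg.Geo.IsFormRationalStructure (Cfsg.sympForm 6 F) F₀ ζ P ∧ H = Cfsg.Geo.subfieldSubgroup F₀ P ⊓ Cfsg.spGL 6 F) ∨
    (¬ Odd (Fintype.card F) ∧ ∃ Q : (Fin 6 ⊕ Fin 6 → F) → F, Cfsg.Geo.IsNondegenerateQuadraticForm Q ∧ (∀ u v : (Fin 6 ⊕ Fin 6 → F), QuadraticMap.polar Q u v = (Cfsg.sympForm 6 F) u v) ∧ H = Cfsg.Geo.quadSimilarityGroup Q ⊓ Cfsg.spGL 6 F) ∨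
    Cfsg.Geo.InSymplecticResidualClass H := by
  have hs := GeoMax.Symp.std 6 F
  have hc : Fintype.card (Fin 6 ⊕ Fin 6) = 12 := by simp
  haveI : Nonempty (Fin 6 ⊕ Fin 6) := ⟨Sum.inl 0⟩
  have hq1 : 1 < Fintype.card F := Fintype.one_lt_card
  rcases sp_maximal (by norm_num) hH hstr with ⟨M, hM, hE⟩ | hres
  swap
  · exact Or.inr (Or.inr (Or.inr (Or.inr (Or.inr (Or.inr (Or.inr (Or.inr (Or.inr (Or.inr (Or.inr (Or.inr (Or.inr (hres)))))))))))))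
  rcases hM with ⟨W, h1, h2, rfl⟩ | ⟨W, h1, h2, h3, rfl⟩ | ⟨t, k, D, h1, rfl⟩ | ⟨k, D, h1, h2, h3, rfl⟩ |
    ⟨r, K, h1, h2, h3, h4, rfl⟩ | ⟨K, h1, h2, h3, h4, rfl⟩ | ⟨n₁, n₂, e, P, f₁, f₂, h1, h2, h3, h4, h5, rfl⟩ |
    ⟨F₀, r, P, ζ, h1, h2, h3, h4, rfl⟩ | ⟨R, p, k, h1, h2, h3, h4, h5, h6, h7, h8, h9, h10, rfl⟩ |
    ⟨k, t, e, P, f₁, h1, h2, h3, h4, h5, h6, rfl⟩ | ⟨Q, h1, h2, h3, rfl⟩
  · exact Or.inl (⟨W, h1, h2, hE⟩)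
  · exact Or.inr (Or.inl (⟨W, h1, h2, by omega, hE⟩))
  · have ht := h1.decomp.two_le
    have e1 := even_finrank_nondeg hs (h1.nondegenerate ⟨0, by omega⟩)
    rw [h1.decomp.finrank_eq] at e1
    have e2 := card_eq_of_decomp h1.decomp
    rw [hc] at e2
    have e3 := h1.decomp.pos
    obtain ⟨j, hj⟩ := e1
    have e4 : k ≤ 6 := by nlinarith
    have hcs : (t = 6 ∧ k = 2) ∨ (t = 3 ∧ k = 4) ∨ (t = 2 ∧ k = 6) := by
      interval_cases k <;> omega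
    rcases hcs with ⟨rfl, rfl⟩ | ⟨rfl, rfl⟩ | ⟨rfl, rfl⟩
    · by_cases hq2 : Fintype.card F = 2
      · obtain ⟨Q, hQ, hQ', hle⟩ := planes_two hq2 hs h1
        have hodd : ¬ Odd (Fintype.card F) := by rw [hq2]; decide
        have hle2 : H ≤ quadSimilarityGroup Q := by rw [hE]; exact inf_le_left.trans hle
        have hE2 := eq_inf_of_maximal hH hle2 (sp_not_le_quadSimilarity (by norm_num) (two_eq_zero_of_card hodd) hQ hQ')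
        exact Or.inr (Or.inr (Or.inr (Or.inr (Or.inr (Or.inr (Or.inr (Or.inr (Or.inr (Or.inr (Or.inr (Or.inr (Or.inl (⟨hodd, Q, hQ, hQ', hE2⟩)))))))))))))
      · exact Or.inr (Or.inr (Or.inl (⟨by omega, D, h1, hE⟩)))
    · exact Or.inr (Or.inr (Or.inr (Or.inl (⟨D, h1, hE⟩))))
    · exact Or.inr (Or.inr (Or.inr (Or.inr (Or.inl (⟨D, h1, hE⟩)))))
  · have e2 := card_eq_of_decomp h2
    rw [hc] at e2
    obtain rfl : k = 6 := by omega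
    exact Or.inr (Or.inr (Or.inr (Or.inr (Or.inr (Or.inl (⟨h1, D, h2, h3, hE⟩))))))
  · have hrm : r ∣ 6 := dvd_half hs h2 h3 h4 (by rw [hc])
    have hrle : r ≤ 6 := Nat.le_of_dvd (by norm_num) hrm
    have hr2 := h1.two_le
    have hcs : r = 2 ∨ r = 3 := by
      interval_cases r <;> first | (exfalso; revert hrm; norm_num; done) | (exfalso; revert h1; norm_num; done) | simp
    rcases hcs with rfl | rfl
    · exact Or.inr (Or.inr (Or.inr (Or.inr (Or.inr (Or.inr (Or.inl (⟨K, h2, h3, h4, hE⟩)))))))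
    · exact Or.inr (Or.inr (Or.inr (Or.inr (Or.inr (Or.inr (Or.inr (Or.inl (⟨K, h2, h3, h4, hE⟩))))))))
  · exact Or.inr (Or.inr (Or.inr (Or.inr (Or.inr (Or.inr (Or.inr (Or.inr (Or.inl (⟨h1, K, h2, h3, h4, hE⟩)))))))))
  · have e1 := Asch.even_card_of_isSymplecticForm h3
    rw [Fintype.card_fin] at e1
    have e2 : Fintype.card (Fin 6 ⊕ Fin 6) = n₁ * n₂ := by simpa using Fintype.card_congr e
    rw [hc] at e2
    obtain ⟨j, hj⟩ := e1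
    have e4 : n₁ ≤ 4 := by nlinarith
    have hcs : (n₁ = 2 ∧ n₂ = 6) ∨ (n₁ = 4 ∧ n₂ = 3) := by
      interval_cases n₁ <;> omega
    rcases hcs with ⟨rfl, rfl⟩ | ⟨rfl, rfl⟩
    · exact Or.inr (Or.inr (Or.inr (Or.inr (Or.inr (Or.inr (Or.inr (Or.inr (Or.inr (Or.inl (⟨h1, e, P, f₁, f₂, h3, h4, h5, hE⟩))))))))))
    · by_cases hq3 : Fintype.card F = 3
      · obtain ⟨D, hD, hle⟩ := tensor_three_three hq3 hs.bilinear (by norm_num) h3.bilinear h3.nondegenerate h4 h5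
        have hle2 : H ≤ decompositionStabilizer D := by
          rw [hE]; exact fun g hg => hle g hg.1 ((mem_spGL_iff g).1 hg.2)
        have hE2 := eq_inf_of_maximal hH hle2 ((sp_geom 6 F).not_le_decompositionStabilizer (by norm_num) D hD.decomp)
        exact Or.inr (Or.inr (Or.inr (Or.inl (⟨D, hD, hE2⟩))))
      · have hq5 : 5 ≤ Fintype.card F := by
          obtain ⟨j, hj⟩ := h1
          omega
        exact Or.inr (Or.inr (Or.inr (Or.inr (Or.inr (Or.inr (Or.inr (Or.inr (Or.inr (Or.inr (Or.inl (⟨h1, hq5, e, P, f₁, f₂, h3, h4, h5, hE⟩)))))))))))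
  · exact Or.inr (Or.inr (Or.inr (Or.inr (Or.inr (Or.inr (Or.inr (Or.inr (Or.inr (Or.inr (Or.inr (Or.inl (⟨F₀, r, P, ζ, h1, h2, h3, h4, hE⟩))))))))))))
  · exfalso
    rw [hc] at h10
    exact no_two_primes Nat.prime_two h10 (a := 2) (b := 3) (by norm_num) (by norm_num) (by norm_num) (by norm_num) (by norm_num)
  · exfalso
    have e1 := Asch.even_card_of_isSymplecticForm h5
    rw [Fintype.card_fin] at e1
    have e2 : Fintype.card (Fin 6 ⊕ Fin 6) = k ^ t := by simpa using Fintype.card_congr e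
    rw [hc] at e2
    have hk0 : k ≠ 0 := by
      rintro rfl
      rw [zero_pow (by omega)] at e2
      omega
    obtain ⟨j, hj⟩ := e1
    have hk2 : 2 ≤ k := by omega
    have hk3 : k < 3 := by
      by_contra hk3
      have e5 : 3 ^ 3 ≤ k ^ t := (Nat.pow_le_pow_left (by omega) 3).trans (Nat.pow_le_pow_right (by omega) h3)
      omega
    obtain rfl : k = 2 := by omega
    exact no_two_primes Nat.prime_two e2 (a := 2) (b := 3) (by norm_num) (by norm_num) (by norm_num) (by norm_num) (by norm_num)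
  · exact Or.inr (Or.inr (Or.inr (Or.inr (Or.inr (Or.inr (Or.inr (Or.inr (Or.inr (Or.inr (Or.inr (Or.inr (Or.inl (⟨h1, Q, h2, h3, hE⟩)))))))))))))

end Cfsg.Agent.AschCases
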